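import Mathlib
import Cfsg.Prelude.Def_GeometricClasses
import Cfsg.Prelude.Def_LieClassical
import Cfsg.Agent.Lib.Helper71.Asch0
import Cfsg.Agent.Lib.Helper71.Asch5
import Cfsg.Agent.Lib.Helper71.Asch8

/-! Project SPG (helper71), sub-project TIF, piece T4 (helper77): `q` odd, normalisation of the
factor forms to a single symplectic form by a pure tensor; the tensor power form structure and the
tensor-wreath subgroup. -/

set_option autoImplicit false
set_option linter.unusedSectionVars false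
set_option linter.unusedVariables false

namespace Cfsg.Agent.Lib.Helper77.TIFT4

open Matrix Cfsg.Geo Cfsg.Agent.Lib.Helper71.Asch

variable {n : ℕ} {F : Type*} [Field F] [Fintype F]

theorem tift4_sum_eq {I : Type*} [Fintype I] (M : Matrix I I F) (x y : I → F) :
    ∑ a, ∑ b, x a * M a b * y b = x ⬝ᵥ M *ᵥ y := by
  simp only [dotProduct, Matrix.mulVec, Finset.mul_sum]
  refine Finset.sum_congr rfl fun a _ => Finset.sum_congr rfl fun b _ => by ring

theorem tift4_conj {I : Type*} [Fintype I] [DecidableEq I] (T M : Matrix I I F) (x y : I → F) :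
    (T *ᵥ x) ⬝ᵥ M *ᵥ (T *ᵥ y) = x ⬝ᵥ (Tᵀ * M * T) *ᵥ y := by
  rw [← Matrix.vecMul_transpose T x, ← Matrix.dotProduct_mulVec, Matrix.mulVec_mulVec,
    Matrix.mulVec_mulVec, Matrix.mul_assoc]

/-- from rectangular base change matrices to the tensor-wreath subgroup, with the base change
exposed (as in `Helper71.ASB8WR.wreath_mem`) -/
theorem tift4_wreath {n m k : ℕ} (P : Matrix (Fin n) (Fin k → Fin m) F)
    (Q : Matrix (Fin k → Fin m) (Fin n) F) (hPQ : P * Q = 1) (hQP : Q * P = 1) :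
    ∃ (e : Fin n ≃ (Fin k → Fin m)) (P' : GL (Fin n) F),
      (∀ x : (Fin k → Fin m) → F, P'.1 *ᵥ (x ∘ e) = P *ᵥ x) ∧
      ∀ (h : GL (Fin n) F) (g : GL (Fin k → Fin m) F), g ∈ tensorWreathStandard m k F →
        h.1 = P * g.1 * Q → h ∈ tensorWreathSubgroup m k e P' := by
  have hcard : Fintype.card (Fin n) = Fintype.card (Fin k → Fin m) := by
    have le : ((Fin k → Fin m) → F) ≃ₗ[F] (Fin n → F) :=
      LinearEquiv.ofLinearMap (Matrix.toLin' P) (Matrix.toLin' Q)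
        (by rw [← Matrix.toLin'_mul, hPQ, Matrix.toLin'_one])
        (by rw [← Matrix.toLin'_mul, hQP, Matrix.toLin'_one])
    have h1 := le.finrank_eq
    rw [Module.finrank_fintype_fun_eq_card, Module.finrank_fintype_fun_eq_card] at h1
    exact h1.symm
  obtain ⟨e⟩ : Nonempty (Fin n ≃ (Fin k → Fin m)) := ⟨Fintype.equivOfCardEq hcard⟩
  have h1 : P.submatrix id e * Q.submatrix e id = 1 := by
    rw [Matrix.submatrix_mul_equiv, hPQ, Matrix.submatrix_one _ Function.injective_id]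
  have h2 : Q.submatrix e id * P.submatrix id e = 1 := by
    rw [← Matrix.submatrix_mul _ _ _ _ _ Function.bijective_id, hQP, Matrix.submatrix_one_equiv]
  refine ⟨e, ⟨P.submatrix id e, Q.submatrix e id, h1, h2⟩, ?_, ?_⟩
  · intro x
    ext i
    show ∑ j, P i (e j) * x (e j) = ∑ a, P i a * x a
    exact Equiv.sum_comp e (fun a => P i a * x a)
  · intro h g hg hh
    rw [Cfsg.Agent.Lib.Helper71.Asch.mem_tensorWreathSubgroup_iff]
    refine ⟨g, hg, ?_⟩
    rw [hh]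
    show P * g.1 * Q = P.submatrix id e * Matrix.reindex e.symm e.symm g.1 * Q.submatrix e id
    rw [Matrix.reindex_apply, Equiv.symm_symm, Matrix.submatrix_mul_equiv,
      Matrix.submatrix_mul_equiv, Matrix.submatrix_id_id]

/-- T4: `q` odd: normalisation of the factor forms to a single symplectic form; the tensor power
form structure and the tensor-wreath subgroup. -/
theorem T4 (f : (Fin n → F) → (Fin n → F) → F) (hf : IsSymplecticForm f)
    (H : Subgroup (GL (Fin n) F)) {m k : ℕ} (hm : 2 ≤ m) (hk : 2 ≤ k)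
    (P : Matrix (Fin n) (Fin k → Fin m) F) (Q : Matrix (Fin k → Fin m) (Fin n) F)
    (hPQ : P * Q = 1) (hQP : Q * P = 1) (c : F) (hc : c ≠ 0)
    (Gs : Fin k → Matrix (Fin m) (Fin m) F) (hdet : ∀ i, (Gs i).det ≠ 0)
    (hskew : ∀ i, (Gs i)ᵀ = -Gs i) (hdiag : ∀ i u, Gs i u u = 0)
    (hconj : ∀ i j, ∃ (μ : F) (B : GL (Fin m) F), μ ≠ 0 ∧ B.1ᵀ * Gs j * B.1 = μ • Gs i)
    (hform : ∀ x y : (Fin k → Fin m) → F,
      f (P *ᵥ x) (P *ᵥ y) = ∑ a, ∑ b, x a * (c * ∏ i, Gs i (a i) (b i)) * y b)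
    (hH : ∀ h ∈ H, ∃ g : GL (Fin k → Fin m) F, g ∈ tensorWreathStandard m k F ∧
      h.1 = P * g.1 * Q) :
    ∃ (e : Fin n ≃ (Fin k → Fin m)) (P' : GL (Fin n) F) (f₁ : (Fin m → F) → (Fin m → F) → F),
      IsSymplecticForm f₁ ∧ IsTensorPowerFormStructure id f f₁ e P' ∧
      H ≤ tensorWreathSubgroup m k e P' := by
  classical
  have hk0 : 0 < k := by omega
  obtain ⟨i₀⟩ : Nonempty (Fin k) := ⟨⟨0, hk0⟩⟩
  have hch := fun i => hconj i₀ i
  choose μ B hμ hB using hch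
  obtain ⟨G₀, hG₀⟩ : ∃ G₀ : Matrix (Fin m) (Fin m) F, G₀ = Gs i₀ := ⟨_, rfl⟩
  have hG₀skew : G₀ᵀ = -G₀ := by rw [hG₀]; exact hskew i₀
  have hG₀diag : ∀ u, G₀ u u = 0 := by rw [hG₀]; exact hdiag i₀
  have hG₀det : G₀.det ≠ 0 := by rw [hG₀]; exact hdet i₀
  have hB' : ∀ i, ((B i : GL (Fin m) F) : Matrix (Fin m) (Fin m) F)ᵀ * Gs i * (B i).1 =
      μ i • G₀ := by
    intro i
    rw [hG₀]
    exact hB i
  -- the factor form
  have hsk : ∀ v w : Fin m → F, v ⬝ᵥ G₀ *ᵥ w = -(w ⬝ᵥ G₀ *ᵥ v) := by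
    intro v w
    rw [Matrix.dotProduct_mulVec, ← Matrix.mulVec_transpose, hG₀skew, Matrix.neg_mulVec,
      neg_dotProduct, dotProduct_comm]
  have hf₁ : IsSymplecticForm (fun u v : Fin m → F => u ⬝ᵥ G₀ *ᵥ v) := by
    refine ⟨⟨?_, ?_, ?_, ?_⟩, ?_, ?_, ?_⟩
    · intro x y v
      exact add_dotProduct x y _
    · intro c x v
      exact smul_dotProduct c x _
    · intro v x y
      show v ⬝ᵥ G₀ *ᵥ (x + y) = _
      rw [Matrix.mulVec_add, dotProduct_add]
    · intro c v x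
      show v ⬝ᵥ G₀ *ᵥ (c • x) = _
      rw [Matrix.mulVec_smul, dotProduct_smul, smul_eq_mul]
    · intro v w
      exact hsk v w
    · intro v
      exact alt_of_skew_diag G₀ hG₀skew hG₀diag v
    · intro v hv
      have hne : G₀ *ᵥ v ≠ 0 := fun h0 => hv (Matrix.eq_zero_of_mulVec_eq_zero hG₀det h0)
      obtain ⟨a, ha⟩ := Function.ne_iff.mp hne
      have h1 : (Pi.single a (1 : F) : Fin m → F) ⬝ᵥ G₀ *ᵥ v ≠ 0 := by
        rw [single_dotProduct, one_mul]
        exact ha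
      refine ⟨⟨Pi.single a 1, h1⟩, ⟨Pi.single a 1, ?_⟩⟩
      show v ⬝ᵥ G₀ *ᵥ (Pi.single a 1) ≠ 0
      rw [hsk]
      exact neg_ne_zero.mpr h1
  have hgram : ∀ a b, gramMatrix (fun u v : Fin m → F => u ⬝ᵥ G₀ *ᵥ v) a b = G₀ a b := by
    intro a b
    show (Pi.single a (1 : F) : Fin m → F) ⬝ᵥ G₀ *ᵥ (Pi.single b 1) = G₀ a b
    rw [single_dotProduct, one_mul]
    simp [Matrix.mulVec, dotProduct, Pi.single_apply]
  -- the normalising pure tensor
  obtain ⟨T, hT⟩ : ∃ T : Matrix (Fin k → Fin m) (Fin k → Fin m) F,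
      T = pt (fun i => (B i).1) := ⟨_, rfl⟩
  obtain ⟨Ti, hTi⟩ : ∃ Ti : Matrix (Fin k → Fin m) (Fin k → Fin m) F,
      Ti = pt (fun i => ((B i)⁻¹ : GL (Fin m) F).1) := ⟨_, rfl⟩
  have hTTi : T * Ti = 1 := by
    rw [hT, hTi, pt_mul]
    have h1 : (fun i => (B i).1 * ((B i)⁻¹ : GL (Fin m) F).1) =
        fun _ : Fin k => (1 : Matrix (Fin m) (Fin m) F) := by
      funext i
      rw [← Units.val_mul, mul_inv_cancel, Units.val_one]
    rw [h1, pt_one]
  have hTiT : Ti * T = 1 := by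
    rw [hT, hTi, pt_mul]
    have h1 : (fun i => ((B i)⁻¹ : GL (Fin m) F).1 * (B i).1) =
        fun _ : Fin k => (1 : Matrix (Fin m) (Fin m) F) := by
      funext i
      rw [← Units.val_mul, inv_mul_cancel, Units.val_one]
    rw [h1, pt_one]
  have hcong : Tᵀ * pt Gs * T = (∏ i, μ i) • pt (fun _ : Fin k => G₀) := by
    rw [hT, pt_transpose, pt_mul, pt_mul, ← pt_smul]
    congr 1
    funext i
    exact hB' i
  have hP₂Q₂ : (P * T) * (Ti * Q) = 1 := by
    rw [Matrix.mul_assoc, ← Matrix.mul_assoc T, hTTi, Matrix.one_mul, hPQ]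
  have hQ₂P₂ : (Ti * Q) * (P * T) = 1 := by
    rw [Matrix.mul_assoc, ← Matrix.mul_assoc Q, hQP, Matrix.one_mul, hTiT]
  obtain ⟨e, P', hP'x, hP'mem⟩ := tift4_wreath (P * T) (Ti * Q) hP₂Q₂ hQ₂P₂
  have hstruct : IsTensorPowerFormStructure id f (fun u v : Fin m → F => u ⬝ᵥ G₀ *ᵥ v) e P' := by
    unfold IsTensorPowerFormStructure
    refine ⟨c * ∏ i, μ i, mul_ne_zero hc (Finset.prod_ne_zero_iff.mpr fun i _ => hμ i), ?_⟩
    intro x y
    rw [hP'x, hP'x, ← Matrix.mulVec_mulVec, ← Matrix.mulVec_mulVec, hform]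
    have h1 : ∀ x' y' : (Fin k → Fin m) → F,
        ∑ a, ∑ b, x' a * (c * ∏ i, Gs i (a i) (b i)) * y' b = c * (x' ⬝ᵥ pt Gs *ᵥ y') := by
      intro x' y'
      rw [← tift4_sum_eq, Finset.mul_sum]
      refine Finset.sum_congr rfl fun a _ => ?_
      rw [Finset.mul_sum]
      refine Finset.sum_congr rfl fun b _ => ?_
      rw [pt_apply]
      ring
    have h2 : ∑ a, ∑ b, x a * (∏ i, gramMatrix (fun u v : Fin m → F => u ⬝ᵥ G₀ *ᵥ v)
        (a i) (b i)) * id (y b) = x ⬝ᵥ pt (fun _ : Fin k => G₀) *ᵥ y := by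
      rw [← tift4_sum_eq]
      refine Finset.sum_congr rfl fun a _ => Finset.sum_congr rfl fun b _ => ?_
      rw [pt_apply]
      simp only [hgram, id]
    rw [h1, h2, tift4_conj, hcong, Matrix.smul_mulVec, dotProduct_smul, smul_eq_mul, mul_assoc]
  refine ⟨e, P', fun u v => u ⬝ᵥ G₀ *ᵥ v, hf₁, hstruct, ?_⟩
  intro h hh
  obtain ⟨g, hg, hhg⟩ := hH h hh
  obtain ⟨tT, htT1, htT2⟩ : ∃ tT : GL (Fin k → Fin m) F, tT.1 = T ∧
      (tT⁻¹ : GL (Fin k → Fin m) F).1 = Ti := ⟨⟨T, Ti, hTTi, hTiT⟩, rfl, rfl⟩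
  have hpure : IsPureTensor m k tT := by
    unfold IsPureTensor
    refine ⟨B, fun x y => ?_⟩
    rw [htT1, hT, pt_apply]
  have htT : tT ∈ tensorWreathStandard m k F := Subgroup.subset_closure (Or.inl hpure)
  have hg' : tT⁻¹ * g * tT ∈ tensorWreathStandard m k F :=
    mul_mem (mul_mem (inv_mem htT) hg) htT
  apply hP'mem h (tT⁻¹ * g * tT) hg'
  rw [hhg, Units.val_mul, Units.val_mul, htT1, htT2]
  calc P * g.1 * Q = P * (T * Ti) * g.1 * (T * Ti) * Q := by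
        rw [hTTi, Matrix.mul_one, Matrix.mul_one]
    _ = P * T * (Ti * g.1 * T) * (Ti * Q) := by simp only [Matrix.mul_assoc]

end Cfsg.Agent.Lib.Helper77.TIFT4
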