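import Cfsg.Agent.Lib.Helper10.TH0

/-! # S1632 piece A4: triangular data of a real symmetric positive definite matrix -/

set_option autoImplicit false

namespace Cfsg.Agent.Lib.Helper77.THA4

open Matrix Complex UpperHalfPlane ModularForm MatrixGroups Cfsg.Agent.Lib.Helper10.TH
open scoped Manifold Real

/-- Row `0` of `A *ᵥ x`. -/
theorem mulVec_row_zero {n : ℕ} (A : Matrix (Fin (n + 1)) (Fin (n + 1)) ℝ) (x : Fin (n + 1) → ℝ) :
    (A *ᵥ x) 0 = A 0 0 * x 0 + ∑ j : Fin n, A 0 j.succ * x j.succ := by
  simp [Matrix.mulVec, dotProduct, Fin.sum_univ_succ]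

/-- Row `j + 1` of `A *ᵥ x`. -/
theorem mulVec_row_succ {n : ℕ} (A : Matrix (Fin (n + 1)) (Fin (n + 1)) ℝ) (x : Fin (n + 1) → ℝ)
    (i : Fin n) :
    (A *ᵥ x) i.succ = A i.succ 0 * x 0 +
      ((A.submatrix Fin.succ Fin.succ) *ᵥ (fun j : Fin n => x j.succ)) i := by
  simp [Matrix.mulVec, dotProduct, Fin.sum_univ_succ]

/-- A4 -/
theorem exists_tri {n : ℕ} (A : Matrix (Fin n) (Fin n) ℝ) (hA : A.IsSymm)
    (hpos : ∀ x : Fin n → ℝ, x ≠ 0 → 0 < x ⬝ᵥ (A *ᵥ x)) :
    ∃ T : Tri n, (∀ x : Fin n → ℝ, T.Q x = x ⬝ᵥ (A *ᵥ x)) ∧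
      ∀ x : Fin n → ℝ, T.grad x = A *ᵥ x := by
  induction n with
  | zero =>
    refine ⟨Tri.nil, fun x => ?_, fun x => ?_⟩
    · simp [Tri.Q_nil, dotProduct]
    · funext i; exact i.elim0
  | succ n ih =>
    set a : ℝ := A 0 0 with ha_def
    have ha : 0 < a := by
      have h := hpos (Pi.single 0 1) (by simp)
      simpa [Matrix.mulVec, dotProduct, Pi.single_apply] using h
    have hane : a ≠ 0 := ha.ne'
    set c : Fin n → ℝ := fun j => A 0 j.succ with hc_def
    have hsym : ∀ i : Fin n, A i.succ 0 = c i := fun i => by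
      have := congrFun (congrFun hA 0) i.succ
      simpa [Matrix.transpose_apply] using this
    set A' : Matrix (Fin n) (Fin n) ℝ := A.submatrix Fin.succ Fin.succ with hA'_def
    set S : Matrix (Fin n) (Fin n) ℝ := Matrix.of fun i j => A' i j - c i * c j / a with hS_def
    -- `S *ᵥ x'`
    have hSmul : ∀ (x' : Fin n → ℝ) (i : Fin n),
        (S *ᵥ x') i = (A' *ᵥ x') i - c i * (∑ j, c j * x' j) / a := by
      intro x' i
      simp only [Matrix.mulVec, dotProduct, hS_def, Matrix.of_apply]
      rw [Finset.mul_sum, Finset.sum_div, ← Finset.sum_sub_distrib]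
      refine Finset.sum_congr rfl fun j _ => ?_
      ring
    -- the completed square
    have hsq : ∀ x : Fin (n + 1) → ℝ,
        x ⬝ᵥ (A *ᵥ x) = a * (x 0 + ∑ j, c j / a * x j.succ) ^ 2 +
          (fun j : Fin n => x j.succ) ⬝ᵥ (S *ᵥ (fun j : Fin n => x j.succ)) := by
      intro x
      have h1 : x ⬝ᵥ (A *ᵥ x) = x 0 * (a * x 0 + ∑ j : Fin n, c j * x j.succ) +
          ∑ i : Fin n, x i.succ * (c i * x 0 + (A' *ᵥ (fun j : Fin n => x j.succ)) i) := by
        rw [dotProduct, Fin.sum_univ_succ, mulVec_row_zero]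
        congr 1
        refine Finset.sum_congr rfl fun i _ => ?_
        rw [mulVec_row_succ, hsym]
      have h2 : (fun j : Fin n => x j.succ) ⬝ᵥ (S *ᵥ (fun j : Fin n => x j.succ)) =
          ∑ i : Fin n, x i.succ * (A' *ᵥ (fun j : Fin n => x j.succ)) i -
            (∑ j, c j * x j.succ) * (∑ j, c j * x j.succ) / a := by
        rw [dotProduct]
        simp only [hSmul]
        rw [Finset.sum_mul, Finset.sum_div, ← Finset.sum_sub_distrib]
        refine Finset.sum_congr rfl fun i _ => ?_
        ring
      have h3 : ∑ j : Fin n, c j / a * x j.succ = (∑ j : Fin n, c j * x j.succ) / a := by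
        rw [Finset.sum_div]
        refine Finset.sum_congr rfl fun i _ => ?_
        ring
      have h4 : ∑ i : Fin n, x i.succ * (c i * x 0 + (A' *ᵥ (fun j : Fin n => x j.succ)) i) =
          x 0 * (∑ j : Fin n, c j * x j.succ) +
            ∑ i : Fin n, x i.succ * (A' *ᵥ (fun j : Fin n => x j.succ)) i := by
        rw [Finset.mul_sum, ← Finset.sum_add_distrib]
        refine Finset.sum_congr rfl fun i _ => ?_
        ring
      rw [h1, h2, h3, h4]
      field_simp
      ring
    -- `S` is symmetric
    have hSsymm : S.IsSymm := by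
      ext i j
      have := congrFun (congrFun hA j.succ) i.succ
      simp only [Matrix.transpose_apply] at this
      simp only [Matrix.transpose_apply, hS_def, Matrix.of_apply, hA'_def, Matrix.submatrix_apply]
      rw [this]
      ring
    -- `S` is positive
    have hSpos : ∀ x' : Fin n → ℝ, x' ≠ 0 → 0 < x' ⬝ᵥ (S *ᵥ x') := by
      intro x' hx'
      set y : Fin (n + 1) → ℝ := Fin.cons (-((∑ j, c j * x' j) / a)) x' with hy_def
      have hy : y ≠ 0 := by
        intro h
        apply hx'
        funext j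
        have := congrFun h j.succ
        simpa [hy_def] using this
      have h := hpos y hy
      rw [hsq y] at h
      have hy0 : y 0 = -((∑ j, c j * x' j) / a) := by simp [hy_def]
      have hys : (fun j : Fin n => y j.succ) = x' := by
        funext j
        simp [hy_def]
      have hys' : ∀ j : Fin n, y j.succ = x' j := fun j => by simp [hy_def]
      rw [hys, hy0] at h
      simp only [hys'] at h
      have h3 : ∑ j : Fin n, c j / a * x' j = (∑ j : Fin n, c j * x' j) / a := by
        rw [Finset.sum_div]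
        refine Finset.sum_congr rfl fun i _ => ?_
        ring
      rw [h3] at h
      simpa using h
    obtain ⟨T', hQ', hg'⟩ := ih S hSsymm hSpos
    refine ⟨Tri.cons a ha (fun j => c j / a) T', fun x => ?_, fun x => ?_⟩
    · rw [Tri.Q_cons, hQ', hsq]
    · rw [Tri.grad_cons, hg']
      have h3 : ∑ j : Fin n, c j / a * x j.succ = (∑ j : Fin n, c j * x j.succ) / a := by
        rw [Finset.sum_div]
        refine Finset.sum_congr rfl fun i _ => ?_
        ring
      funext i
      refine Fin.cases ?_ (fun j => ?_) i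
      · rw [Fin.cons_zero, mulVec_row_zero, h3]
        field_simp
        simp only [ha_def, hc_def]
        ring
      · rw [Fin.cons_succ, mulVec_row_succ, hsym, hSmul, h3]
        field_simp
        ring

end Cfsg.Agent.Lib.Helper77.THA4
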