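import Cfsg.Agent.Lib.Helper10.TH0

/-! # S1632 piece C4: the inversion formula of the Gaussian lattice sum -/

set_option autoImplicit false

namespace Cfsg.Agent.Lib.Helper77.THC4

open Matrix Complex UpperHalfPlane ModularForm MatrixGroups Cfsg.Agent.Lib.Helper10.TH
open scoped Manifold Real

variable {B : Matrix (Fin 24) (Fin 24) ℤ}

/-- `x ↦ B x` as a bijection of `ℤ²⁴` when `det B = 1`. -/
noncomputable def mulVecEquiv (hdet : B.det = 1) : (Fin 24 → ℤ) ≃ (Fin 24 → ℤ) where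
  toFun x := B *ᵥ x
  invFun y := B.adjugate *ᵥ y
  left_inv x := by
    simp [Matrix.mulVec_mulVec, Matrix.adjugate_mul, hdet]
  right_inv y := by
    simp [Matrix.mulVec_mulVec, Matrix.mul_adjugate, hdet]

theorem gsum_eq_of (hB : UHyp B) (T : Tri 24)
    (hTQ : ∀ x : Fin 24 → ℤ, T.Q (fun i => (x i : ℝ)) = (qf B x : ℝ))
    (hTg : ∀ x : Fin 24 → ℤ, T.grad (fun i => (x i : ℝ)) = fun i => ((B *ᵥ x) i : ℝ))
    (hinv : ∀ (t : ℂ), 0 < t.re → ∀ z : Fin 24 → ℝ,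
      ∑' x : Fin 24 → ℤ, cexp (-(π : ℂ) * t * ((T.Q (fun i => (x i : ℝ)) : ℝ) : ℂ) +
          2 * π * Complex.I * ((∑ i, (x i : ℝ) * z i : ℝ) : ℂ)) =
        (T.c : ℂ) * ((t ^ (1 / 2 : ℂ)) ^ 24)⁻¹ *
          ∑' ξ : Fin 24 → ℤ, cexp (-(π : ℂ) / t * ((T.Qd (fun i => (ξ i : ℝ) - z i) : ℝ) : ℂ)))
    (hdual : ∀ x : Fin 24 → ℝ, T.Qd (T.grad x) = T.Q x)
    (t : ℂ) (ht : 0 < t.re) :
    gsum B t = (T.c : ℂ) * ((t ^ (1 / 2 : ℂ)) ^ 24)⁻¹ * gsum B (1 / t) := by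
  have h := hinv t ht 0
  have hL : ∑' x : Fin 24 → ℤ, cexp (-(π : ℂ) * t * ((T.Q (fun i => (x i : ℝ)) : ℝ) : ℂ) +
          2 * π * Complex.I * ((∑ i, (x i : ℝ) * (0 : Fin 24 → ℝ) i : ℝ) : ℂ)) = gsum B t := by
    unfold gsum
    refine tsum_congr fun x => ?_
    rw [hTQ x]
    simp
  have hR : ∑' ξ : Fin 24 → ℤ,
      cexp (-(π : ℂ) / t * ((T.Qd (fun i => (ξ i : ℝ) - (0 : Fin 24 → ℝ) i) : ℝ) : ℂ)) =
        gsum B (1 / t) := by
    unfold gsum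
    rw [← Equiv.tsum_eq (mulVecEquiv hB.det)]
    refine tsum_congr fun y => ?_
    have : (fun i => (((mulVecEquiv hB.det) y) i : ℝ) - (0 : Fin 24 → ℝ) i) =
        T.grad (fun i => (y i : ℝ)) := by
      rw [hTg y]
      funext i
      simp [mulVecEquiv]
    rw [this, hdual, hTQ]
    congr 1
    push_cast
    ring
  rw [hL, hR] at h
  exact h

/-- C4 (from C1, B6, A3, C2 as hypotheses) -/
theorem gsum_inv_of (hB : UHyp B) (T : Tri 24)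
    (hTQ : ∀ x : Fin 24 → ℤ, T.Q (fun i => (x i : ℝ)) = (qf B x : ℝ))
    (hTg : ∀ x : Fin 24 → ℤ, T.grad (fun i => (x i : ℝ)) = fun i => ((B *ᵥ x) i : ℝ))
    (hinv : ∀ (t : ℂ), 0 < t.re → ∀ z : Fin 24 → ℝ,
      ∑' x : Fin 24 → ℤ, cexp (-(π : ℂ) * t * ((T.Q (fun i => (x i : ℝ)) : ℝ) : ℂ) +
          2 * π * Complex.I * ((∑ i, (x i : ℝ) * z i : ℝ) : ℂ)) =
        (T.c : ℂ) * ((t ^ (1 / 2 : ℂ)) ^ 24)⁻¹ *
          ∑' ξ : Fin 24 → ℤ, cexp (-(π : ℂ) / t * ((T.Qd (fun i => (ξ i : ℝ) - z i) : ℝ) : ℂ)))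
    (hdual : ∀ x : Fin 24 → ℝ, T.Qd (T.grad x) = T.Q x)
    (hsum : ∀ ρ : ℝ, 0 < ρ → Summable (fun x : Fin 24 → ℤ => Real.exp (-ρ * (qf B x : ℝ))))
    (t : ℂ) (ht : 0 < t.re) :
    gsum B (1 / t) = t ^ 12 * gsum B t := by
  have key := gsum_eq_of hB T hTQ hTg hinv hdual
  -- `T.c = 1`
  have h1 := key 1 (by simp)
  have hpos : (0 : ℝ) < ∑' x : Fin 24 → ℤ, Real.exp (-π * (qf B x : ℝ)) :=
    (hsum π Real.pi_pos).tsum_pos (fun x => (Real.exp_pos _).le) 0 (Real.exp_pos _)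
  have hg1 : gsum B 1 = ((∑' x : Fin 24 → ℤ, Real.exp (-π * (qf B x : ℝ)) : ℝ) : ℂ) := by
    unfold gsum
    rw [Complex.ofReal_tsum]
    refine tsum_congr fun x => ?_
    push_cast
    congr 1
    ring
  have hne : gsum B 1 ≠ 0 := by
    rw [hg1]
    exact_mod_cast hpos.ne'
  have hc : (T.c : ℂ) = 1 := by
    simp only [Complex.one_cpow, one_pow, inv_one, mul_one, div_one] at h1
    have h0 : (1 - (T.c : ℂ)) * gsum B 1 = 0 := by linear_combination h1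
    rcases mul_eq_zero.mp h0 with h | h
    · linear_combination -h
    · exact absurd h hne
  have ht0 : t ≠ 0 := by
    rintro rfl
    simp at ht
  have hpow : (t ^ (1 / 2 : ℂ)) ^ 24 = t ^ 12 := by
    have h2 : (t ^ (1 / 2 : ℂ)) ^ 2 = t := by
      have h3 := Complex.cpow_nat_inv_pow t (n := 2) (by norm_num)
      have h4 : (1 / 2 : ℂ) = ((2 : ℕ) : ℂ)⁻¹ := by norm_num
      rw [h4]
      exact h3
    calc (t ^ (1 / 2 : ℂ)) ^ 24 = ((t ^ (1 / 2 : ℂ)) ^ 2) ^ 12 := by rw [← pow_mul]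
      _ = t ^ 12 := by rw [h2]
  have h := key t ht
  rw [hc, hpow, one_mul] at h
  rw [h]
  field_simp

end Cfsg.Agent.Lib.Helper77.THC4
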