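import Cfsg.Agent.Lib.Helper98.H74Defs

/-!
# Project H74 (S5974), piece HYPTYP (helper77)

The hyperbolic predicate `HypM` of the statement is the typed-subspace predicate `SubTyp _ k 1`.
-/

set_option autoImplicit false
set_option linter.unusedSectionVars false
set_option linter.unusedVariables false

namespace Cfsg.Agent.Lib.Helper98.H74

open Cfsg.Agent.Lib.Helper47 Cfsg.Agent.Lib.Helper98.T73 Module Polynomial

universe u

variable {F : Type u} [Field F] [Fintype F] {V : Type u} [AddCommGroup V] [Module F V]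
  [FiniteDimensional F V] {Q : V → F} {B : V → V → F}

/-- HYPTYP -/
theorem hyp_iff (hf : QFacts F) (hQ : IsQuad Q B) (p : ℕ) [Fact p.Prime] [CharP F p]
    (W : Submodule F V) (k : ℕ) : HypM Q (2 * k + 2) W ↔ SubTyp Q B W k 1 := by
  have hpol : ∀ u v : V, QuadraticMap.polar Q u v = B u v := by
    intro u v
    unfold QuadraticMap.polar
    rw [hQ.polar]
    ring
  constructor
  · rintro ⟨hdim, hndW, U, hUW, hUdim, hUs⟩
    have hnd : Nondeg (resForm B W) := by
      intro x hx
      by_contra hne
      have hne' : (x : V) ≠ 0 := fun h0 => hne (Subtype.ext h0)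
      obtain ⟨v, hv, hv0⟩ := hndW (x : V) x.2 hne'
      apply hv0
      rw [hpol]
      exact hx ⟨v, hv⟩
    refine ⟨hnd, hdim, ?_⟩
    rcases hf.typ_exists k ↥W (fun w : W => Q (w : V)) (resForm B W) (hQ.res W) hnd hdim with
      h | h
    · exact h
    · exfalso
      have hb := sub_wi_bound hf hQ W k (-1) ⟨hnd, hdim, h⟩ U hUW hUs
      have hwi : wi k (-1) = k := by
        unfold wi
        rw [if_neg (by norm_num)]
      rw [hwi] at hb
      omega
  · rintro ⟨hnd, hdim, htyp⟩
    refine ⟨hdim, ?_, ?_⟩
    · intro u hu hu0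
      by_contra hcon
      apply hu0
      have h0 : (⟨u, hu⟩ : W) = 0 := by
        apply hnd
        intro y
        by_contra hy
        apply hcon
        refine ⟨(y : V), y.2, ?_⟩
        rw [hpol]
        exact hy
      exact congrArg Subtype.val h0
    · have hwi : wi k 1 = k + 1 := by
        unfold wi
        rw [if_pos rfl]
      obtain ⟨U, hUW, hUdim, hUs⟩ :=
        sub_wi_exists hf hQ p W k 1 ⟨hnd, hdim, htyp⟩ (k + 1) (le_of_eq hwi.symm)
      refine ⟨U, hUW, ?_, hUs⟩
      rw [hUdim]
      ring

end Cfsg.Agent.Lib.Helper98.H74
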