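import Mathlib
import Cfsg.Agent.Lib.Helper48.StB

set_option autoImplicit false

/-! Piece TRANSP of S2401 (for helper48): abstract presentation of the symmetric group by
transpositions modulo a normalized subgroup `T`; elements of trivial type lie in `T`. -/

namespace Cfsg.Agent.Lib.Helper48.St

section h77transp

variable {G : Type*} [Group G] {n : ℕ}

/-- the subgroup generated by `T` and the `s a b` with `a, b < k`. -/
def h77_trN (T : Subgroup G) (s : Fin n → Fin n → G) (k : ℕ) : Subgroup G :=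
  Subgroup.closure ((T : Set G) ∪
    {g | ∃ a b : Fin n, a ≠ b ∧ a.val < k ∧ b.val < k ∧ g = s a b})

theorem h77_trN_T (T : Subgroup G) (s : Fin n → Fin n → G) (k : ℕ) :
    T ≤ h77_trN T s k := fun _ hx => Subgroup.subset_closure (Or.inl hx)

theorem h77_trN_s (T : Subgroup G) (s : Fin n → Fin n → G) (k : ℕ) (a b : Fin n)
    (hab : a ≠ b) (ha : a.val < k) (hb : b.val < k) : s a b ∈ h77_trN T s k :=
  Subgroup.subset_closure (Or.inr ⟨a, b, hab, ha, hb, rfl⟩)

theorem h77_trN_zero (T : Subgroup G) (s : Fin n → Fin n → G) : h77_trN T s 0 ≤ T := by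
  unfold h77_trN
  rw [Subgroup.closure_le]
  rintro g (hg | ⟨a, b, _, ha, _, _⟩)
  · exact hg
  · exact absurd ha (Nat.not_lt_zero _)

theorem h77_tr_norm' (T : Subgroup G) (s : Fin n → Fin n → G)
    (hnorm : ∀ i j, i ≠ j → ∀ h ∈ T, s i j * h * (s i j)⁻¹ ∈ T)
    (hsq : ∀ i j, i ≠ j → s i j * s i j ∈ T) :
    ∀ i j, i ≠ j → ∀ h ∈ T, (s i j)⁻¹ * h * s i j ∈ T := by
  intro i j hij h hh
  have e : (s i j)⁻¹ * h * s i j
      = (s i j * s i j)⁻¹ * (s i j * h * (s i j)⁻¹) * (s i j * s i j) := by group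
  rw [e]
  exact mul_mem (mul_mem (inv_mem (hsq i j hij)) (hnorm i j hij h hh)) (hsq i j hij)

theorem h77_tr_step (T : Subgroup G) (s : Fin n → Fin n → G)
    (hnorm : ∀ i j, i ≠ j → ∀ h ∈ T, s i j * h * (s i j)⁻¹ ∈ T)
    (hsq : ∀ i j, i ≠ j → s i j * s i j ∈ T)
    (hsym : ∀ i j, i ≠ j → s j i * (s i j)⁻¹ ∈ T)
    (hconj : ∀ i j k l, i ≠ j → k ≠ l →
      s i j * s k l * (s i j)⁻¹ * (s (Equiv.swap i j k) (Equiv.swap i j l))⁻¹ ∈ T) (k : ℕ) :
    ∀ g ∈ h77_trN T s (k + 1), g ∈ h77_trN T s k ∨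
      ∃ i c : Fin n, i.val < k ∧ c.val = k ∧ ∃ g' ∈ h77_trN T s k, g = s i c * g' := by
  have hnorm' := h77_tr_norm' T s hnorm hsq
  -- the set D
  set D : Set G := {g | g ∈ h77_trN T s k ∨
      ∃ i c : Fin n, i.val < k ∧ c.val = k ∧ ∃ g' ∈ h77_trN T s k, g = s i c * g'} with hD
  -- (i) closed under left multiplication by T
  have hT : ∀ t ∈ T, ∀ y ∈ D, t * y ∈ D := by
    intro t ht y hy
    rcases hy with hy | ⟨i, c, hi, hc, g', hg', rfl⟩
    · exact Or.inl (mul_mem (h77_trN_T T s k ht) hy)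
    · have hic : i ≠ c := by
        intro h; rw [h] at hi; omega
      refine Or.inr ⟨i, c, hi, hc, ((s i c)⁻¹ * t * s i c) * g', ?_, by group⟩
      exact mul_mem (h77_trN_T T s k (hnorm' i c hic t ht)) hg'
  -- (ii-a)
  have hSa : ∀ a b : Fin n, a ≠ b → a.val < k → b.val < k → ∀ y ∈ D, s a b * y ∈ D := by
    intro a b hab ha hb y hy
    rcases hy with hy | ⟨i, c, hi, hc, g', hg', rfl⟩
    · exact Or.inl (mul_mem (h77_trN_s T s k a b hab ha hb) hy)
    · have hic : i ≠ c := by
        intro h; rw [h] at hi; omega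
      have hca : c ≠ a := by
        intro h; rw [h] at hc; omega
      have hcb : c ≠ b := by
        intro h; rw [h] at hc; omega
      have hτ := hconj a b i c hab hic
      rw [Equiv.swap_apply_of_ne_of_ne hca hcb] at hτ
      have hi' : (Equiv.swap a b i).val < k := by
        by_cases h1 : i = a
        · rw [h1, Equiv.swap_apply_left]; exact hb
        · by_cases h2 : i = b
          · rw [h2, Equiv.swap_apply_right]; exact ha
          · rw [Equiv.swap_apply_of_ne_of_ne h1 h2]; exact hi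
      have e : s a b * (s i c * g')
          = (s a b * s i c * (s a b)⁻¹ * (s (Equiv.swap a b i) c)⁻¹) *
            (s (Equiv.swap a b i) c * (s a b * g')) := by group
      rw [e]
      refine hT _ hτ _ (Or.inr ⟨_, c, hi', hc, s a b * g', ?_, rfl⟩)
      exact mul_mem (h77_trN_s T s k a b hab ha hb) hg'
  -- (ii-b)
  have hSb : ∀ a b : Fin n, a.val < k → b.val = k → ∀ y ∈ D, s a b * y ∈ D := by
    intro a b ha hb y hy
    have hab : a ≠ b := by
      intro h; rw [h] at ha; omega
    rcases hy with hy | ⟨i, c, hi, hc, g', hg', rfl⟩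
    · exact Or.inr ⟨a, b, ha, hb, y, hy, rfl⟩
    · have hcb : c = b := Fin.ext (by omega)
      subst hcb
      have hic : i ≠ c := by
        intro h; rw [h] at hi; omega
      by_cases hia : i = a
      · subst hia
        refine Or.inl ?_
        have e : s i c * (s i c * g') = (s i c * s i c) * g' := by group
        rw [e]
        exact mul_mem (h77_trN_T T s k (hsq i c hic)) hg'
      · have hai : a ≠ i := fun h => hia h.symm
        have hτ := hconj i c a c hic hab
        rw [Equiv.swap_apply_of_ne_of_ne hai hab, Equiv.swap_apply_right] at hτ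
        have ht0 := hsq i c hic
        have h3 := hnorm a i hai _ ht0
        refine Or.inr ⟨i, c, hi, hc,
          ((s i c * s i c)⁻¹ * (s i c * s a c * (s i c)⁻¹ * (s a i)⁻¹) *
            (s a i * (s i c * s i c) * (s a i)⁻¹)) * (s a i * g'), ?_, by group⟩
        refine mul_mem (h77_trN_T T s k (mul_mem (mul_mem (inv_mem ht0) hτ) h3)) ?_
        exact mul_mem (h77_trN_s T s k a i hai ha hi) hg'
  -- (ii) all generators
  have hS : ∀ a b : Fin n, a ≠ b → a.val < k + 1 → b.val < k + 1 → ∀ y ∈ D, s a b * y ∈ D := by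
    intro a b hab ha hb y hy
    by_cases hbk : b.val = k
    · have hak : a.val < k := by
        have : a.val ≠ b.val := fun h => hab (Fin.ext h)
        omega
      exact hSb a b hak hbk y hy
    · by_cases hak : a.val = k
      · have hbk' : b.val < k := by omega
        have e : s a b * y = (s a b * (s b a)⁻¹) * (s b a * y) := by group
        rw [e]
        exact hT _ (hsym b a (fun h => hab h.symm)) _ (hSb b a hbk' hak y hy)
      · exact hSa a b hab (by omega) (by omega) y hy
  have h1D : (1 : G) ∈ D := Or.inl (one_mem _)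
  have key : ∀ x ∈ h77_trN T s (k + 1), ∀ y ∈ D, x * y ∈ D := by
    intro x hx
    unfold h77_trN at hx
    induction hx using Subgroup.closure_induction'' with
    | mem x hx =>
      rcases hx with hx | ⟨a, b, hab, ha, hb, rfl⟩
      · exact hT x hx
      · exact hS a b hab ha hb
    | inv_mem x hx =>
      rcases hx with hx | ⟨a, b, hab, ha, hb, rfl⟩
      · exact hT _ (inv_mem hx)
      · intro y hy
        have e : (s a b)⁻¹ * y = (s a b * s a b)⁻¹ * (s a b * y) := by group
        rw [e]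
        exact hT _ (inv_mem (hsq a b hab)) _ (hS a b hab ha hb y hy)
    | one => intro y hy; simpa using hy
    | mul x y _ _ hx hy =>
      intro z hz
      rw [mul_assoc]
      exact hx _ (hy z hz)
  intro g hg
  have := key g hg 1 h1D
  rw [mul_one] at this
  exact this

theorem h77_tr_type (T : Subgroup G) (s : Fin n → Fin n → G)
    (R : G → Equiv.Perm (Fin n) → Prop)
    (hsq : ∀ i j, i ≠ j → s i j * s i j ∈ T)
    (hR1 : ∀ h ∈ T, R h 1) (hRs : ∀ i j, i ≠ j → R (s i j) (Equiv.swap i j))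
    (hRmul : ∀ g g' σ σ', R g σ → R g' σ' → R (g * g') (σ * σ')) (k : ℕ) :
    ∀ g ∈ h77_trN T s k, ∃ σ, R g σ ∧ ∀ j : Fin n, k ≤ j.val → σ j = j := by
  intro g hg
  unfold h77_trN at hg
  induction hg using Subgroup.closure_induction'' with
  | mem x hx =>
    rcases hx with hx | ⟨a, b, hab, ha, hb, rfl⟩
    · exact ⟨1, hR1 x hx, fun j _ => rfl⟩
    · refine ⟨Equiv.swap a b, hRs a b hab, fun j hj => ?_⟩
      have hja : j ≠ a := by
        intro h; rw [h] at hj; omega
      have hjb : j ≠ b := by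
        intro h; rw [h] at hj; omega
      exact Equiv.swap_apply_of_ne_of_ne hja hjb
  | inv_mem x hx =>
    rcases hx with hx | ⟨a, b, hab, ha, hb, rfl⟩
    · exact ⟨1, hR1 _ (inv_mem hx), fun j _ => rfl⟩
    · refine ⟨1 * Equiv.swap a b, ?_, fun j hj => ?_⟩
      · have e : (s a b)⁻¹ = (s a b * s a b)⁻¹ * s a b := by group
        rw [e]
        exact hRmul _ _ _ _ (hR1 _ (inv_mem (hsq a b hab))) (hRs a b hab)
      · have hja : j ≠ a := by
          intro h; rw [h] at hj; omega
        have hjb : j ≠ b := by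
          intro h; rw [h] at hj; omega
        rw [one_mul]
        exact Equiv.swap_apply_of_ne_of_ne hja hjb
  | one => exact ⟨1, hR1 1 (one_mem _), fun j _ => rfl⟩
  | mul x y _ _ hx hy =>
    obtain ⟨σ, hσ, hσ'⟩ := hx
    obtain ⟨τ, hτ, hτ'⟩ := hy
    refine ⟨σ * τ, hRmul _ _ _ _ hσ hτ, fun j hj => ?_⟩
    rw [Equiv.Perm.mul_apply, hτ' j hj, hσ' j hj]

theorem transp {G : Type*} [Group G] {n : ℕ} (T : Subgroup G) (s : Fin n → Fin n → G)
    (R : G → Equiv.Perm (Fin n) → Prop)
    (hnorm : ∀ i j, i ≠ j → ∀ h ∈ T, s i j * h * (s i j)⁻¹ ∈ T)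
    (hsq : ∀ i j, i ≠ j → s i j * s i j ∈ T)
    (hsym : ∀ i j, i ≠ j → s j i * (s i j)⁻¹ ∈ T)
    (hconj : ∀ i j k l, i ≠ j → k ≠ l →
      s i j * s k l * (s i j)⁻¹ * (s (Equiv.swap i j k) (Equiv.swap i j l))⁻¹ ∈ T)
    (hR1 : ∀ h ∈ T, R h 1) (hRs : ∀ i j, i ≠ j → R (s i j) (Equiv.swap i j))
    (hRmul : ∀ g g' σ σ', R g σ → R g' σ' → R (g * g') (σ * σ'))
    (hRuniq : ∀ g σ σ', R g σ → R g σ' → σ = σ') :
    ∀ ν ∈ Subgroup.closure ((T : Set G) ∪ {g | ∃ i j, i ≠ j ∧ g = s i j}), R ν 1 → ν ∈ T := by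
  have main : ∀ k : ℕ, ∀ g ∈ h77_trN T s k, R g 1 → g ∈ T := by
    intro k
    induction k with
    | zero => exact fun g hg _ => h77_trN_zero T s hg
    | succ k ih =>
      intro g hg hR
      rcases h77_tr_step T s hnorm hsq hsym hconj k g hg with h | ⟨i, c, hi, hc, g', hg', rfl⟩
      · exact ih g h hR
      · exfalso
        have hic : i ≠ c := by
          intro h; rw [h] at hi; omega
        obtain ⟨σ, hσ, hσ'⟩ := h77_tr_type T s R hsq hR1 hRs hRmul k g' hg'
        have h1 := hRmul _ _ _ _ (hRs i c hic) hσ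
        have h2 := hRuniq _ _ _ h1 hR
        have h3 := congrArg (fun τ : Equiv.Perm (Fin n) => τ c) h2
        simp only [Equiv.Perm.mul_apply, Equiv.Perm.one_apply] at h3
        rw [hσ' c (by omega), Equiv.swap_apply_right] at h3
        exact hic h3
  intro ν hν hR
  refine main n ν ?_ hR
  have hle : Subgroup.closure ((T : Set G) ∪ {g | ∃ i j, i ≠ j ∧ g = s i j})
      ≤ h77_trN T s n := by
    unfold h77_trN
    apply Subgroup.closure_mono
    rintro g (hg | ⟨i, j, hij, rfl⟩)
    · exact Or.inl hg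
    · exact Or.inr ⟨i, j, hij, i.isLt, j.isLt, rfl⟩
  exact hle hν

end h77transp

end Cfsg.Agent.Lib.Helper48.St
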