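import Mathlib
import Cfsg.Agent.Lib.Helper96.SpBlock

set_option autoImplicit false

/-! Piece FIXCNT of S5956 (for helper96): the number of nondegenerate `m`-subspaces is not
divisible by `r` when the fixed space of an isometry of order `r` is small. -/

namespace Cfsg.Agent.Lib.Helper96.Sp

open Module Cfsg.Agent.Lib.Helper96.Sp

section h77fix

variable {F : Type*} [Field F] {V : Type*} [AddCommGroup V] [Module F V]
  {B : LinearMap.BilinForm F V}

theorem h77_nd_map_subtype (K : Submodule F V) (W' : Submodule F K) :
    ND B (W'.map K.subtype) ↔ ND (B.restrict K) W' := by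
  constructor
  · intro h u hu hv
    have h1 : (u : V) = 0 := by
      apply h (u : V) (Submodule.mem_map_of_mem (f := K.subtype) hu)
      rintro _ ⟨v, hv', rfl⟩
      exact hv v hv'
    exact Subtype.ext h1
  · rintro h _ ⟨u, hu, rfl⟩ hv
    have h1 : u = 0 := by
      apply h u hu
      intro v hv'
      exact hv (K.subtype v) (Submodule.mem_map_of_mem hv')
    rw [h1, map_zero]

theorem h77_restrict_isAlt (hA : B.IsAlt) (K : Submodule F V) : (B.restrict K).IsAlt :=
  fun x => hA (x : V)

theorem h77_nd_top_restrict (K : Submodule F V) (hK : ND B K) : ND (B.restrict K) ⊤ := by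
  intro u _ h
  have h1 : (u : V) = 0 := hK (u : V) u.2 (fun v hv => h ⟨v, hv⟩ Submodule.mem_top)
  exact Subtype.ext h1

end h77fix

theorem not_dvd_card_nd_of_lt {F : Type*} [Field F] [Fintype F] {V : Type*} [AddCommGroup V]
    [Module F V] [FiniteDimensional F V] {B : LinearMap.BilinForm F V} (hA : B.IsAlt)
    (hN : ND B ⊤) (r : ℕ) [Fact r.Prime] (hr2 : r ≠ 2) (hrq : ¬ r ∣ Fintype.card F)
    (hr0 : (r : F) ≠ 0) (T : Module.End F V) (hT : Isom B T) (hTr : T ^ r = 1)
    (m : ℕ) (hme : Even m) (hmc : m < blk (Fintype.card F) r)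
    (hmk : m ≤ finrank F (LinearMap.ker (T - 1)))
    (hkc : finrank F (LinearMap.ker (T - 1)) < blk (Fintype.card F) r)
    (hcnt : (∃ W : Submodule F ↥(LinearMap.ker (T - 1)), finrank F W = m ∧
        ND (B.restrict (LinearMap.ker (T - 1))) W) →
      r ∣ Nat.card {W : Submodule F ↥(LinearMap.ker (T - 1)) // finrank F W = m ∧
        ND (B.restrict (LinearMap.ker (T - 1))) W} →
      ∃ g : Module.End F ↥(LinearMap.ker (T - 1)),
        Isom (B.restrict (LinearMap.ker (T - 1))) g ∧ g ^ r = 1 ∧ g ≠ 1) :
    ¬ r ∣ Nat.card {W : Submodule F V // finrank F W = m ∧ ND B W} := by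
  classical
  have hKnd : ND B (LinearMap.ker (T - 1)) := nd_ker hA hN T hT r hrq hr0 hTr
  have hfinV : Finite V := Module.finite_of_finite F
  have hfinS : Finite (Submodule F V) :=
    Finite.of_injective (fun W : Submodule F V => (W : Set V)) SetLike.coe_injective
  have hTinj : Function.Injective T := isom_injective hN hT
  have hTK : ∀ x ∈ LinearMap.ker (T - 1), T x = x := by
    intro x hx
    rw [LinearMap.mem_ker, LinearMap.sub_apply, sub_eq_zero] at hx
    exact hx
  have hfinΩ : Fintype {W : Submodule F V // finrank F W = m ∧ ND B W} := Fintype.ofFinite _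
  let f : Function.End {W : Submodule F V // finrank F W = m ∧ ND B W} := fun W =>
    ⟨W.1.map T,
      ((Submodule.equivMapOfInjective T hTinj W.1).finrank_eq.symm).trans W.2.1, by
      rintro _ ⟨u, hu, rfl⟩ h
      have h0 : u = 0 := W.2.2 u hu (fun v hv => by
        rw [← hT u v]; exact h _ (Submodule.mem_map_of_mem hv))
      rw [h0, map_zero]⟩
  have hk : ∀ (k : ℕ) (W : {W : Submodule F V // finrank F W = m ∧ ND B W}),
      ((f ^ k) W).1 = W.1.map (T ^ k) := by
    intro k
    induction k with
    | zero =>
      intro W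
      rw [pow_zero, pow_zero]
      exact (Submodule.map_id W.1).symm
    | succ k ih =>
      intro W
      rw [pow_succ', pow_succ']
      change ((f ^ k) W).1.map T = W.1.map (T * T ^ k)
      rw [ih, Module.End.mul_eq_comp, Submodule.map_comp]
  have hfr : f ^ r ^ 1 = 1 := by
    rw [pow_one]
    funext W
    apply Subtype.ext
    rw [hk, hTr]
    exact Submodule.map_id W.1
  have key := Equiv.Perm.card_fixedPoints_modEq (p := r) (n := 1) hfr
  -- fixed points are the subspaces of the kernel
  have hfixle : ∀ W : {W : Submodule F V // finrank F W = m ∧ ND B W},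
      f W = W → W.1 ≤ LinearMap.ker (T - 1) := by
    intro W hW
    have h1 : W.1.map T = W.1 := congrArg Subtype.val hW
    have h2 := sp_dvd hA hN T hT r hr2 hrq hr0 hTr W.1 (le_of_eq h1) W.2.2
    rw [W.2.1] at h2
    have h3 : finrank F ↥(W.1 ⊓ LinearMap.ker (T - 1)) ≤ m :=
      (Submodule.finrank_mono inf_le_left).trans (le_of_eq W.2.1)
    have h4 : m - finrank F ↥(W.1 ⊓ LinearMap.ker (T - 1)) = 0 := by
      by_contra hne
      have h5 := Nat.le_of_dvd (Nat.pos_of_ne_zero hne) h2
      omega
    have h6 : W.1 ⊓ LinearMap.ker (T - 1) = W.1 := by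
      apply Submodule.eq_of_le_of_finrank_le inf_le_left
      rw [W.2.1]
      omega
    rw [← h6]
    exact inf_le_right
  have hlefix : ∀ W : {W : Submodule F V // finrank F W = m ∧ ND B W},
      W.1 ≤ LinearMap.ker (T - 1) → f W = W := by
    intro W hW
    apply Subtype.ext
    change W.1.map T = W.1
    ext x
    constructor
    · rintro ⟨y, hy, rfl⟩
      rw [hTK y (hW hy)]
      exact hy
    · intro hx
      exact ⟨x, hx, hTK x (hW hx)⟩
  let e : Function.fixedPoints f ≃
      {W : Submodule F ↥(LinearMap.ker (T - 1)) // finrank F W = m ∧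
        ND (B.restrict (LinearMap.ker (T - 1))) W} :=
    { toFun := fun W => ⟨W.1.1.comap (LinearMap.ker (T - 1)).subtype, by
        have hle := hfixle W.1 W.2
        have h1 : (W.1.1.comap (LinearMap.ker (T - 1)).subtype).map
            (LinearMap.ker (T - 1)).subtype = W.1.1 := by
          rw [Submodule.map_comap_subtype]
          exact inf_eq_right.mpr hle
        constructor
        · rw [← Submodule.finrank_map_subtype_eq, h1]
          exact W.1.2.1
        · rw [← h77_nd_map_subtype, h1]
          exact W.1.2.2⟩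
      invFun := fun W' => ⟨⟨W'.1.map (LinearMap.ker (T - 1)).subtype, by
          rw [Submodule.finrank_map_subtype_eq]; exact W'.2.1,
          (h77_nd_map_subtype _ _).mpr W'.2.2⟩, by
        apply hlefix
        rintro _ ⟨x, _, rfl⟩
        exact x.2⟩
      left_inv := fun W => by
        apply Subtype.ext
        apply Subtype.ext
        have hle := hfixle W.1 W.2
        change (W.1.1.comap (LinearMap.ker (T - 1)).subtype).map
            (LinearMap.ker (T - 1)).subtype = W.1.1
        rw [Submodule.map_comap_subtype]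
        exact inf_eq_right.mpr hle
      right_inv := fun W' => by
        apply Subtype.ext
        change (W'.1.map (LinearMap.ker (T - 1)).subtype).comap
            (LinearMap.ker (T - 1)).subtype = W'.1
        exact Submodule.comap_map_eq_of_injective (Submodule.injective_subtype _) W'.1 }
  -- nonempty
  have hne : ∃ W : Submodule F ↥(LinearMap.ker (T - 1)), finrank F W = m ∧
      ND (B.restrict (LinearMap.ker (T - 1))) W := by
    obtain ⟨b, hb⟩ := hme
    obtain ⟨Q, hQK, hQnd, hQfin⟩ := exists_nd_sub hA (LinearMap.ker (T - 1)) hKnd b (by omega)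
    have h1 : (Q.comap (LinearMap.ker (T - 1)).subtype).map
        (LinearMap.ker (T - 1)).subtype = Q := by
      rw [Submodule.map_comap_subtype]
      exact inf_eq_right.mpr hQK
    refine ⟨Q.comap (LinearMap.ker (T - 1)).subtype, ?_, ?_⟩
    · rw [← Submodule.finrank_map_subtype_eq, h1, hQfin]
      omega
    · rw [← h77_nd_map_subtype, h1]
      exact hQnd
  -- r does not divide the number of fixed points
  have hndvd : ¬ r ∣ Nat.card {W : Submodule F ↥(LinearMap.ker (T - 1)) // finrank F W = m ∧
      ND (B.restrict (LinearMap.ker (T - 1))) W} := by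
    intro hdvd
    obtain ⟨g, hg, hgr, hg1⟩ := hcnt hne hdvd
    have h1 := sp_dvd (h77_restrict_isAlt hA _) (h77_nd_top_restrict _ hKnd) g hg r hr2 hrq hr0
      hgr ⊤ le_top (h77_nd_top_restrict _ hKnd)
    rw [top_inf_eq, finrank_top] at h1
    have h2 : LinearMap.ker (g - 1) ≠ ⊤ := by
      intro h
      apply hg1
      have h3 : g - 1 = 0 := LinearMap.ker_eq_top.mp h
      exact sub_eq_zero.mp h3
    have h3 := Submodule.finrank_lt h2
    have h4 := Nat.le_of_dvd (by omega) h1
    omega
  intro hdvd
  apply hndvd
  rw [← Nat.card_congr e, ← Fintype.card_eq_nat_card]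
  rw [← Fintype.card_eq_nat_card] at hdvd
  exact (Nat.modEq_zero_iff_dvd.mp (key.symm.trans (Nat.modEq_zero_iff_dvd.mpr hdvd)))

end Cfsg.Agent.Lib.Helper96.Sp
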