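import Mathlib
import Cfsg.Agent.Lib.Helper52.LPDefs
import Cfsg.Agent.S0831
import Cfsg.Agent.Lib.Helper44.OrthForms

/-!
# LP project (helper52, S2736/S2737), piece LP-1a: Lagrangians of a hyperbolic form
-/

set_option autoImplicit false
set_option linter.unusedSectionVars false
set_option linter.unusedVariables false

namespace Cfsg.Agent.Lib.Helper77.LP1a

open Module QuadraticMap Matrix
open Cfsg Cfsg.Agent.Lib.Helper51 Cfsg.Agent.Lib.Helper52 Cfsg.Agent.Lib.Helper54
open Cfsg.Agent.Lib.Helper52.LP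

variable {ι : Type} [Fintype ι] [DecidableEq ι] {F : Type*} [Field F]

theorem polar_e {m : ℕ} (Q : QuadraticForm F (ι → F)) (e : (Fin m ⊕ Fin m → F) ≃ₗ[F] (ι → F))
    (he : ∀ x, Q (e x) = Cfsg.quadFormPlus m F x) (x y : Fin m ⊕ Fin m → F) :
    polar ⇑Q (e x) (e y) = polar ⇑(QPlus m F) x y := by
  unfold QuadraticMap.polar
  rw [← map_add, he, he, he, coe_QPlus]

theorem hyp_card {m : ℕ} (Q : QuadraticForm F (ι → F)) (hH : IsHyp m Q) :
    Fintype.card ι = 2 * m := by
  obtain ⟨e, -⟩ := hH
  have h := e.finrank_eq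
  rw [Module.finrank_fintype_fun_eq_card, Module.finrank_fintype_fun_eq_card, Fintype.card_sum,
    Fintype.card_fin] at h
  omega

theorem hyp_nondeg {m : ℕ} (Q : QuadraticForm F (ι → F)) (hH : IsHyp m Q) :
    (polarBilin Q).Nondegenerate := by
  obtain ⟨e, he⟩ := hH
  have hP := Cfsg.Agent.Lib.Helper44.nondeg_QPlus m F
  constructor
  · intro x hx
    have h0 : e.symm x = 0 := by
      apply hP.1
      intro y
      have h1 := hx (e y)
      rw [polarBilin_apply_apply] at h1 ⊢
      rw [← polar_e Q e he, e.apply_symm_apply]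
      exact h1
    have h2 := congrArg e h0
    rwa [e.apply_symm_apply, map_zero] at h2
  · intro y hy
    have h0 : e.symm y = 0 := by
      apply hP.2
      intro x
      have h1 := hy (e x)
      rw [polarBilin_apply_apply] at h1 ⊢
      rw [← polar_e Q e he, e.apply_symm_apply]
      exact h1
    have h2 := congrArg e h0
    rwa [e.apply_symm_apply, map_zero] at h2

/-- the embedding of the first `m` coordinates -/
def inlMap (m : ℕ) (F : Type*) [Field F] : (Fin m → F) →ₗ[F] (Fin m ⊕ Fin m → F) where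
  toFun y := Sum.elim y 0
  map_add' a b := by
    funext j
    rcases j with i | i <;> simp
  map_smul' c a := by
    funext j
    rcases j with i | i <;> simp

theorem inlMap_injective (m : ℕ) (F : Type*) [Field F] : Function.Injective (inlMap m F) := by
  intro a b h
  funext i
  have := congrFun h (Sum.inl i)
  simpa [inlMap] using this

theorem hyp_exists_lag {m : ℕ} (Q : QuadraticForm F (ι → F)) (hH : IsHyp m Q) :
    ∃ U : Submodule F (ι → F), IsLag m Q U := by
  obtain ⟨e, he⟩ := hH
  refine ⟨LinearMap.range (e.toLinearMap ∘ₗ inlMap m F), ?_, ?_⟩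
  · have hinj : Function.Injective (e.toLinearMap ∘ₗ inlMap m F) := by
      rw [LinearMap.coe_comp]
      exact e.injective.comp (inlMap_injective m F)
    rw [LinearMap.finrank_range_of_inj hinj, Module.finrank_fintype_fun_eq_card,
      Fintype.card_fin]
  · rintro w ⟨y, rfl⟩
    rw [LinearMap.comp_apply, LinearEquiv.coe_coe, he]
    unfold Cfsg.quadFormPlus
    apply Finset.sum_eq_zero
    intro i _
    simp [inlMap]

theorem lag_maxTS {m : ℕ} (Q : QuadraticForm F (ι → F)) (hH : IsHyp m Q)
    (U : Submodule F (ι → F)) (hU : IsLag m Q U) : IsMaxTotallySingular ⇑Q U := by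
  have hnd := hyp_nondeg Q hH
  have hcard := hyp_card Q hH
  refine ⟨hU.2, ?_⟩
  intro W hW hle
  have hWo : W ≤ LinearMap.BilinForm.orthogonal (polarBilin Q) W := by
    intro w hw
    rw [LinearMap.BilinForm.mem_orthogonal_iff]
    intro n hn
    show polarBilin Q n w = 0
    rw [polarBilin_apply_apply]
    exact ts_polar Q hW hn hw
  have h1 := Submodule.finrank_mono hWo
  rw [LinearMap.BilinForm.finrank_orthogonal hnd, Module.finrank_fintype_fun_eq_card, hcard] at h1
  have h2 : finrank F ↥W ≤ finrank F ↥U := by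
    rw [hU.1]
    omega
  exact (Submodule.eq_of_le_of_finrank_le hle h2).symm

theorem maxTS_iff_lag [Fintype F] {m : ℕ} (hm : 1 ≤ m) (Q : QuadraticForm F (ι → F))
    (hH : IsHyp m Q) (U : Submodule F (ι → F)) :
    IsMaxTotallySingular ⇑Q U ↔ IsLag m Q U := by
  constructor
  · intro hU
    obtain ⟨U0, hU0⟩ := hyp_exists_lag Q hH
    have hU0max := lag_maxTS Q hH U0 hU0
    obtain ⟨h, hh, -⟩ := exists_isometry_of_maxTS Q _ U U0 hU hU0max rfl
    refine ⟨?_, hU.1⟩
    rw [← hU0.1, ← hh, finrank_imageSubmodule]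
  · exact lag_maxTS Q hH U

theorem parity3 {m : ℕ} (hm : 1 ≤ m) (Q : QuadraticForm F (ι → F)) (hH : IsHyp m Q)
    (U W X : Submodule F (ι → F)) (hU : IsLag m Q U) (hW : IsLag m Q W) (hX : IsLag m Q X) :
    Even ((m - finrank F ↥(U ⊓ W)) + (m - finrank F ↥(W ⊓ X)) + (m - finrank F ↥(U ⊓ X))) := by
  obtain ⟨e, he⟩ := hH
  have hfr : ∀ A : Submodule F (ι → F), finrank F ↥(A.comap e.toLinearMap) = finrank F ↥A :=
    fun A => (e.ofSubmodule' A).finrank_eq
  have hlag : ∀ A : Submodule F (ι → F), IsLag m Q A →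
      (finrank F ↥(A.comap e.toLinearMap) = m ∧
        ∀ w ∈ A.comap e.toLinearMap, Cfsg.quadFormPlus m F w = 0) := by
    intro A hA
    refine ⟨by rw [hfr, hA.1], ?_⟩
    intro w hw
    rw [← he]
    exact hA.2 _ hw
  have h := (Cfsg.Agent.S0831.result (F := F) m hm).1 _ _ _ (hlag U hU) (hlag W hW) (hlag X hX)
  rw [← Submodule.comap_inf, ← Submodule.comap_inf, ← Submodule.comap_inf, hfr, hfr, hfr] at h
  exact h

end Cfsg.Agent.Lib.Helper77.LP1a
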