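import Mathlib
import Cfsg.Prelude.Def_Blocks
import Cfsg.Prelude.Def_Local
import Cfsg.Agent.S4480
import Cfsg.Agent.Lib.Helper79.Klein2

/-!
# Piece K2 of S4501 (helper30): the case `ε = +1` is impossible
-/

set_option autoImplicit false
open Cfsg
open scoped ComplexConjugate

namespace Cfsg.Agent.Lib.Helper30.S4501.K2

theorem prime_dvd_of_dvd (p q a b n : ℕ) (hp : p.Prime) (hq : q.Prime) (hn : 1 < n)
    (hd : n ∣ p ^ a * q ^ b) : p ∣ n ∨ q ∣ n := by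
  obtain ⟨r, hr, hrn⟩ := Nat.exists_prime_and_dvd (ne_of_gt hn)
  have hrd : r ∣ p ^ a * q ^ b := hrn.trans hd
  rcases (Nat.Prime.dvd_mul hr).mp hrd with h | h
  · left
    have := (Nat.prime_dvd_prime_iff_eq hr hp).mp (hr.dvd_of_dvd_pow h)
    rw [← this]; exact hrn
  · right
    have := (Nat.prime_dvd_prime_iff_eq hr hq).mp (hr.dvd_of_dvd_pow h)
    rw [← this]; exact hrn

theorem three_coprime_false (p q a b x w u : ℕ) (hp : p.Prime) (hq : q.Prime)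
    (hx : 1 < x) (hw : 1 < w) (hu : 1 < u) (hxw : Nat.Coprime x w) (hxu : Nat.Coprime x u)
    (hwu : Nat.Coprime w u) (hdx : x ∣ p ^ a * q ^ b) (hdw : w ∣ p ^ a * q ^ b)
    (hdu : u ∣ p ^ a * q ^ b) : False := by
  have key : ∀ r : ℕ, r.Prime → ∀ s t : ℕ, Nat.Coprime s t → r ∣ s → r ∣ t → False := by
    intro r hr s t hst hs ht
    have := Nat.dvd_gcd hs ht
    rw [Nat.Coprime.gcd_eq_one hst] at this
    exact hr.one_lt.ne' (Nat.dvd_one.mp this)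
  rcases prime_dvd_of_dvd p q a b x hp hq hx hdx with h1 | h1 <;>
  rcases prime_dvd_of_dvd p q a b w hp hq hw hdw with h2 | h2 <;>
  rcases prime_dvd_of_dvd p q a b u hp hq hu hdu with h3 | h3
  · exact key p hp x w hxw h1 h2
  · exact key p hp x w hxw h1 h2
  · exact key p hp x u hxu h1 h3
  · exact key q hq w u hwu h2 h3
  · exact key p hp w u hwu h2 h3
  · exact key q hq x u hxu h1 h3
  · exact key q hq x w hxw h1 h2
  · exact key q hq x w hxw h1 h2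

theorem coprime_of_succ {s t k : ℕ} (h : s + 1 = k * t) : Nat.Coprime s t := by
  have h1 : Nat.gcd s t ∣ s := Nat.gcd_dvd_left s t
  have h2 : Nat.gcd s t ∣ k * t := Dvd.dvd.mul_left (Nat.gcd_dvd_right s t) k
  rw [← h] at h2
  exact Nat.dvd_one.mp ((Nat.dvd_add_right h1).mp h2)

theorem coprime_of_lin {s t k : ℕ} (h : t = k * s + 1) : Nat.Coprime s t := by
  subst h
  have h1 : Nat.gcd s (k * s + 1) ∣ k * s := Dvd.dvd.mul_left (Nat.gcd_dvd_left _ _) k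
  have h2 : Nat.gcd s (k * s + 1) ∣ k * s + 1 := Nat.gcd_dvd_right _ _
  exact Nat.dvd_one.mp ((Nat.dvd_add_right h1).mp h2)

/-- K2 -/
theorem eps_pos_false {G : Type*} [Group G] [Finite G] (M : Ideal Cfsg.AlgInt)
    (hM : Cfsg.IsPModular 2 M) (g₀ : ℕ) (hg₀ : Odd g₀) (hG : Nat.card G = 4 * g₀)
    (hnc : ¬ ∃ N : Subgroup G, N.Normal ∧ Nat.card N = g₀) (P : Sylow 2 G) (J : G)
    (hJ : J ∈ (P : Subgroup G)) (hJ2 : orderOf J = 2) (ζ₂ ζ₃ ζ₄ : Cfsg.IrrCharacter G)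
    (hB : Cfsg.principalBlock M G = {χ : Cfsg.IrrCharacter G |
        (χ : G → ℂ) = (fun _ => 1) ∨ χ = ζ₂ ∨ χ = ζ₃ ∨ χ = ζ₄})
    (hdist : (ζ₂ : G → ℂ) ≠ (fun _ => 1) ∧ (ζ₃ : G → ℂ) ≠ (fun _ => 1) ∧
      (ζ₄ : G → ℂ) ≠ (fun _ => 1) ∧ ζ₂ ≠ ζ₃ ∧ ζ₂ ≠ ζ₄ ∧ ζ₃ ≠ ζ₄)
    (hval : (ζ₂ : G → ℂ) J = 1 ∧ (ζ₃ : G → ℂ) J = 1 ∧ (ζ₄ : G → ℂ) J = -1)
    (p q a b : ℕ) (hp : p.Prime) (hq : q.Prime) (hg : g₀ = p ^ a * q ^ b)
    (h₂ : 2 ≤ Cfsg.charDegree (ζ₂ : G → ℂ)) (h₃ : 2 ≤ Cfsg.charDegree (ζ₃ : G → ℂ))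
    (hrel : Cfsg.charDegree (ζ₄ : G → ℂ) =
      1 + Cfsg.charDegree (ζ₂ : G → ℂ) + Cfsg.charDegree (ζ₃ : G → ℂ))
    (h4 : Cfsg.charDegree (ζ₄ : G → ℂ) % 4 = 3) : False := by
  obtain ⟨m, -, h8⟩ := Cfsg.Agent.S4480.result M hM g₀ hg₀ hG hnc P J hJ hJ2 ζ₂ ζ₃ ζ₄ 1 1 (-1)
    hB hdist ⟨Or.inl rfl, Or.inl rfl, Or.inr rfl⟩ (by exact_mod_cast hval) (by norm_num) rfl
  have hP4 : Nat.card P = 4 := Cfsg.Agent.Lib.Helper79.card_sylow_two_of_card g₀ hg₀ hG P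
  have hPle : (P : Subgroup G) ≤ Subgroup.centralizer ((P : Subgroup G) : Set G) := by
    intro y hy
    rw [Subgroup.mem_centralizer_iff]
    intro h hh
    exact Cfsg.Agent.Lib.Helper79.sylow_four_comm P hP4 hh hy
  have h4c : 4 ∣ Nat.card (Subgroup.centralizer ((P : Subgroup G) : Set G)) := by
    have := Subgroup.card_dvd_of_le hPle
    rw [← hP4]
    exact this
  obtain ⟨c0, hc0⟩ := h4c
  generalize Cfsg.charDegree (ζ₄ : G → ℂ) = x at h8 hrel h4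
  have hx5 : 5 ≤ x := by omega
  obtain ⟨u, hu⟩ : ∃ u, x + 1 = 4 * u := ⟨(x + 1) / 4, by omega⟩
  obtain ⟨w, hw⟩ : ∃ w, x = 2 * w + 1 := ⟨(x - 1) / 2, by omega⟩
  have hx3 : x ^ 3 - x = 8 * (w * x * u) := by
    have h1 : x ^ 3 = x + 2 * w * x * (x + 1) := by rw [hw]; ring
    rw [hu] at h1
    rw [h1, Nat.add_sub_cancel_left]; ring
  rw [hG, hc0, hx3] at h8
  have hg' : g₀ = m ^ 3 * c0 * (w * x * u) := by
    have : 32 * g₀ = 32 * (m ^ 3 * c0 * (w * x * u)) := by linarith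
    exact Nat.eq_of_mul_eq_mul_left (by norm_num) this
  have hdx : x ∣ p ^ a * q ^ b := by
    rw [← hg, hg']; exact ⟨m ^ 3 * c0 * w * u, by ring⟩
  have hdw : w ∣ p ^ a * q ^ b := by
    rw [← hg, hg']; exact ⟨m ^ 3 * c0 * x * u, by ring⟩
  have hdu : u ∣ p ^ a * q ^ b := by
    rw [← hg, hg']; exact ⟨m ^ 3 * c0 * w * x, by ring⟩
  have hxw : Nat.Coprime x w := (coprime_of_lin (k := 2) hw).symm
  have hxu : Nat.Coprime x u := coprime_of_succ hu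
  have hwu : Nat.Coprime w u := coprime_of_succ (k := 2) (by omega)
  exact three_coprime_false p q a b x w u hp hq (by omega) (by omega) (by omega) hxw hxu hwu
    hdx hdw hdu

end Cfsg.Agent.Lib.Helper30.S4501.K2
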