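import Mathlib

/-!
# Piece J3M-CORE2 of S2041 (helper37): `two_core`
-/

set_option autoImplicit false

open scoped commutatorElement
open scoped Pointwise

universe u v

namespace Cfsg.Agent.Lib.Helper77.J3MCORE2

/-- rearrangement of a product of six elements with three commutation relations -/
theorem six_comm {Γ : Type u} [Group Γ] (a a₁ a₂ b b₁ b₂ : Γ) (h1 : b * a₁ = a₁ * b)
    (h2 : b * a₂ = a₂ * b) (h3 : b₁ * a₂ = a₂ * b₁) :
    (a * b) * (a₁ * b₁) * (a₂ * b₂) = (a * a₁ * a₂) * (b * b₁ * b₂) := by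
  calc (a * b) * (a₁ * b₁) * (a₂ * b₂) = a * (b * a₁) * (b₁ * a₂) * b₂ := by group
    _ = a * (a₁ * b) * (a₂ * b₁) * b₂ := by rw [h1, h3]
    _ = a * a₁ * (b * a₂) * b₁ * b₂ := by group
    _ = a * a₁ * (a₂ * b) * b₁ * b₂ := by rw [h2]
    _ = _ := by group

/-- exponent two implies commutative -/
theorem comm_of_sq {Γ : Type u} [Group Γ] (F : Subgroup Γ) (h : ∀ g ∈ F, g * g = 1) :
    ∀ g ∈ F, ∀ k ∈ F, g * k = k * g := by
  intro g hg k hk
  have h1 := h g hg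
  have h2 := h k hk
  have h3 := h (g * k) (F.mul_mem hg hk)
  symm
  calc k * g = k * g * (g * k * (g * k)) := by rw [h3, mul_one]
    _ = k * (g * g) * k * (g * k) := by group
    _ = k * k * (g * k) := by rw [h1, mul_one]
    _ = g * k := by rw [h2, one_mul]

/-- the norm `g * g^c * g^(c^2)`. -/
def nrm3 {Γ : Type u} [Group Γ] (c g : Γ) : Γ := g * (c * g * c⁻¹) * (c * (c * g * c⁻¹) * c⁻¹)

theorem two_core {Γ : Type u} [Group Γ] [Finite Γ] (z : Γ) (hzc : z ∈ Subgroup.center Γ) (hz1 : z ≠ 1)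
    (F₁ F₂ : Subgroup Γ) (c x : Γ) (hzF1 : z ∈ F₁) (hzF2 : z ∈ F₂)
    (h1 : ∀ g ∈ F₁, g * g = 1) (h2 : ∀ g ∈ F₂, g * g = 1)
    (hx12 : ∀ g ∈ F₁, x * g * x⁻¹ ∈ F₂) (hx21 : ∀ g ∈ F₂, x * g * x⁻¹ ∈ F₁)
    (hn : ∀ g ∈ F₁, ∀ f ∈ F₂, f * g * f⁻¹ ∈ F₁)
    (hxx : x * x ∈ F₁ ⊔ F₂)
    (hZ : ∀ w ∈ F₁, w ∈ F₂ → ∃ g ∈ F₁, ∃ f ∈ F₂,
      w = g * f * g⁻¹ * f⁻¹ ∨ w = z * (g * f * g⁻¹ * f⁻¹))
    (hcF : ∀ g ∈ F₁, c * g * c⁻¹ ∈ F₁)
    (hc3 : ∀ g ∈ F₁, (c * c * c) * g = g * (c * c * c))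
    (hfpf : ∀ g ∈ F₁, g * (c * g * c⁻¹) * (c * (c * g * c⁻¹) * c⁻¹) = 1 ∨
      g * (c * g * c⁻¹) * (c * (c * g * c⁻¹) * c⁻¹) = z)
    (hcF2 : ∀ f ∈ F₂, c * f * c⁻¹ * f⁻¹ ∈ F₁) :
    z ∉ ⁅F₁ ⊔ F₂ ⊔ Subgroup.zpowers x, F₁ ⊔ F₂ ⊔ Subgroup.zpowers x⁆ := by
  classical
  -- basic facts
  have hzc' : ∀ y : Γ, y * z = z * y := Subgroup.mem_center_iff.mp hzc
  have hzz : z * z = 1 := h1 z hzF1
  have hcomm1 := comm_of_sq F₁ h1
  have hinv1 : ∀ g ∈ F₁, g⁻¹ = g := fun g hg => inv_eq_of_mul_eq_one_right (h1 g hg)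
  -- the norm map
  have hNmul : ∀ g ∈ F₁, ∀ h ∈ F₁, nrm3 c (g * h) = nrm3 c g * nrm3 c h := by
    intro g hg h hh
    have e1 : c * (g * h) * c⁻¹ = (c * g * c⁻¹) * (c * h * c⁻¹) := by group
    have e2 : c * ((c * g * c⁻¹) * (c * h * c⁻¹)) * c⁻¹
        = (c * (c * g * c⁻¹) * c⁻¹) * (c * (c * h * c⁻¹) * c⁻¹) := by group
    unfold nrm3
    rw [e1, e2]
    exact six_comm _ _ _ _ _ _ (hcomm1 _ hh _ (hcF g hg)) (hcomm1 _ hh _ (hcF _ (hcF g hg)))
      (hcomm1 _ (hcF h hh) _ (hcF _ (hcF g hg)))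
  have hNz : nrm3 c z = z := by
    have e : c * z * c⁻¹ = z := by rw [hzc' c, mul_assoc, mul_inv_cancel, mul_one]
    unfold nrm3
    rw [e, e, hzz, one_mul]
  have hN1 : nrm3 c (1 : Γ) = 1 := by simp [nrm3]
  have hγf : ∀ y ∈ F₁, ∀ f ∈ F₂, c * (f * y * f⁻¹) * c⁻¹ = f * (c * y * c⁻¹) * f⁻¹ := by
    intro y hy f hf
    have hd := hcF2 f hf
    have hy' := hn _ (hcF y hy) f hf
    have hcm := hcomm1 _ hd _ hy'
    calc c * (f * y * f⁻¹) * c⁻¹
        = (c * f * c⁻¹ * f⁻¹) * (f * (c * y * c⁻¹) * f⁻¹) * (c * f * c⁻¹ * f⁻¹)⁻¹ := by group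
      _ = (f * (c * y * c⁻¹) * f⁻¹) * (c * f * c⁻¹ * f⁻¹) * (c * f * c⁻¹ * f⁻¹)⁻¹ := by rw [hcm]
      _ = _ := by group
  have hNf : ∀ g ∈ F₁, ∀ f ∈ F₂, nrm3 c (f * g * f⁻¹) = f * nrm3 c g * f⁻¹ := by
    intro g hg f hf
    unfold nrm3
    rw [hγf g hg f hf, hγf _ (hcF g hg) f hf]
    group
  -- the subgroup K
  let K : Subgroup Γ :=
    { carrier := {g | g ∈ F₁ ∧ nrm3 c g = 1}
      one_mem' := ⟨F₁.one_mem, hN1⟩
      mul_mem' := fun {a b} ha hb =>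
        ⟨F₁.mul_mem ha.1 hb.1, by rw [hNmul a ha.1 b hb.1, ha.2, hb.2, mul_one]⟩
      inv_mem' := fun {a} ha => by rw [hinv1 a ha.1]; exact ha }
  have hKF : K ≤ F₁ := fun g hg => hg.1
  have hzK : z ∉ K := fun h => hz1 (by rw [← hNz]; exact h.2)
  have hKcov : ∀ g ∈ F₁, g ∈ K ∨ z * g ∈ K := by
    intro g hg
    rcases hfpf g hg with h | h
    · exact Or.inl ⟨hg, h⟩
    · refine Or.inr ⟨F₁.mul_mem hzF1 hg, ?_⟩
      rw [hNmul z hzF1 g hg, hNz, show nrm3 c g = z from h, hzz]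
  have hK1 : ∀ g ∈ F₁, ∀ k ∈ K, g * k * g⁻¹ ∈ K := by
    intro g hg k hk
    have : g * k * g⁻¹ = k := by rw [hcomm1 g hg k hk.1, mul_inv_cancel_right]
    rw [this]; exact hk
  have hK2 : ∀ f ∈ F₂, ∀ k ∈ K, f * k * f⁻¹ ∈ K := by
    intro f hf k hk
    refine ⟨hn k hk.1 f hf, ?_⟩
    rw [hNf k hk.1 f hf, hk.2, mul_one, mul_inv_cancel]
  have hRK : F₁ ⊔ F₂ ≤ Subgroup.normalizer (K : Set Γ) :=
    sup_le (Subgroup.le_normalizer_iff.mpr hK1) (Subgroup.le_normalizer_iff.mpr hK2)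
  -- conjugation by x
  set φ : Γ →* Γ := (MulAut.conj x).toMonoidHom with hφ
  have hφinj : Function.Injective φ := (MulAut.conj x).injective
  have h12 : F₁.map φ ≤ F₂ := by
    rintro _ ⟨g, hg, rfl⟩
    exact hx12 g hg
  have h21 : F₂.map φ ≤ F₁ := by
    rintro _ ⟨g, hg, rfl⟩
    exact hx21 g hg
  have hc1 : Nat.card (F₁.map φ) = Nat.card F₁ := Subgroup.card_map_of_injective hφinj
  have hc2 : Nat.card (F₂.map φ) = Nat.card F₂ := Subgroup.card_map_of_injective hφinj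
  have hle1 : Nat.card (F₁.map φ) ≤ Nat.card F₂ := Subgroup.card_le_of_le h12
  have hle2 : Nat.card (F₂.map φ) ≤ Nat.card F₁ := Subgroup.card_le_of_le h21
  have e12 : F₁.map φ = F₂ := Subgroup.eq_of_le_of_card_ge h12 (by omega)
  have e21 : F₂.map φ = F₁ := Subgroup.eq_of_le_of_card_ge h21 (by omega)
  -- K'
  set K' : Subgroup Γ := K.map φ with hK'
  have hK'F : K' ≤ F₂ := (Subgroup.map_mono hKF).trans h12
  have hzK' : z ∉ K' := by
    rintro ⟨k, hk, hkz⟩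
    apply hzK
    have h' : x * k * x⁻¹ = z := hkz
    have : k = z := by
      calc k = x⁻¹ * (x * k * x⁻¹) * x := by group
        _ = x⁻¹ * z * x := by rw [h']
        _ = z := by rw [mul_assoc, ← hzc' x, inv_mul_cancel_left]
    rw [← this]; exact hk
  have hK'cov : ∀ f ∈ F₂, f ∈ K' ∨ z * f ∈ K' := by
    intro f hf
    rw [← e12] at hf
    obtain ⟨g, hg, rfl⟩ := hf
    rcases hKcov g hg with h | h
    · exact Or.inl ⟨g, h, rfl⟩
    · refine Or.inr ⟨z * g, h, ?_⟩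
      show x * (z * g) * x⁻¹ = z * (x * g * x⁻¹)
      rw [← mul_assoc, hzc' x]; group
  -- commutators lie in K and K'
  have hrK : ∀ g ∈ F₁, ∀ f ∈ F₂, g * f * g⁻¹ * f⁻¹ ∈ K := by
    have aux : ∀ g ∈ K, ∀ f ∈ F₂, g * f * g⁻¹ * f⁻¹ ∈ K := by
      intro g hg f hf
      have : g * f * g⁻¹ * f⁻¹ = g * (f * g⁻¹ * f⁻¹) := by group
      rw [this]
      exact K.mul_mem hg (hK2 f hf _ (K.inv_mem hg))
    intro g hg f hf
    rcases hKcov g hg with h | h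
    · exact aux g h f hf
    · have e : g * f * g⁻¹ * f⁻¹ = (z * g) * f * (z * g)⁻¹ * f⁻¹ := by
        symm
        calc (z * g) * f * (z * g)⁻¹ * f⁻¹ = z * (g * f * g⁻¹) * z⁻¹ * f⁻¹ := by group
          _ = (g * f * g⁻¹) * z * z⁻¹ * f⁻¹ := by rw [← hzc' (g * f * g⁻¹)]
          _ = _ := by group
      rw [e]
      exact aux _ h f hf
  have hrK' : ∀ g ∈ F₁, ∀ f ∈ F₂, g * f * g⁻¹ * f⁻¹ ∈ K' := by
    intro g hg f hf
    rw [← e21] at hg
    rw [← e12] at hf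
    obtain ⟨f₀, hf₀, rfl⟩ := hg
    obtain ⟨g₀, hg₀, rfl⟩ := hf
    refine ⟨(g₀ * f₀ * g₀⁻¹ * f₀⁻¹)⁻¹, K.inv_mem (hrK g₀ hg₀ f₀ hf₀), ?_⟩
    show x * (g₀ * f₀ * g₀⁻¹ * f₀⁻¹)⁻¹ * x⁻¹
      = (x * f₀ * x⁻¹) * (x * g₀ * x⁻¹) * (x * f₀ * x⁻¹)⁻¹ * (x * g₀ * x⁻¹)⁻¹
    group
  -- M and its normaliser
  set M : Subgroup Γ := K ⊔ K' with hM
  have hxxK : K.map (MulAut.conj (x * x)).toMonoidHom = K :=
    Subgroup.mem_normalizer_iff_map_conj_eq.mp (hRK hxx)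
  have hK'φ : K'.map φ = K := by
    rw [hK', Subgroup.map_map]
    have : φ.comp φ = (MulAut.conj (x * x)).toMonoidHom := by
      ext y
      show x * (x * y * x⁻¹) * x⁻¹ = (x * x) * y * (x * x)⁻¹
      group
    rw [this]; exact hxxK
  have hxM : x ∈ Subgroup.normalizer (M : Set Γ) := by
    rw [Subgroup.mem_normalizer_iff_map_conj_eq]
    show M.map φ = M
    rw [hM, Subgroup.map_sup, hK'φ, sup_comm]
  -- z is not in M
  have hzM : z ∉ M := by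
    intro hz
    have hcoe : (↑(K ⊔ K') : Set Γ) = (K : Set Γ) * (K' : Set Γ) :=
      Subgroup.coe_mul_of_right_le_normalizer_left K K' (hK'F.trans (le_sup_right.trans hRK))
    have hz' : z ∈ (K : Set Γ) * (K' : Set Γ) := by rw [← hcoe]; exact hz
    obtain ⟨k, hk, k', hk', hkk⟩ := Set.mem_mul.mp hz'
    have hk'F1 : k' ∈ F₁ := by
      have : k' = k⁻¹ * z := by rw [← hkk]; group
      rw [this]
      exact F₁.mul_mem (F₁.inv_mem (hKF hk)) hzF1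
    obtain ⟨g, hg, f, hf, h | h⟩ := hZ k' hk'F1 (hK'F hk')
    · apply hzK
      rw [← hkk]
      exact K.mul_mem hk (h ▸ hrK g hg f hf)
    · apply hzK'
      have : z = k' * (g * f * g⁻¹ * f⁻¹)⁻¹ := by rw [h]; group
      rw [this]
      exact K'.mul_mem hk' (K'.inv_mem (hrK' g hg f hf))
  -- the generating set
  set k : Set Γ := (M : Set Γ) ∪ {z, x} with hk
  have hMc : ∀ m ∈ M, m ∈ Subgroup.closure k := fun m hm => Subgroup.subset_closure (Or.inl hm)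
  have hzcl : z ∈ Subgroup.closure k := Subgroup.subset_closure (Or.inr (Or.inl rfl))
  have hxcl : x ∈ Subgroup.closure k := Subgroup.subset_closure (Or.inr (Or.inr rfl))
  have hSle : F₁ ⊔ F₂ ⊔ Subgroup.zpowers x ≤ Subgroup.closure k := by
    refine sup_le (sup_le ?_ ?_) (Subgroup.zpowers_le.mpr hxcl)
    · intro g hg
      rcases hKcov g hg with h | h
      · exact hMc g (Subgroup.mem_sup_left h)
      · have : g = z⁻¹ * (z * g) := by group
        rw [this]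
        exact (Subgroup.closure k).mul_mem ((Subgroup.closure k).inv_mem hzcl)
          (hMc _ (Subgroup.mem_sup_left h))
    · intro f hf
      rcases hK'cov f hf with h | h
      · exact hMc f (Subgroup.mem_sup_right h)
      · have : f = z⁻¹ * (z * f) := by group
        rw [this]
        exact (Subgroup.closure k).mul_mem ((Subgroup.closure k).inv_mem hzcl)
          (hMc _ (Subgroup.mem_sup_right h))
  have hNm : Subgroup.closure k ≤ Subgroup.normalizer (M : Set Γ) := by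
    rw [Subgroup.closure_le]
    rintro y (hy | hy | hy)
    · exact Subgroup.le_normalizer hy
    · rw [hy]; exact Subgroup.center_le_normalizer _ hzc
    · rw [Set.mem_singleton_iff.mp hy]; exact hxM
  have hconjM : ∀ a ∈ Subgroup.closure k, ∀ m ∈ M, a * m * a⁻¹ ∈ M := fun a ha m hm =>
    (Subgroup.mem_normalizer_iff.mp (hNm ha) m).mp hm
  have hcomm : ∀ a ∈ Subgroup.closure k, ∀ b ∈ Subgroup.closure k, ⁅a, b⁆ ∈ M := by
    intro a ha b hb
    refine Subgroup.closure_induction₂ (p := fun a b _ _ => ⁅a, b⁆ ∈ M) ?_ ?_ ?_ ?_ ?_ ?_ ?_ ha hb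
    · intro a b ha hb
      have ruleL : a ∈ M → ⁅a, b⁆ ∈ M := fun h => by
        have e : ⁅a, b⁆ = a * (b * a⁻¹ * b⁻¹) := by rw [commutatorElement_def]; group
        rw [e]; exact M.mul_mem h (hconjM b (Subgroup.subset_closure hb) _ (M.inv_mem h))
      have ruleR : b ∈ M → ⁅a, b⁆ ∈ M := fun h => by
        have e : ⁅a, b⁆ = (a * b * a⁻¹) * b⁻¹ := by rw [commutatorElement_def]
        rw [e]; exact M.mul_mem (hconjM a (Subgroup.subset_closure ha) _ h) (M.inv_mem h)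
      have ruleC : a * b = b * a → ⁅a, b⁆ ∈ M := fun h => by
        have e : ⁅a, b⁆ = 1 := commutatorElement_eq_one_iff_commute.mpr h
        rw [e]; exact M.one_mem
      rcases ha with ha | ha | ha
      · exact ruleL ha
      · exact ruleC (by rw [ha]; exact (hzc' b).symm)
      · rcases hb with hb | hb | hb
        · exact ruleR hb
        · exact ruleC (by rw [hb]; exact hzc' a)
        · exact ruleC (by rw [Set.mem_singleton_iff.mp ha, Set.mem_singleton_iff.mp hb])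
    · intro b _
      simp
    · intro a _
      simp
    · intro a a' b ha _ _ h h'
      have e : ⁅a * a', b⁆ = a * ⁅a', b⁆ * a⁻¹ * ⁅a, b⁆ := by
        simp only [commutatorElement_def]; group
      rw [e]; exact M.mul_mem (hconjM a ha _ h') h
    · intro b b' a hb _ _ h h'
      have e : ⁅a, b * b'⁆ = ⁅a, b⁆ * (b * ⁅a, b'⁆ * b⁻¹) := by
        simp only [commutatorElement_def]; group
      rw [e]; exact M.mul_mem h (hconjM b hb _ h')
    · intro a b ha _ h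
      have e : ⁅a⁻¹, b⁆ = a⁻¹ * ⁅a, b⁆⁻¹ * (a⁻¹)⁻¹ := by
        simp only [commutatorElement_def]; group
      rw [e]; exact hconjM _ (inv_mem ha) _ (M.inv_mem h)
    · intro a b _ hb h
      have e : ⁅a, b⁻¹⁆ = b⁻¹ * ⁅a, b⁆⁻¹ * (b⁻¹)⁻¹ := by
        simp only [commutatorElement_def]; group
      rw [e]; exact hconjM _ (inv_mem hb) _ (M.inv_mem h)
  intro hzmem
  apply hzM
  have h := Subgroup.commutator_mono hSle hSle hzmem
  exact (Subgroup.commutator_le.mpr (fun a ha b hb => hcomm a ha b hb)) h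

end Cfsg.Agent.Lib.Helper77.J3MCORE2
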