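import Mathlib
import Cfsg.Prelude.Def_GeometricClasses
import Cfsg.Prelude.Def_LieClassical
import Cfsg.Agent.Lib.Helper19.SUPU7

/-!
# Project OMP (helper71), piece O7 (proved by helper77)

An absolutely irreducible group fixing a non-degenerate bilinear form and a unitary form is
realisable over a proper subfield (the fixed field of the involution of the unitary form);
adapted from `Helper19.SUPU7.U7` (Hilbert 90, `Helper53.H90.exists_twistG`).
-/

set_option autoImplicit false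
set_option linter.unusedSectionVars false

namespace Cfsg.Agent.Lib.Helper77.OMPO7

open Matrix Cfsg.Geo
open Cfsg.Agent.Lib.Helper19.SUPU7 (U7_gram U7_mat_ext U7_map_mulVec)

variable {n : ℕ} {F : Type*} [Field F] [Fintype F]

/-- a unitary form is given by a matrix: `f u v = u ⬝ᵥ A *ᵥ σ(v)` -/
theorem O7_gram (σ : F ≃+* F) (f : (Fin n → F) → (Fin n → F) → F) (hf : IsUnitaryForm σ f) :
    ∃ A : Matrix (Fin n) (Fin n) F, ∀ u v, f u v = u ⬝ᵥ (A *ᵥ fun i => σ (v i)) := by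
  have hadd : ∀ u v w, f u (v + w) = f u v + f u w := by
    intro u v w
    rw [hf.herm, hf.add_left, map_add, ← hf.herm, ← hf.herm]
  have hsmul : ∀ (c : F) u v, f u (c • v) = σ c * f u v := by
    intro c u v
    rw [hf.herm, hf.smul_left, map_mul, ← hf.herm]
  have hbil : IsBilinearForm (fun u w : Fin n → F => f u (fun i => σ (w i))) := by
    refine ⟨fun x y v => hf.add_left x y _, fun c x v => hf.smul_left c x _, ?_, ?_⟩
    · intro v x y
      show f v (fun i => σ ((x + y) i)) = _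
      have e : (fun i => σ ((x + y) i)) = (fun i => σ (x i)) + (fun i => σ (y i)) := by
        funext i; simp
      rw [e, hadd]
    · intro c v x
      show f v (fun i => σ ((c • x) i)) = _
      have e : (fun i => σ ((c • x) i)) = σ c • (fun i => σ (x i)) := by
        funext i; simp
      rw [e, hsmul, hf.involutive]
  obtain ⟨A, hA⟩ := U7_gram _ hbil
  refine ⟨A, fun u v => ?_⟩
  have h1 := hA u (fun i => σ (v i))
  have e : (fun i => σ ((fun i => σ (v i)) i)) = v := by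
    funext i
    exact hf.involutive (v i)
  have h2 : f u (fun i => σ ((fun i => σ (v i)) i)) = u ⬝ᵥ (A *ᵥ fun i => σ (v i)) := h1
  rw [e] at h2
  exact h2

theorem O7 (hn : 1 ≤ n) (L : Subgroup (GL (Fin n) F))
    (hLa : ActsAbsolutelyIrreducibly (matrixSet L))
    (b : (Fin n → F) → (Fin n → F) → F) (hb : IsBilinearForm b) (hbn : IsNondegenerateForm b)
    (hfixb : FixesForm (matrixSet L) b) (σ : F ≃+* F) (f : (Fin n → F) → (Fin n → F) → F)
    (hf : IsUnitaryForm σ f) (hfixf : FixesForm (matrixSet L) f) :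
    ∃ F₀ : Subfield F, F₀ ≠ ⊤ ∧ RealisableOver F₀ (matrixSet L) := by
  classical
  have hne : Nonempty (Fin n) := ⟨⟨0, by omega⟩⟩
  have hσσ : ∀ x : F, σ (σ x) = x := hf.involutive
  have hσv : ∀ v : Fin n → F, (fun i => σ ((fun i => σ (v i)) i)) = v := by
    intro v
    funext i
    exact hσσ (v i)
  have hmapmap : ∀ M : Matrix (Fin n) (Fin n) F, (M.map σ).map σ = M := by
    intro M
    ext i j
    simp only [Matrix.map_apply, hσσ]
  have hmapmul : ∀ M N : Matrix (Fin n) (Fin n) F, (M * N).map σ = M.map σ * N.map σ := by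
    intro M N
    exact Matrix.map_mul
  obtain ⟨ξ, hξ⟩ : ∃ ξ : F, σ ξ ≠ ξ := by
    by_contra hall
    apply hf.ne_refl
    apply RingEquiv.ext
    intro x
    by_contra hx
    exact hall ⟨x, hx⟩
  refine ⟨Cfsg.Agent.Lib.Helper53.AutPSU.fixSubU σ, ?_, ?_⟩
  · intro htop
    have : ξ ∈ Cfsg.Agent.Lib.Helper53.AutPSU.fixSubU σ := by rw [htop]; exact Subfield.mem_top ξ
    rw [Cfsg.Agent.Lib.Helper53.AutPSU.mem_fixSubU] at this
    exact hξ this
  -- (a) the Gram matrix of `b`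
  obtain ⟨G, hG⟩ := U7_gram b hb
  have hGdet : G.det ≠ 0 := by
    intro h0
    obtain ⟨v, hv0, hv⟩ := Matrix.exists_mulVec_eq_zero_iff.2 h0
    obtain ⟨x, hx⟩ := (hbn v hv0).1
    apply hx
    rw [hG, hv, dotProduct_zero]
  have hGu : IsUnit G.det := isUnit_iff_ne_zero.2 hGdet
  have hfixG : ∀ x ∈ L, (x : Matrix (Fin n) (Fin n) F)ᵀ * G * (x : Matrix (Fin n) (Fin n) F)
      = G := by
    intro x hx
    apply U7_mat_ext
    intro u v
    have h1 := hfixb (x : Matrix (Fin n) (Fin n) F) ⟨x, hx, rfl⟩ u v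
    rw [hG, hG] at h1
    rw [← h1, ← Matrix.mulVec_mulVec, ← Matrix.mulVec_mulVec, Matrix.dotProduct_mulVec,
      Matrix.vecMul_transpose]
  -- (a') the matrix of `f`
  obtain ⟨A, hA⟩ := O7_gram σ f hf
  have hAdet : A.det ≠ 0 := by
    intro h0
    obtain ⟨w, hw0, hw⟩ := Matrix.exists_mulVec_eq_zero_iff.2 h0
    have hv0 : (fun i => σ (w i)) ≠ 0 := by
      intro h
      apply hw0
      funext i
      have h1 := congrFun h i
      have h2 : σ (w i) = 0 := h1
      rw [← hσσ (w i), h2, map_zero]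
      rfl
    obtain ⟨x, hx⟩ := (hf.nondegenerate _ hv0).1
    apply hx
    rw [hA, hσv, hw, dotProduct_zero]
  have hAu : IsUnit A.det := isUnit_iff_ne_zero.2 hAdet
  have hAA : A⁻¹ * A = 1 := Matrix.nonsing_inv_mul A hAu
  have hAA' : A * A⁻¹ = 1 := Matrix.mul_nonsing_inv A hAu
  have hfixA : ∀ x ∈ L, (x : Matrix (Fin n) (Fin n) F)ᵀ * A *
      (x : Matrix (Fin n) (Fin n) F).map σ = A := by
    intro x hx
    apply U7_mat_ext
    intro u v
    have h1 := hfixf (x : Matrix (Fin n) (Fin n) F) ⟨x, hx, rfl⟩ u (fun i => σ (v i))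
    rw [hA, hA, U7_map_mulVec, hσv] at h1
    rw [← h1, ← Matrix.mulVec_mulVec, ← Matrix.mulVec_mulVec, Matrix.dotProduct_mulVec,
      Matrix.vecMul_transpose]
  -- (b) `x^σ * M = M * x` with `M = A⁻¹ * G`
  obtain ⟨M, hMdef⟩ : ∃ M : Matrix (Fin n) (Fin n) F, M = A⁻¹ * G := ⟨_, rfl⟩
  have hMu : IsUnit M.det := by
    rw [hMdef, Matrix.det_mul]
    exact (Matrix.isUnit_nonsing_inv_det A hAu).mul hGu
  have hMdet : M.det ≠ 0 := hMu.ne_zero
  have hMM : M⁻¹ * M = 1 := Matrix.nonsing_inv_mul M hMu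
  have hMM' : M * M⁻¹ = 1 := Matrix.mul_nonsing_inv M hMu
  have hb1 : ∀ x ∈ L, (x : Matrix (Fin n) (Fin n) F).map σ * M
      = M * (x : Matrix (Fin n) (Fin n) F) := by
    intro x hx
    have h1 := hfixA x hx
    have h2 : (x : Matrix (Fin n) (Fin n) F)ᵀ *
        (A * (x : Matrix (Fin n) (Fin n) F).map σ * A⁻¹) = 1 := by
      calc (x : Matrix (Fin n) (Fin n) F)ᵀ * (A * (x : Matrix (Fin n) (Fin n) F).map σ * A⁻¹)
          = ((x : Matrix (Fin n) (Fin n) F)ᵀ * A * (x : Matrix (Fin n) (Fin n) F).map σ) * A⁻¹ := by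
            simp only [Matrix.mul_assoc]
        _ = 1 := by rw [h1, hAA']
    have h3 : (A * (x : Matrix (Fin n) (Fin n) F).map σ * A⁻¹) *
        (x : Matrix (Fin n) (Fin n) F)ᵀ = 1 := mul_eq_one_comm.1 h2
    have h4 : G * (x : Matrix (Fin n) (Fin n) F) =
        A * (x : Matrix (Fin n) (Fin n) F).map σ * A⁻¹ * G := by
      calc G * (x : Matrix (Fin n) (Fin n) F)
          = (A * (x : Matrix (Fin n) (Fin n) F).map σ * A⁻¹ * (x : Matrix (Fin n) (Fin n) F)ᵀ) *
              (G * (x : Matrix (Fin n) (Fin n) F)) := by rw [h3, Matrix.one_mul]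
        _ = A * (x : Matrix (Fin n) (Fin n) F).map σ * A⁻¹ *
              ((x : Matrix (Fin n) (Fin n) F)ᵀ * G * (x : Matrix (Fin n) (Fin n) F)) := by
            simp only [Matrix.mul_assoc]
        _ = A * (x : Matrix (Fin n) (Fin n) F).map σ * A⁻¹ * G := by rw [hfixG x hx]
    rw [hMdef]
    calc (x : Matrix (Fin n) (Fin n) F).map σ * (A⁻¹ * G)
        = A⁻¹ * (A * (x : Matrix (Fin n) (Fin n) F).map σ * A⁻¹ * G) := by
          simp only [← Matrix.mul_assoc]
          rw [hAA, Matrix.one_mul]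
      _ = A⁻¹ * (G * (x : Matrix (Fin n) (Fin n) F)) := by rw [h4]
      _ = A⁻¹ * G * (x : Matrix (Fin n) (Fin n) F) := by rw [Matrix.mul_assoc]
  -- (c) `M^σ * M` is a scalar
  have hb2 : ∀ x ∈ L, (x : Matrix (Fin n) (Fin n) F) * M.map σ
      = M.map σ * (x : Matrix (Fin n) (Fin n) F).map σ := by
    intro x hx
    have h1 := congrArg (fun N : Matrix (Fin n) (Fin n) F => N.map σ) (hb1 x hx)
    simp only [hmapmul, hmapmap] at h1
    exact h1
  have hcomm : ∀ s ∈ matrixSet L, (M.map σ * M) * s = s * (M.map σ * M) := by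
    rintro _ ⟨x, hx, rfl⟩
    show M.map σ * M * (x : Matrix (Fin n) (Fin n) F) = (x : Matrix (Fin n) (Fin n) F) *
      (M.map σ * M)
    rw [Matrix.mul_assoc, ← hb1 x hx, ← Matrix.mul_assoc, ← Matrix.mul_assoc, hb2 x hx]
  obtain ⟨l, hl⟩ := hLa.2 (M.map σ * M) hcomm
  have hl0 : l ≠ 0 := by
    intro h0
    rw [h0, zero_smul] at hl
    have h1 : M.map σ = 0 := by
      calc M.map σ = M.map σ * M * M⁻¹ := by rw [Matrix.mul_assoc, hMM', Matrix.mul_one]
        _ = 0 := by rw [hl, Matrix.zero_mul]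
    have h2 : M = 0 := by
      rw [← hmapmap M, h1]
      ext i j
      simp
    rw [h2, Matrix.det_zero] at hMdet
    exact hMdet rfl
  -- (d) Hilbert 90
  have hNN : M⁻¹ * (M⁻¹).map σ = l⁻¹ • (1 : Matrix (Fin n) (Fin n) F) := by
    have h1 : (M⁻¹).map σ * M.map σ = 1 := by
      rw [← hmapmul, hMM]
      ext i j
      simp [Matrix.one_apply, apply_ite σ]
    have h2 : M⁻¹ * (M⁻¹).map σ * (M.map σ * M) = 1 := by
      calc M⁻¹ * (M⁻¹).map σ * (M.map σ * M) = M⁻¹ * ((M⁻¹).map σ * M.map σ) * M := by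
            simp only [Matrix.mul_assoc]
        _ = 1 := by rw [h1, Matrix.mul_one, hMM]
    rw [hl, Matrix.mul_smul, Matrix.mul_one] at h2
    rw [← h2, smul_smul, inv_mul_cancel₀ hl0, one_smul]
  have hord : orderOf σ = 2 := by
    have h2p : Fact (Nat.Prime 2) := ⟨Nat.prime_two⟩
    apply orderOf_eq_prime
    · ext x
      show σ (σ x) = x
      exact hσσ x
    · intro h1
      apply hξ
      have h2 : σ ξ = ξ := by rw [h1]; rfl
      exact h2
  have hT : ∀ v : Fin n → F, (Cfsg.Agent.Lib.Helper53.H90.slG σ M⁻¹)^[2] v = l⁻¹ • v := by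
    intro v
    show Cfsg.Agent.Lib.Helper53.H90.slG σ M⁻¹ (Cfsg.Agent.Lib.Helper53.H90.slG σ M⁻¹ v) = _
    unfold Cfsg.Agent.Lib.Helper53.H90.slG
    rw [U7_map_mulVec]
    have h1 : (fun i => σ (σ (v i))) = v := by
      funext i
      exact hσσ (v i)
    rw [h1, Matrix.mulVec_mulVec, hNN, Matrix.smul_mulVec, Matrix.one_mulVec]
  obtain ⟨B, c, hBu, hc0, hBc⟩ :=
    Cfsg.Agent.Lib.Helper53.H90.exists_twistG σ 2 (by norm_num) hord M⁻¹ l⁻¹ (inv_ne_zero hl0) hT
  have hBσ : B.map σ = c • (M * B) := by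
    calc B.map σ = M * (M⁻¹ * B.map σ) := by rw [← Matrix.mul_assoc, hMM', Matrix.one_mul]
      _ = c • (M * B) := by rw [hBc, Matrix.mul_smul]
  have hBB : B⁻¹ * B = 1 := Matrix.nonsing_inv_mul B hBu
  have hBB' : B * B⁻¹ = 1 := Matrix.mul_nonsing_inv B hBu
  -- (e) the conjugates are fixed by `σ`
  refine ⟨⟨B⁻¹, B, hBB, hBB'⟩, ?_⟩
  rintro _ ⟨x, hx, rfl⟩ i j
  show (B⁻¹ * (x : Matrix (Fin n) (Fin n) F) * B) i j ∈ _
  rw [Cfsg.Agent.Lib.Helper53.AutPSU.mem_fixSubU]
  obtain ⟨y, hy⟩ : ∃ y : Matrix (Fin n) (Fin n) F,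
      y = B⁻¹ * (x : Matrix (Fin n) (Fin n) F) * B := ⟨_, rfl⟩
  rw [← hy]
  have hBy : B * y = (x : Matrix (Fin n) (Fin n) F) * B := by
    rw [hy, ← Matrix.mul_assoc, ← Matrix.mul_assoc, hBB', Matrix.one_mul]
  have h1 : B.map σ * y.map σ = (x : Matrix (Fin n) (Fin n) F).map σ * B.map σ := by
    rw [← hmapmul, ← hmapmul, hBy]
  rw [hBσ, Matrix.smul_mul, Matrix.mul_smul] at h1
  have h2 : M * B * y.map σ = (x : Matrix (Fin n) (Fin n) F).map σ * (M * B) :=
    smul_right_injective _ hc0 h1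
  have h3 : M * (B * y.map σ) = M * (B * y) := by
    rw [hBy, ← Matrix.mul_assoc, h2, ← Matrix.mul_assoc, hb1 x hx, Matrix.mul_assoc]
  have h4 : B * y.map σ = B * y := by
    calc B * y.map σ = M⁻¹ * (M * (B * y.map σ)) := by
          rw [← Matrix.mul_assoc, hMM, Matrix.one_mul]
      _ = B * y := by rw [h3, ← Matrix.mul_assoc, hMM, Matrix.one_mul]
  have h5 : y.map σ = y := by
    calc y.map σ = B⁻¹ * (B * y.map σ) := by rw [← Matrix.mul_assoc, hBB, Matrix.one_mul]
      _ = y := by rw [h4, ← Matrix.mul_assoc, hBB, Matrix.one_mul]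
  have h6 := congrFun (congrFun h5 i) j
  rw [Matrix.map_apply] at h6
  exact h6

end Cfsg.Agent.Lib.Helper77.OMPO7
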