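import Mathlib
import Cfsg.Agent.S0801

/-!
# Project DK (helper44), piece DK-SL2 (proved by helper77)

In `SL_2(F)`, `F` finite of odd characteristic, `μ ≠ 0`, `μ ^ 2 ≠ -1`: a subgroup containing
`!![1, 1; 0, 1]` and `!![1, 0; μ, 1]` contains `!![1, μ; 0, 1]` (Dickson's generation lemma
S0801 applied to the subfield generated by `μ`).
-/

set_option autoImplicit false

namespace Cfsg.Agent.Lib.Helper44.SubfDk

open Matrix

/-- the swap-conjugated base change `SL_2(K) → SL_2(F)` for a subfield `K` of `F` -/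
def dksl2_phi {F : Type*} [Field F] (K : Subfield F) :
    Matrix.SpecialLinearGroup (Fin 2) K →* Matrix.SpecialLinearGroup (Fin 2) F where
  toFun g := ⟨!![((g.1 1 1 : K) : F), ((g.1 1 0 : K) : F);
      ((g.1 0 1 : K) : F), ((g.1 0 0 : K) : F)], by
    have h := g.2
    rw [Matrix.det_fin_two] at h
    have h' : ((g.1 0 0 : K) : F) * ((g.1 1 1 : K) : F) -
        ((g.1 0 1 : K) : F) * ((g.1 1 0 : K) : F) = 1 := by
      have h0 := congrArg (fun x : K => (x : F)) h
      simpa using h0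
    rw [Matrix.det_fin_two_of]
    linear_combination h'⟩
  map_one' := by
    apply Subtype.ext
    ext i j
    fin_cases i <;> fin_cases j <;> simp
  map_mul' g h := by
    apply Subtype.ext
    have e : (g * h).1 = g.1 * h.1 := rfl
    show !![(((g * h).1 1 1 : K) : F), (((g * h).1 1 0 : K) : F);
        (((g * h).1 0 1 : K) : F), (((g * h).1 0 0 : K) : F)] =
      !![((g.1 1 1 : K) : F), ((g.1 1 0 : K) : F); ((g.1 0 1 : K) : F), ((g.1 0 0 : K) : F)] *
      !![((h.1 1 1 : K) : F), ((h.1 1 0 : K) : F); ((h.1 0 1 : K) : F), ((h.1 0 0 : K) : F)]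
    rw [e]
    ext i j
    fin_cases i <;> fin_cases j <;>
      simp [Matrix.mul_apply, Fin.sum_univ_two] <;> ring

theorem dksl2_phi_coe {F : Type*} [Field F] (K : Subfield F)
    (g : Matrix.SpecialLinearGroup (Fin 2) K) :
    ((dksl2_phi K g : Matrix.SpecialLinearGroup (Fin 2) F) : Matrix (Fin 2) (Fin 2) F) =
      !![((g.1 1 1 : K) : F), ((g.1 1 0 : K) : F); ((g.1 0 1 : K) : F), ((g.1 0 0 : K) : F)] :=
  rfl

theorem dk_sl2 {F : Type*} [Field F] [Fintype F] (h2 : (2 : F) ≠ 0) (μ : F) (hμ0 : μ ≠ 0)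
    (hμ2 : μ ^ 2 ≠ -1) (L : Subgroup (Matrix.SpecialLinearGroup (Fin 2) F))
    (hu : ∀ g : Matrix.SpecialLinearGroup (Fin 2) F,
      (g : Matrix (Fin 2) (Fin 2) F) = !![1, 1; 0, 1] → g ∈ L)
    (hl : ∀ g : Matrix.SpecialLinearGroup (Fin 2) F,
      (g : Matrix (Fin 2) (Fin 2) F) = !![1, 0; μ, 1] → g ∈ L) :
    ∀ g : Matrix.SpecialLinearGroup (Fin 2) F,
      (g : Matrix (Fin 2) (Fin 2) F) = !![1, μ; 0, 1] → g ∈ L := by
  classical
  obtain ⟨K, hK⟩ : ∃ K : Subfield F, K = Subfield.closure ({μ} : Set F) := ⟨_, rfl⟩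
  have hμK : μ ∈ K := by rw [hK]; exact Subfield.subset_closure (Set.mem_singleton μ)
  let _ : Fintype ↥K := Fintype.ofFinite ↥K
  obtain ⟨lam, hlam⟩ : ∃ lam : K, (lam : F) = μ := ⟨⟨μ, hμK⟩, rfl⟩
  have hlam0 : lam ≠ 0 := by
    intro h
    apply hμ0
    rw [← hlam, h]
    rfl
  have h2K : (2 : K) ≠ 0 := by
    intro h
    apply h2
    have h' : (1 + 1 : K) = 0 := by rw [one_add_one_eq_two]; exact h
    have h0 : ((1 + 1 : K) : F) = ((0 : K) : F) := by rw [h']
    rw [Subfield.coe_add, Subfield.coe_one, Subfield.coe_zero, one_add_one_eq_two] at h0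
    exact h0
  have hgen : Subfield.closure ({lam} : Set K) = ⊤ := by
    rw [eq_top_iff]
    intro x _
    have h1 : K ≤ (Subfield.closure ({lam} : Set K)).map K.subtype := by
      have h1' : Subfield.closure ({μ} : Set F) ≤
          (Subfield.closure ({lam} : Set K)).map K.subtype := by
        rw [Subfield.closure_le]
        intro y hy
        rw [Set.mem_singleton_iff] at hy
        rw [hy]
        exact ⟨lam, Subfield.subset_closure (Set.mem_singleton lam), hlam⟩
      exact hK.le.trans h1'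
    obtain ⟨y, hy, hyx⟩ := h1 x.2
    have hyx' : y = x := Subtype.ext hyx
    rw [← hyx']
    exact hy
  have hcl : Subgroup.closure {g : Matrix.SpecialLinearGroup (Fin 2) K |
      (g : Matrix (Fin 2) (Fin 2) K) = !![1, 0; 1, 1] ∨
      (g : Matrix (Fin 2) (Fin 2) K) = !![1, lam; 0, 1]} = ⊤ := by
    rcases Cfsg.Agent.S0801.result h2K lam hlam0 hgen with ⟨h, -⟩ | ⟨-, h, -⟩
    · exact h
    · exfalso
      apply hμ2
      have h0 : ((lam ^ 2 : K) : F) = ((-1 : K) : F) := by rw [h]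
      push_cast at h0
      rw [hlam] at h0
      exact h0
  have hle : Subgroup.closure {g : Matrix.SpecialLinearGroup (Fin 2) K |
      (g : Matrix (Fin 2) (Fin 2) K) = !![1, 0; 1, 1] ∨
      (g : Matrix (Fin 2) (Fin 2) K) = !![1, lam; 0, 1]} ≤ L.comap (dksl2_phi K) := by
    rw [Subgroup.closure_le]
    rintro g (hg | hg)
    · apply hu
      rw [dksl2_phi_coe]
      have hg' : g.1 = !![1, 0; 1, 1] := hg
      rw [hg']
      simp
    · apply hl
      rw [dksl2_phi_coe]
      have hg' : g.1 = !![1, lam; 0, 1] := hg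
      rw [hg']
      simp [hlam]
  intro g hg
  obtain ⟨x, hx⟩ : ∃ x : Matrix.SpecialLinearGroup (Fin 2) K,
      x.1 = !![1, 0; lam, 1] :=
    ⟨⟨!![1, 0; lam, 1], by simp [Matrix.det_fin_two_of]⟩, rfl⟩
  have hxL : dksl2_phi K x ∈ L := by
    have hxc : x ∈ Subgroup.closure {g : Matrix.SpecialLinearGroup (Fin 2) K |
        (g : Matrix (Fin 2) (Fin 2) K) = !![1, 0; 1, 1] ∨
        (g : Matrix (Fin 2) (Fin 2) K) = !![1, lam; 0, 1]} := by
      rw [hcl]; exact Subgroup.mem_top x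
    exact hle hxc
  have hgx : g = dksl2_phi K x := by
    apply Subtype.ext
    show (g : Matrix (Fin 2) (Fin 2) F) = _
    rw [hg, dksl2_phi_coe, hx]
    simp [hlam]
  rw [hgx]
  exact hxL

end Cfsg.Agent.Lib.Helper44.SubfDk
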