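import Cfsg.Agent.Lib.Helper47.UniDefs

/-! Piece LAYERMAP of S2676 (for helper47): a form-preserving `N`-equivariant linear map between
framed triples induces form-preserving linear maps of the layer forms. -/

set_option autoImplicit false

namespace Cfsg.Agent.Lib.Helper77.Uni

open Cfsg.Agent.Lib.Helper47 Module

universe u

variable {F : Type u} [Field F]

/-- bilinear expansion of a form over two finite sums -/
theorem lm_bil_sum {V : Type*} [AddCommGroup V] [Module F V] {B : V → V → F}
    (hB : IsSForm (RingHom.id F) (-1) B) {α β : Type*} [Fintype α] [Fintype β]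
    (a : α → F) (y : α → V) (c : β → F) (z : β → V) :
    B (∑ i, a i • y i) (∑ k, c k • z k) = ∑ i, ∑ k, a i * c k * B (y i) (z k) := by
  classical
  have h1 : ∀ (Z : V) (s : Finset α), B (∑ i ∈ s, a i • y i) Z = ∑ i ∈ s, a i * B (y i) Z := by
    intro Z s
    induction s using Finset.induction_on with
    | empty => rw [Finset.sum_empty, Finset.sum_empty, hB.zero_left]
    | insert k s hk ih =>
      rw [Finset.sum_insert hk, Finset.sum_insert hk, hB.add_left, hB.smul_left, ih]
  have h2 : ∀ (Y : V) (s : Finset β), B Y (∑ k ∈ s, c k • z k) = ∑ k ∈ s, c k * B Y (z k) := by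
    intro Y s
    induction s using Finset.induction_on with
    | empty => rw [Finset.sum_empty, Finset.sum_empty, hB.zero_right]
    | insert k s hk ih =>
      rw [Finset.sum_insert hk, Finset.sum_insert hk, hB.add_right, hB.smul_right, ih,
        RingHom.id_apply]
  rw [h1]
  apply Finset.sum_congr rfl
  intro i _
  rw [h2, Finset.mul_sum]
  apply Finset.sum_congr rfl
  intro k _
  ring

theorem layer_map_of_triple_map {V V' : Type*} [AddCommGroup V] [Module F V]
    [AddCommGroup V'] [Module F V'] [FiniteDimensional F V']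
    {ι ι' : Type*} [Fintype ι] [Fintype ι'] {B : V → V → F} {N : V →ₗ[F] V}
    {B' : V' → V' → F} {N' : V' →ₗ[F] V'} {d : ι → ℕ} {G : ι → ι → F} {x : ι → V}
    {d' : ι' → ℕ} {G' : ι' → ι' → F} {x' : ι' → V'}
    (hB : IsSForm (RingHom.id F) (-1) B) (hB' : IsSForm (RingHom.id F) (-1) B')
    (hx : IsFrame B N d G x) (hx' : IsFrame B' N' d' G' x')
    (hli' : LinearIndependent F (fun s : (i : ι') × Fin (d' i) => (N' ^ (s.2 : ℕ)) (x' s.1)))
    (hsp' : Submodule.span F
      (Set.range (fun s : (i : ι') × Fin (d' i) => (N' ^ (s.2 : ℕ)) (x' s.1))) = ⊤)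
    (φ : V →ₗ[F] V') (hφ : ∀ x y, B' (φ x) (φ y) = B x y) (hφN : ∀ x, φ (N x) = N' (φ x))
    (j : ℕ) :
    ∃ ψ : ({i : ι // d i = j} → F) →ₗ[F] ({i : ι' // d' i = j} → F),
      ∀ v w, layerForm d' G' j (ψ v) (ψ w) = layerForm d G j v w := by
  classical
  rcases Nat.eq_zero_or_pos j with hj0 | hjpos
  · subst hj0
    have hE : IsEmpty {i : ι // d i = 0} :=
      ⟨fun i => absurd i.2 (Nat.pos_iff_ne_zero.mp (hx.pos i.1))⟩
    have hE' : IsEmpty {i : ι' // d' i = 0} :=
      ⟨fun i => absurd i.2 (Nat.pos_iff_ne_zero.mp (hx'.pos i.1))⟩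
    refine ⟨0, fun v w => ?_⟩
    simp [layerForm, gForm]
  · let b' : Basis ((i : ι') × Fin (d' i)) F V' := Basis.mk hli' (by rw [hsp'])
    have hb' : ∀ s : (i : ι') × Fin (d' i), b' s = (N' ^ (s.2 : ℕ)) (x' s.1) := fun s => by
      simp only [b', Basis.mk_apply]
    have hpow : ∀ (a : ℕ) (v : V), (N' ^ a) (φ v) = φ ((N ^ a) v) := by
      intro a
      induction a with
      | zero => intro v; simp
      | succ a ih =>
        intro v
        rw [pow_succ, pow_succ, Module.End.mul_apply, Module.End.mul_apply, ← hφN, ih]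
    have hNb : ∀ (a : ℕ) (r : (i : ι') × Fin (d' i)),
        (N' ^ a) (b' r) = (N' ^ (a + (r.2 : ℕ))) (x' r.1) := by
      intro a r
      rw [hb', pow_add, Module.End.mul_apply]
    have hkill' : ∀ (k : ι') (a : ℕ), d' k ≤ a → (N' ^ a) (x' k) = 0 := by
      intro k a hka
      obtain ⟨c, rfl⟩ := Nat.exists_eq_add_of_le hka
      rw [add_comm, pow_add, Module.End.mul_apply, hx'.kill, map_zero]
    -- coordinates of elements killed by `N' ^ j`
    have hA : ∀ y : V', (N' ^ j) y = 0 → ∀ s : (i : ι') × Fin (d' i),
        (s.2 : ℕ) + j < d' s.1 → b'.repr y s = 0 := by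
      intro y hy s hs
      have hclaim : (b'.coord ⟨s.1, ⟨(s.2 : ℕ) + j, hs⟩⟩) ∘ₗ (N' ^ j) = b'.coord s := by
        apply b'.ext
        intro r
        rw [LinearMap.comp_apply, Basis.coord_apply, Basis.coord_apply, Basis.repr_self, hNb]
        by_cases hr : (r.2 : ℕ) + j < d' r.1
        · have e1 : (N' ^ (j + (r.2 : ℕ))) (x' r.1) = b' ⟨r.1, ⟨(r.2 : ℕ) + j, hr⟩⟩ := by
            rw [hb', add_comm]
          rw [e1, Basis.repr_self, Finsupp.single_apply, Finsupp.single_apply]
          by_cases hrs : r = s
          · subst hrs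
            rw [if_pos rfl, if_pos rfl]
          · rw [if_neg hrs, if_neg]
            intro h
            apply hrs
            obtain ⟨k, b⟩ := r
            obtain ⟨k2, b2⟩ := s
            simp only [Sigma.mk.injEq] at h
            obtain ⟨h1, h2⟩ := h
            subst h1
            have h3 := eq_of_heq h2
            have h4 : (b : ℕ) + j = (b2 : ℕ) + j := congrArg Fin.val h3
            have h5 : b = b2 := Fin.ext (by omega)
            rw [h5]
        · rw [hkill' r.1 _ (by omega), map_zero, Finsupp.zero_apply, Finsupp.single_apply, if_neg]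
          intro h
          rw [h] at hr
          exact hr hs
      have h1 := LinearMap.congr_fun hclaim y
      rw [LinearMap.comp_apply, hy, map_zero, Basis.coord_apply] at h1
      exact h1.symm
    let e : {k : ι' // d' k = j} → (i : ι') × Fin (d' i) := fun k => ⟨k.1, ⟨0, hx'.pos k.1⟩⟩
    have he : Function.Injective e := by
      intro k k' h
      have h1 := congrArg Sigma.fst h
      exact Subtype.ext h1
    have hrange : ∀ s : (i : ι') × Fin (d' i), (s.2 : ℕ) = 0 → d' s.1 = j →
        s ∈ Set.range e := by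
      rintro ⟨k, ⟨b, hb⟩⟩ h0 hd
      simp only at h0
      subst h0
      exact ⟨⟨k, hd⟩, rfl⟩
    have hK : ∀ y y' : V', (N' ^ j) y = 0 → (N' ^ j) y' = 0 →
        B' y ((N' ^ (j - 1)) y') = ∑ k : {k : ι' // d' k = j}, ∑ k' : {k : ι' // d' k = j},
          b'.repr y (e k) * G' k k' * b'.repr y' (e k') := by
      intro y y' hy hy'
      have hc := hA y hy
      have hc' := hA y' hy'
      have hexp : B' y ((N' ^ (j - 1)) y') = ∑ s, ∑ t, b'.repr y s * b'.repr y' t *
          B' (b' s) ((N' ^ (j - 1)) (b' t)) := by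
        conv_lhs => rw [← b'.sum_repr y, ← b'.sum_repr y', map_sum]
        simp only [map_smul]
        exact lm_bil_sum hB' _ _ _ _
      rw [hexp]
      have hgram : ∀ s t : (i : ι') × Fin (d' i), B' (b' s) ((N' ^ (j - 1)) (b' t)) =
          if d' s.1 = d' t.1 ∧ (s.2 : ℕ) + (j - 1 + (t.2 : ℕ)) + 1 = d' s.1 then
            (-1) ^ (s.2 : ℕ) * G' s.1 t.1 else 0 := by
        intro s t
        rw [hNb, hb', hx'.gram]
      have hvan : ∀ s t : (i : ι') × Fin (d' i), (s ∉ Set.range e ∨ t ∉ Set.range e) →
          b'.repr y s * b'.repr y' t * B' (b' s) ((N' ^ (j - 1)) (b' t)) = 0 := by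
        intro s t hst
        rw [hgram]
        by_cases hcond : d' s.1 = d' t.1 ∧ (s.2 : ℕ) + (j - 1 + (t.2 : ℕ)) + 1 = d' s.1
        · by_cases hs : (s.2 : ℕ) + j < d' s.1
          · rw [hc s hs, zero_mul, zero_mul]
          · by_cases ht : (t.2 : ℕ) + j < d' t.1
            · rw [hc' t ht, mul_zero, zero_mul]
            · exfalso
              have h1 : (s.2 : ℕ) = 0 := by omega
              have h2 : (t.2 : ℕ) = 0 := by omega
              have h3 : d' s.1 = j := by omega
              have h4 : d' t.1 = j := by omega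
              rcases hst with h | h
              · exact h (hrange s h1 h3)
              · exact h (hrange t h2 h4)
        · rw [if_neg hcond, mul_zero]
      have hinner : ∀ k : {k : ι' // d' k = j},
          ∑ k' : {k : ι' // d' k = j}, b'.repr y (e k) * G' k k' * b'.repr y' (e k') =
          ∑ t, b'.repr y (e k) * b'.repr y' t * B' (b' (e k)) ((N' ^ (j - 1)) (b' t)) := by
        intro k
        apply Fintype.sum_of_injective e he
        · intro t ht
          exact hvan (e k) t (Or.inr ht)
        · intro k'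
          have hcond : d' (e k).1 = d' (e k').1 ∧
              ((e k).2 : ℕ) + (j - 1 + ((e k').2 : ℕ)) + 1 = d' (e k).1 := by
            refine ⟨k.2.trans k'.2.symm, ?_⟩
            show 0 + (j - 1 + 0) + 1 = d' k.1
            have := k.2
            omega
          rw [hgram, if_pos hcond]
          show _ = b'.repr y (e k) * b'.repr y' (e k') * ((-1) ^ 0 * G' k.1 k'.1)
          rw [pow_zero, one_mul]
          ring
      symm
      apply Fintype.sum_of_injective e he
      · intro s hs
        exact Finset.sum_eq_zero (fun t _ => hvan s t (Or.inl hs))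
      · intro k
        exact hinner k
    let u : ({i : ι // d i = j} → F) →ₗ[F] V :=
      Fintype.linearCombination F (fun i : {i : ι // d i = j} => x i.1)
    have hu : ∀ v, u v = ∑ i : {i : ι // d i = j}, v i • x i.1 := fun v => rfl
    have hNu : ∀ v, (N ^ j) (u v) = 0 := by
      intro v
      rw [hu, map_sum]
      apply Finset.sum_eq_zero
      intro i _
      rw [map_smul]
      have h1 := hx.kill i.1
      rw [i.2] at h1
      rw [h1, smul_zero]
    have hg : ∀ i k : {i : ι // d i = j}, B (x i.1) ((N ^ (j - 1)) (x k.1)) = G i.1 k.1 := by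
      intro i k
      have h1 := hx.gram i.1 k.1 0 (j - 1)
      rw [if_pos ⟨i.2.trans k.2.symm, by have := i.2; omega⟩] at h1
      simpa using h1
    refine ⟨LinearMap.pi (fun k => (b'.coord (e k)).comp (φ.comp u)), fun v w => ?_⟩
    have hψ : ∀ (v : {i : ι // d i = j} → F) (k : {k : ι' // d' k = j}),
        (LinearMap.pi (fun k => (b'.coord (e k)).comp (φ.comp u))) v k =
          b'.repr (φ (u v)) (e k) := fun v k => rfl
    unfold layerForm gForm
    simp only [hψ]
    rw [← hK (φ (u v)) (φ (u w)) (by rw [hpow, hNu, map_zero]) (by rw [hpow, hNu, map_zero])]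
    rw [hpow, hφ, hu, hu, map_sum]
    simp only [map_smul]
    rw [lm_bil_sum hB]
    apply Finset.sum_congr rfl
    intro i _
    apply Finset.sum_congr rfl
    intro k _
    rw [hg]
    ring

end Cfsg.Agent.Lib.Helper77.Uni
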