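import Cfsg.Agent.Lib.Helper47.UniDefs

/-! Piece PROPS of S2676 (for helper47): three small frame lemmas. -/

set_option autoImplicit false

namespace Cfsg.Agent.Lib.Helper77.Uni

open Cfsg.Agent.Lib.Helper47 Module

universe u

variable {F : Type u} [Field F]

theorem frame_le_of_pow_eq_zero {V : Type*} [AddCommGroup V] [Module F V]
    {ι : Type*} [Fintype ι] {B : V → V → F} {N : V →ₗ[F] V} {d : ι → ℕ} {G : ι → ι → F}
    {x : ι → V} (hB : IsSForm (RingHom.id F) (-1) B) (hx : IsFrame B N d G x) (k : ℕ)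
    (hk : N ^ k = 0) (i : ι) : d i ≤ k := by
  classical
  by_contra hlt
  rw [not_le] at hlt
  -- some `G i k'` with `d k' = d i` is nonzero
  have hex : ∃ k' : ι, d k' = d i ∧ G i k' ≠ 0 := by
    by_contra hno
    have hG : ∀ k' : ι, d k' = d i → G i k' = 0 := by
      intro k' hk'
      by_contra hne
      exact hno ⟨k', hk', hne⟩
    have hv := hx.nondeg (d i) (Pi.single (⟨i, rfl⟩ : {i' : ι // d i' = d i}) (1 : F)) (by
      intro w
      unfold layerForm gForm
      apply Finset.sum_eq_zero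
      intro a _
      apply Finset.sum_eq_zero
      intro b _
      by_cases ha : a = ⟨i, rfl⟩
      · rw [ha]
        have : G i (b : ι) = 0 := hG b b.2
        simp only [this, mul_zero, zero_mul]
      · rw [Pi.single_eq_of_ne ha, zero_mul, zero_mul])
    have h1 := congrFun hv (⟨i, rfl⟩ : {i' : ι // d i' = d i})
    rw [Pi.single_eq_same, Pi.zero_apply] at h1
    exact one_ne_zero h1
  obtain ⟨k', hk', hne⟩ := hex
  have hg := hx.gram i k' k (d i - 1 - k)
  rw [if_pos ⟨hk'.symm, by omega⟩, hk, LinearMap.zero_apply, hB.zero_left] at hg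
  have h2 : ((-1 : F)) ^ k ≠ 0 := pow_ne_zero _ (neg_ne_zero.mpr one_ne_zero)
  exact (mul_ne_zero h2 hne) hg.symm

theorem frame_gram_symm {V : Type*} [AddCommGroup V] [Module F V]
    {ι : Type*} [Fintype ι] {B : V → V → F} {N : V →ₗ[F] V} {d : ι → ℕ} {G : ι → ι → F}
    {x : ι → V} (hB : IsSForm (RingHom.id F) (-1) B) (hx : IsFrame B N d G x) (i k : ι)
    (h : d i = d k) : G k i = (-1) ^ d i * G i k := by
  have hpos := hx.pos i
  have g1 := hx.gram k i 0 (d i - 1)
  rw [if_pos ⟨h.symm, by omega⟩] at g1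
  simp only [pow_zero, one_mul, Module.End.one_apply] at g1
  have g2 := hx.gram i k (d i - 1) 0
  rw [if_pos ⟨h, by omega⟩] at g2
  simp only [pow_zero, Module.End.one_apply] at g2
  have hs := hB.symm ((N ^ (d i - 1)) (x i)) (x k)
  rw [g1, g2, RingHom.id_apply] at hs
  rw [hs]
  have e : d i = (d i - 1) + 1 := by omega
  conv_rhs => rw [e, pow_succ]
  ring

theorem frame_eq_zero_of_le_one {V : Type*} [AddCommGroup V] [Module F V]
    {ι : Type*} [Fintype ι] {B : V → V → F} {N : V →ₗ[F] V} {d : ι → ℕ} {G : ι → ι → F}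
    {x : ι → V} (hx : IsFrame B N d G x)
    (hsp : Submodule.span F (Set.range (fun s : (i : ι) × Fin (d i) => (N ^ (s.2 : ℕ)) (x s.1))) = ⊤)
    (h : ∀ i, d i ≤ 1) : N = 0 := by
  have hker : LinearMap.ker N = ⊤ := by
    rw [eq_top_iff, ← hsp, Submodule.span_le]
    rintro _ ⟨⟨i, a⟩, rfl⟩
    rw [SetLike.mem_coe, LinearMap.mem_ker]
    have hdi : d i = 1 := le_antisymm (h i) (hx.pos i)
    have ha : (a : ℕ) = 0 := by have := a.isLt; omega
    have hkill := hx.kill i
    rw [hdi, pow_one] at hkill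
    change N ((N ^ (a : ℕ)) (x i)) = 0
    rw [ha, pow_zero, Module.End.one_apply]
    exact hkill
  exact LinearMap.ker_eq_top.mp hker

end Cfsg.Agent.Lib.Helper77.Uni
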