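import Cfsg.Agent.Lib.Helper96.SpTI
import Cfsg.Agent.Lib.Helper96.SpElem

/-! Piece TYPES of S5955 (for helper96): the powers of a block element give `(r - 1) / i`
pairwise coprime irreducible killing polynomials. -/

set_option autoImplicit false

namespace Cfsg.Agent.Lib.Helper77.SpTypes

open Module Polynomial Cfsg.Agent.Lib.Helper96.Sp

section gen

variable {F : Type*} [Field F] {V : Type*} [AddCommGroup V] [Module F V]

/-- a polynomial in `x` either kills an irreducible invariant subspace or is injective on it -/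
theorem kills_or_inj (x : Module.End F V) (P : Submodule F V) (hinv : P.map x ≤ P)
    (hirr : ∀ Z : Submodule F V, Z ≤ P → Z.map x ≤ Z → Z = ⊥ ∨ Z = P) (q : F[X]) :
    Kills x q P ∨ ∀ u ∈ P, aeval x q u = 0 → u = 0 := by
  have hZ : (P ⊓ LinearMap.ker (aeval x q)).map x ≤ P ⊓ LinearMap.ker (aeval x q) := by
    rintro _ ⟨u, ⟨hu1, hu2⟩, rfl⟩
    refine ⟨hinv (Submodule.mem_map_of_mem hu1), ?_⟩
    rw [SetLike.mem_coe, LinearMap.mem_ker] at hu2 ⊢
    have hc : aeval x q * x = x * aeval x q := by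
      have h1 : aeval x (q * X) = aeval x (X * q) := by rw [mul_comm]
      rw [map_mul, map_mul, aeval_X] at h1
      exact h1
    have h2 := LinearMap.congr_fun hc u
    rw [Module.End.mul_apply, Module.End.mul_apply, hu2, map_zero] at h2
    exact h2
  rcases hirr _ inf_le_left hZ with h | h
  · right
    intro u hu hq0
    have h1 : u ∈ P ⊓ LinearMap.ker (aeval x q) := ⟨hu, hq0⟩
    rw [h] at h1
    exact (Submodule.mem_bot F).1 h1
  · left
    intro u hu
    have h1 : u ∈ P ⊓ LinearMap.ker (aeval x q) := by rw [h]; exact hu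
    exact h1.2

/-- an irreducible invariant subspace is killed by an irreducible polynomial -/
theorem exists_irr_kills (x : Module.End F V) (P : Submodule F V) (hinv : P.map x ≤ P)
    (hne : P ≠ ⊥) (hirr : ∀ Z : Submodule F V, Z ≤ P → Z.map x ≤ Z → Z = ⊥ ∨ Z = P)
    (p₀ : F[X]) (hp₀ : p₀ ≠ 0) (hk₀ : Kills x p₀ P) :
    ∃ μ : F[X], Irreducible μ ∧ Kills x μ P := by
  classical
  have hex : ∃ n, ∃ p : F[X], p ≠ 0 ∧ p.natDegree = n ∧ Kills x p P := ⟨_, p₀, hp₀, rfl, hk₀⟩
  obtain ⟨p, hp0, hpn, hpk⟩ := Nat.find_spec hex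
  have hmin : ∀ q : F[X], q ≠ 0 → Kills x q P → p.natDegree ≤ q.natDegree := by
    intro q hq hk
    rw [hpn]
    exact Nat.find_min' hex ⟨q, hq, rfl, hk⟩
  refine ⟨p, ?_, hpk⟩
  rw [irreducible_iff]
  constructor
  · intro hu
    obtain ⟨c, hc, rfl⟩ := Polynomial.isUnit_iff.1 hu
    apply hne
    rw [eq_bot_iff]
    intro u hu'
    have h1 := hpk u hu'
    rw [aeval_C, Module.algebraMap_end_apply] at h1
    rw [Submodule.mem_bot]
    exact (smul_eq_zero.1 h1).resolve_left hc.ne_zero
  · intro a b hab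
    by_contra hcon
    rw [not_or] at hcon
    have ha0 : a ≠ 0 := by
      rintro rfl
      rw [zero_mul] at hab
      exact hp0 hab
    have hb0 : b ≠ 0 := by
      rintro rfl
      rw [mul_zero] at hab
      exact hp0 hab
    have hdeg : p.natDegree = a.natDegree + b.natDegree := by
      rw [hab, natDegree_mul ha0 hb0]
    have hapos : 0 < a.natDegree := by
      rw [Nat.pos_iff_ne_zero]
      intro h0
      apply hcon.1
      rw [Polynomial.isUnit_iff_degree_eq_zero, degree_eq_natDegree ha0, h0]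
      rfl
    have hbpos : 0 < b.natDegree := by
      rw [Nat.pos_iff_ne_zero]
      intro h0
      apply hcon.2
      rw [Polynomial.isUnit_iff_degree_eq_zero, degree_eq_natDegree hb0, h0]
      rfl
    rcases kills_or_inj x P hinv hirr a with ha | ha
    · have := hmin a ha0 ha
      omega
    · have hbk : Kills x b P := by
        intro u hu
        apply ha _ (Cfsg.Agent.Lib.Helper4.SpHalf.aeval_mem_of_map_le x P hinv b u hu)
        have h1 := hpk u hu
        rw [hab, map_mul, Module.End.mul_apply] at h1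
        exact h1
      have := hmin b hb0 hbk
      omega

/-- divisibility by an irreducible killing polynomial -/
theorem dvd_iff_kills (x : Module.End F V) (P : Submodule F V) (hne : P ≠ ⊥)
    (μ : F[X]) (hμ : Irreducible μ) (hμk : Kills x μ P) (p : F[X]) :
    μ ∣ p ↔ Kills x p P := by
  constructor
  · rintro ⟨c, rfl⟩ u hu
    rw [mul_comm, map_mul, Module.End.mul_apply, hμk u hu, map_zero]
  · intro hk
    by_contra hnd
    obtain ⟨a, b, hab⟩ := (hμ.coprime_iff_not_dvd).2 hnd
    apply hne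
    rw [eq_bot_iff]
    intro u hu
    have h1 : aeval x (a * μ + b * p) u = u := by
      rw [hab, map_one, Module.End.one_apply]
    rw [map_add, map_mul, map_mul, LinearMap.add_apply, Module.End.mul_apply, Module.End.mul_apply,
      hμk u hu, hk u hu, map_zero, map_zero, add_zero] at h1
    rw [Submodule.mem_bot]
    exact h1.symm

end gen

theorem exists_types {F : Type*} [Field F] [Fintype F] {V : Type*} [AddCommGroup V]
    [Module F V] [FiniteDimensional F V] (r : ℕ) [Fact r.Prime]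
    (hrq : ¬ r ∣ Fintype.card F) (hr0 : (r : F) ≠ 0) (x₁ : Module.End F V)
    (P₀ : Submodule F V) (hx₁r : x₁ ^ r = 1) (hx₁inv : P₀.map x₁ ≤ P₀)
    (hP₀i : finrank F P₀ = orderOf ((Fintype.card F : ℕ) : ZMod r))
    (hx₁fix : ∀ u ∈ P₀, x₁ u = u → u = 0) :
    ∃ (e : Fin ((r - 1) / orderOf ((Fintype.card F : ℕ) : ZMod r)) → ℕ)
      (f : Fin ((r - 1) / orderOf ((Fintype.card F : ℕ) : ZMod r)) → Polynomial F),
      (∀ a, 0 < e a ∧ e a < r ∧ Irreducible (f a) ∧ Kills (x₁ ^ e a) (f a) P₀ ∧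
        (∀ u ∈ P₀, (x₁ ^ e a) u = u → u = 0)) ∧
      (∀ a b, a ≠ b → IsCoprime (f a) (f b)) := by
  classical
  have hr : r.Prime := Fact.out
  obtain ⟨hi, -, -, -, -, -, -, -, -⟩ :=
    Cfsg.Agent.Lib.Helper96.BG.pow_one_setup x₁ r hrq hr0 hx₁r
  set i := orderOf ((Fintype.card F : ℕ) : ZMod r) with hidef
  have hne : P₀ ≠ ⊥ := by
    intro h
    rw [h, finrank_bot] at hP₀i
    omega
  have hinv' : ∀ u ∈ P₀, x₁ u ∈ P₀ := fun u hu => hx₁inv (Submodule.mem_map_of_mem hu)
  have hrange : P₀ ≤ LinearMap.range (x₁ - 1) := by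
    have h1 := inv_split x₁ r hr0 hx₁r P₀ hx₁inv
    have h2 : P₀ ⊓ LinearMap.ker (x₁ - 1) = ⊥ := by
      rw [eq_bot_iff]
      rintro u ⟨hu1, hu2⟩
      rw [SetLike.mem_coe, LinearMap.mem_ker, LinearMap.sub_apply, sub_eq_zero] at hu2
      rw [Submodule.mem_bot]
      exact hx₁fix u hu1 hu2
    rw [h2, bot_sup_eq] at h1
    exact le_trans (le_of_eq h1.symm) inf_le_right
  have hirr : ∀ Z : Submodule F V, Z ≤ P₀ → Z.map x₁ ≤ Z → Z = ⊥ ∨ Z = P₀ :=
    fun Z hZ hZi => inv_eq_bot_or x₁ r hrq hr0 hx₁r P₀ hrange hP₀i Z hZ hZi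
  have hk₀ : Kills x₁ (X ^ r - 1 : F[X]) P₀ := by
    intro u _
    rw [map_sub, map_pow, aeval_X, map_one, hx₁r, sub_self, LinearMap.zero_apply]
  have hp₀ : (X ^ r - 1 : F[X]) ≠ 0 := by
    have h1 := X_pow_sub_C_ne_zero (R := F) hr.pos 1
    rwa [map_one] at h1
  obtain ⟨μ, hμ, hμk⟩ := exists_irr_kills x₁ P₀ hx₁inv hne hirr _ hp₀ hk₀
  have hdvd := dvd_iff_kills x₁ P₀ hne μ hμ hμk
  have hμ0 : μ ≠ 0 := hμ.ne_zero
  have hμdeg : μ.natDegree ≤ i := by
    have h1 : Kills x₁ (x₁.restrict hinv').charpoly P₀ := by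
      intro u hu
      have h2 := Cfsg.Agent.Lib.Helper4.SpHalf.aeval_restrict_apply x₁ P₀ hinv'
        (x₁.restrict hinv').charpoly ⟨u, hu⟩
      rw [LinearMap.aeval_self_charpoly, LinearMap.zero_apply] at h2
      exact h2.symm
    have h3 := natDegree_le_of_dvd ((hdvd _).2 h1) (LinearMap.charpoly_monic _).ne_zero
    rw [LinearMap.charpoly_natDegree, hP₀i] at h3
    exact h3
  have : Fact (Irreducible μ) := ⟨hμ⟩
  have : Module.Finite F (AdjoinRoot μ) := (AdjoinRoot.powerBasis hμ0).finite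
  have hfinK : finrank F (AdjoinRoot μ) = μ.natDegree := by
    rw [(AdjoinRoot.powerBasis hμ0).finrank]
    rfl
  have hA3 : ∀ (f : F[X]) (j : ℕ),
      aeval ((AdjoinRoot.root μ) ^ j) f = 0 ↔ Kills (x₁ ^ j) f P₀ := by
    intro f j
    have h1 : aeval ((AdjoinRoot.root μ) ^ j) f = AdjoinRoot.mk μ (f.comp (X ^ j)) := by
      rw [← AdjoinRoot.aeval_eq, aeval_comp, map_pow, aeval_X]
    have h2 : ∀ u, aeval x₁ (f.comp (X ^ j)) u = aeval (x₁ ^ j) f u := by
      intro u
      rw [aeval_comp, map_pow, aeval_X]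
    rw [h1, AdjoinRoot.mk_eq_zero, hdvd]
    constructor
    · intro h u hu
      rw [← h2]
      exact h u hu
    · intro h u hu
      rw [h2]
      exact h u hu
  have hpowmem : ∀ (a : ℕ), ∀ u ∈ P₀, (x₁ ^ a) u ∈ P₀ := by
    intro a
    induction a with
    | zero => intro u hu; simpa using hu
    | succ a ih =>
      intro u hu
      rw [pow_succ, Module.End.mul_apply]
      exact ih _ (hinv' u hu)
  have hfpf : ∀ e : ℕ, 0 < e → e < r → ∀ u ∈ P₀, (x₁ ^ e) u = u → u = 0 := by
    intro e he0 her u hu hfix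
    have hcop : Nat.Coprime e r :=
      Nat.Coprime.symm ((Nat.Prime.coprime_iff_not_dvd hr).2 (Nat.not_dvd_of_pos_of_lt he0 her))
    obtain ⟨m, -, hm⟩ := Nat.exists_mul_mod_eq_one_of_coprime hcop hr.one_lt
    have h1 : ∀ k : ℕ, ((x₁ ^ e) ^ k) u = u := by
      intro k
      induction k with
      | zero => simp
      | succ k ih => rw [pow_succ, Module.End.mul_apply, hfix, ih]
    have h2 : (x₁ ^ e) ^ m = x₁ := by
      rw [← pow_mul]
      conv_lhs => rw [← Nat.div_add_mod (e * m) r, hm, pow_add, pow_mul, hx₁r, one_pow, one_mul,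
        pow_one]
    have h3 := h1 m
    rw [h2] at h3
    exact hx₁fix u hu h3
  have hinjρ : ∀ j j' : ℕ, j < j' → j' < r →
      (AdjoinRoot.root μ) ^ j ≠ (AdjoinRoot.root μ) ^ j' := by
    intro j j' hjj' hj'r heq
    have h1 : AdjoinRoot.mk μ (X ^ j - X ^ j') = 0 := by
      rw [map_sub, map_pow, map_pow, AdjoinRoot.mk_X, heq, sub_self]
    rw [AdjoinRoot.mk_eq_zero, hdvd] at h1
    apply hne
    rw [eq_bot_iff]
    intro v hv
    rw [Submodule.mem_bot]
    apply hfpf (j' - j) (by omega) (by omega) v hv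
    have h2 := h1 ((x₁ ^ (r - j)) v) (hpowmem _ v hv)
    rw [map_sub, map_pow, map_pow, aeval_X, LinearMap.sub_apply, sub_eq_zero,
      ← Module.End.mul_apply, ← Module.End.mul_apply, ← pow_add, ← pow_add] at h2
    have e1 : j + (r - j) = r := by omega
    have e2 : j' + (r - j) = (j' - j) + r := by omega
    rw [e1, e2, pow_add, hx₁r, mul_one, Module.End.one_apply] at h2
    exact h2.symm
  have hint : ∀ j : ℕ, IsIntegral F ((AdjoinRoot.root μ) ^ j) :=
    fun j => (AdjoinRoot.isIntegral_root hμ0).pow j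
  have hφirr : ∀ j : ℕ, Irreducible (minpoly F ((AdjoinRoot.root μ) ^ j)) :=
    fun j => minpoly.irreducible (hint j)
  have hφmon : ∀ j : ℕ, (minpoly F ((AdjoinRoot.root μ) ^ j)).Monic :=
    fun j => minpoly.monic (hint j)
  have hφk : ∀ j : ℕ, Kills (x₁ ^ j) (minpoly F ((AdjoinRoot.root μ) ^ j)) P₀ :=
    fun j => (hA3 _ j).1 (minpoly.aeval F _)
  have hφdeg : ∀ j : ℕ, (minpoly F ((AdjoinRoot.root μ) ^ j)).natDegree ≤ i := by
    intro j
    have h1 := minpoly.natDegree_le (A := F) ((AdjoinRoot.root μ) ^ j)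
    rw [hfinK] at h1
    exact le_trans h1 hμdeg
  have hScard : (Finset.Icc 1 (r - 1)).card = r - 1 := by
    rw [Nat.card_Icc]
    omega
  have hfib : ∀ g ∈ (Finset.Icc 1 (r - 1)).image
      (fun j : ℕ => minpoly F ((AdjoinRoot.root μ) ^ j)),
      ((Finset.Icc 1 (r - 1)).filter
        (fun j : ℕ => minpoly F ((AdjoinRoot.root μ) ^ j) = g)).card ≤ i := by
    intro g hg
    obtain ⟨j₀, hj₀, rfl⟩ := Finset.mem_image.1 hg
    have h1 : ((Finset.Icc 1 (r - 1)).filter (fun j : ℕ => minpoly F ((AdjoinRoot.root μ) ^ j) =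
        minpoly F ((AdjoinRoot.root μ) ^ j₀))).card ≤
        (((minpoly F ((AdjoinRoot.root μ) ^ j₀)).map
          (algebraMap F (AdjoinRoot μ))).roots.toFinset).card := by
      apply Finset.card_le_card_of_injOn (fun j : ℕ => (AdjoinRoot.root μ) ^ j)
      · intro j hj
        rw [Finset.mem_coe, Finset.mem_filter] at hj
        rw [Finset.mem_coe, Multiset.mem_toFinset, mem_roots ((hφmon j₀).map _).ne_zero,
          IsRoot.def, eval_map, ← aeval_def, ← hj.2]
        exact minpoly.aeval F _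
      · intro j hj j' hj' heq
        rw [Finset.mem_coe, Finset.mem_filter, Finset.mem_Icc] at hj hj'
        by_contra hne'
        rcases Nat.lt_or_gt_of_ne hne' with h | h
        · exact hinjρ j j' h (by omega) heq
        · exact hinjρ j' j h (by omega) heq.symm
    have h2 : (((minpoly F ((AdjoinRoot.root μ) ^ j₀)).map
        (algebraMap F (AdjoinRoot μ))).roots.toFinset).card ≤
        (minpoly F ((AdjoinRoot.root μ) ^ j₀)).natDegree := by
      calc _ ≤ Multiset.card ((minpoly F ((AdjoinRoot.root μ) ^ j₀)).map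
            (algebraMap F (AdjoinRoot μ))).roots := Multiset.toFinset_card_le _
        _ ≤ ((minpoly F ((AdjoinRoot.root μ) ^ j₀)).map
            (algebraMap F (AdjoinRoot μ))).natDegree := card_roots' _
        _ = (minpoly F ((AdjoinRoot.root μ) ^ j₀)).natDegree := natDegree_map _
    exact le_trans h1 (le_trans h2 (hφdeg j₀))
  have hcard : (r - 1) / i ≤ ((Finset.Icc 1 (r - 1)).image
      (fun j : ℕ => minpoly F ((AdjoinRoot.root μ) ^ j))).card := by
    have h1 := Finset.card_le_mul_card_image (Finset.Icc 1 (r - 1)) i hfib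
    rw [hScard] at h1
    exact Nat.div_le_of_le_mul h1
  have hιinj : Function.Injective (fun a : Fin ((r - 1) / i) =>
      ((((Finset.Icc 1 (r - 1)).image
        (fun j : ℕ => minpoly F ((AdjoinRoot.root μ) ^ j))).equivFin.symm
          (Fin.castLE hcard a)) : F[X])) := by
    intro a b hab
    have h1 := Subtype.ext hab
    have h2 := (Equiv.injective _) h1
    exact Fin.castLE_injective hcard h2
  have hιmem : ∀ a : Fin ((r - 1) / i), ∃ j : ℕ, j ∈ Finset.Icc 1 (r - 1) ∧
      minpoly F ((AdjoinRoot.root μ) ^ j) = ((((Finset.Icc 1 (r - 1)).image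
        (fun j : ℕ => minpoly F ((AdjoinRoot.root μ) ^ j))).equivFin.symm
          (Fin.castLE hcard a)) : F[X]) := by
    intro a
    have h1 := ((((Finset.Icc 1 (r - 1)).image
        (fun j : ℕ => minpoly F ((AdjoinRoot.root μ) ^ j))).equivFin.symm
          (Fin.castLE hcard a))).2
    obtain ⟨j, hj, hj'⟩ := Finset.mem_image.1 h1
    exact ⟨j, hj, hj'⟩
  choose e he using hιmem
  refine ⟨e, fun a => minpoly F ((AdjoinRoot.root μ) ^ (e a)), fun a => ?_, fun a b hab => ?_⟩
  · obtain ⟨h1, -⟩ := he a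
    rw [Finset.mem_Icc] at h1
    have hr2 := hr.two_le
    exact ⟨by omega, by omega, hφirr _, hφk _, hfpf (e a) (by omega) (by omega)⟩
  · have hne' : minpoly F ((AdjoinRoot.root μ) ^ (e a)) ≠
        minpoly F ((AdjoinRoot.root μ) ^ (e b)) := by
      intro h
      apply hab
      apply hιinj
      show ((((Finset.Icc 1 (r - 1)).image
        (fun j : ℕ => minpoly F ((AdjoinRoot.root μ) ^ j))).equivFin.symm
          (Fin.castLE hcard a)) : F[X]) = ((((Finset.Icc 1 (r - 1)).image
        (fun j : ℕ => minpoly F ((AdjoinRoot.root μ) ^ j))).equivFin.symm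
          (Fin.castLE hcard b)) : F[X])
      rw [← (he a).2, ← (he b).2]
      exact h
    apply ((hφirr _).coprime_iff_not_dvd).2
    intro hd
    apply hne'
    exact eq_of_monic_of_associated (hφmon _) (hφmon _)
      ((hφirr _).associated_of_dvd (hφirr _) hd)

end Cfsg.Agent.Lib.Helper77.SpTypes
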