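import Mathlib
import Cfsg.Agent.Lib.Helper52.LPDefs
import Cfsg.Agent.Lib.Helper52.OutMain

/-!
# LP project (helper52, S2737), piece LM-R: a semisimilarity conjugates reflections to reflections
-/

set_option autoImplicit false
set_option linter.unusedSectionVars false
set_option linter.unusedVariables false

namespace Cfsg.Agent.Lib.Helper77.LMR

open Module QuadraticMap Matrix
open Cfsg Cfsg.Agent.Lib.Helper51 Cfsg.Agent.Lib.Helper52 Cfsg.Agent.Lib.Helper54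
open Cfsg.Agent.Lib.Helper52.OU Cfsg.Agent.Lib.Helper52.OUMain Cfsg.Agent.Lib.Helper52.LP

universe u

variable {ι : Type} [Fintype ι] [DecidableEq ι] {F : Type u} [Field F]

local notation "mt(" g ")" => ((g : Matrix.GeneralLinearGroup ι F) : Matrix ι ι F)

/-- `(A.map τ) (τ ∘ v) = τ ∘ (A v)` -/
theorem map_mulVec_sig (τ : F ≃+* F) (A : Matrix ι ι F) (v : ι → F) :
    (A.map τ) *ᵥ (fun i => τ (v i)) = fun i => τ ((A *ᵥ v) i) := by
  funext i
  simp [Matrix.mulVec, dotProduct, map_sum, map_mul]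

theorem refl_conj (Q Q' : QuadraticForm F (ι → F)) (M : GL ι F) (τ : F ≃+* F) (c : Fˣ)
    (hM : ∀ v : ι → F, Q (mt(M) *ᵥ (fun i => τ (v i))) = (c : F) * τ (Q' v))
    (w : ι → F) (hw : Q' w ≠ 0) :
    Q (mt(M) *ᵥ (fun i => τ (w i))) ≠ 0 ∧
    mt(M) * (reflectionMatrix ⇑Q' w).map τ * mt(M⁻¹)
      = reflectionMatrix ⇑Q (mt(M) *ᵥ (fun i => τ (w i))) := by
  -- the semilinear map `T`
  have hTadd : ∀ u v : ι → F, mt(M) *ᵥ (fun i => τ ((u + v) i))
      = mt(M) *ᵥ (fun i => τ (u i)) + mt(M) *ᵥ (fun i => τ (v i)) := by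
    intro u v
    rw [← Matrix.mulVec_add]
    congr 1
    funext i
    simp
  have hTsub : ∀ u v : ι → F, mt(M) *ᵥ (fun i => τ ((u - v) i))
      = mt(M) *ᵥ (fun i => τ (u i)) - mt(M) *ᵥ (fun i => τ (v i)) := by
    intro u v
    rw [← Matrix.mulVec_sub]
    congr 1
    funext i
    simp
  have hTsmul : ∀ (a : F) (v : ι → F), mt(M) *ᵥ (fun i => τ ((a • v) i))
      = τ a • (mt(M) *ᵥ (fun i => τ (v i))) := by
    intro a v
    rw [← Matrix.mulVec_smul]
    congr 1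
    funext i
    simp
  have hpol : ∀ u v : ι → F,
      polar ⇑Q (mt(M) *ᵥ (fun i => τ (u i))) (mt(M) *ᵥ (fun i => τ (v i)))
        = (c : F) * τ (polar ⇑Q' u v) := by
    intro u v
    unfold QuadraticMap.polar
    rw [← hTadd, hM, hM, hM, map_sub, map_sub]
    ring
  have hQw : Q (mt(M) *ᵥ (fun i => τ (w i))) ≠ 0 := by
    rw [hM]
    exact mul_ne_zero c.ne_zero ((map_ne_zero τ).mpr hw)
  refine ⟨hQw, ?_⟩
  apply matrix_ext_mulVec
  intro x
  -- `x = T u`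
  set u : ι → F := fun i => τ.symm ((mt(M⁻¹) *ᵥ x) i) with hu_def
  have hu1 : (fun i => τ (u i)) = mt(M⁻¹) *ᵥ x := by
    funext i
    simp [hu_def]
  have hxu : mt(M) *ᵥ (fun i => τ (u i)) = x := by
    rw [hu1, Matrix.mulVec_mulVec, Units.mul_inv, Matrix.one_mulVec]
  have hL : (mt(M) * (reflectionMatrix ⇑Q' w).map τ * mt(M⁻¹)) *ᵥ x
      = mt(M) *ᵥ (fun i => τ (((reflectionMatrix ⇑Q' w) *ᵥ u) i)) := by
    rw [← Matrix.mulVec_mulVec, ← Matrix.mulVec_mulVec, ← hu1, map_mulVec_sig]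
  rw [hL, reflectionMatrix_mulVec, reflectionMatrix_mulVec, hTsub, hTsmul, hxu]
  congr 1
  congr 1
  have h1 : polar ⇑Q (mt(M) *ᵥ (fun i => τ (w i))) x = (c : F) * τ (polar ⇑Q' w u) := by
    rw [← hxu, hpol]
  rw [h1, hM, map_mul, map_inv₀]
  have hc : (c : F) ≠ 0 := c.ne_zero
  have hτw : τ (Q' w) ≠ 0 := (map_ne_zero τ).mpr hw
  field_simp

end Cfsg.Agent.Lib.Helper77.LMR
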