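import Mathlib
import Cfsg.Agent.Lib.Helper86.MFCENTE
import Cfsg.Agent.Lib.Helper44.OrthForms

/-!
S2715 project PF (helper52), piece CENTE (helper77), characteristic two: the centralizer of the
standard field automorphism in the inner automorphism group of `PΩ⁺(F)` is isomorphic to the
inner automorphism group of `PΩ⁺(F₀)`, `F₀` the fixed field.  Instance of
`Helper86.MFCENTE.h86_cent_generic`.
-/

set_option autoImplicit false
set_option linter.unusedSectionVars false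
set_option linter.unusedVariables false

namespace Cfsg.Agent.Lib.Helper52.PF

open Module QuadraticMap Matrix
open Cfsg Cfsg.Agent.Lib.Helper51 Cfsg.Agent.Lib.Helper51.GammaO Cfsg.Agent.Lib.Helper52
  Cfsg.Agent.Lib.Helper52.OA Cfsg.Agent.Lib.Helper51.OutSpin Cfsg.Agent.Lib.Helper53.OddF
  Cfsg.Agent.Lib.Helper53.MinusF Cfsg.Agent.Lib.Helper54

universe u v

theorem pfcente_QPlus_map {F₀ : Type*} [Field F₀] {F : Type*} [Field F] (e : F₀ →+* F) (m : ℕ)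
    (v : Fin m ⊕ Fin m → F₀) :
    QPlus m F (fun i => e (v i)) = e (QPlus m F₀ v) := by
  rw [QPlus_apply, QPlus_apply]
  simp only [map_sum, map_mul]

theorem pfcente_inr_mem_plus {F : Type*} [Field F] [Fintype F] (m : ℕ) (σ : RingAut F) :
    (SemidirectProduct.inr σ : SGL (Fin m ⊕ Fin m) F) ∈ GO ⇑(QPlus m F) := by
  refine ⟨1, fun v => ?_⟩
  rw [coe_QPlus]
  simp [quadFormPlus]

theorem pfcente_aux {F₀ : Type v} [Field F₀] [Fintype F₀] {F : Type u} [Field F]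
    [Fintype F] (h2 : (2 : F) = 0) {m : ℕ} (hm : 4 ≤ m) (e : F₀ →+* F)
    (σ : F ≃+* F) (he : ∀ x : F, σ x = x ↔ x ∈ Set.range e)
    (Q' : (Fin m ⊕ Fin m → F) → F) (hQ' : ⇑(QPlus m F) = Q')
    (Q₀' : (Fin m ⊕ Fin m → F₀) → F₀) (hQ₀' : ⇑(QPlus m F₀) = Q₀')
    (φ : MulAut (Cfsg.POmega F Q')) (hφ : Cfsg.IsFieldAutPOmegaOf Q' σ φ) :
    Nonempty (↥(Cfsg.Inn (Cfsg.POmega F Q') ⊓ Subgroup.centralizer {φ}) ≃*
      ↥(Cfsg.Inn (Cfsg.POmega F₀ Q₀'))) := by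
  subst hQ' hQ₀'
  have hm0 : 0 < m := by omega
  have hn : 7 ≤ Fintype.card (Fin m ⊕ Fin m) := by
    rw [Fintype.card_sum, Fintype.card_fin]
    omega
  have hne : Nonempty (Fin m ⊕ Fin m) := ⟨Sum.inl ⟨0, hm0⟩⟩
  have hv₀ : QPlus m F₀ (Sum.elim (Pi.single ⟨0, hm0⟩ 1) (Pi.single ⟨0, hm0⟩ 1)) ≠ 0 := by
    rw [QPlus_apply]
    simp [Pi.single_apply]
  exact Cfsg.Agent.Lib.Helper86.MFCENTE.h86_cent_generic h2 e (QPlus m F₀) (QPlus m F)
    (pfcente_QPlus_map e m) (Cfsg.Agent.Lib.Helper44.nondeg_QPlus m F₀)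
    (Cfsg.Agent.Lib.Helper44.nondeg_QPlus m F) hn _ hv₀ σ he
    (pfcente_inr_mem_plus m σ) φ hφ

-- PIECE CENTE (instance of `Helper86.MFCENTE.h86_cent_generic`)
theorem cent_even_plus {F₀ : Type v} [Field F₀] [Fintype F₀] {F : Type u} [Field F] [Fintype F]
    (h2 : (2 : F) = 0) {m : ℕ} (hm : 4 ≤ m) (e : F₀ →+* F)
    (σ : F ≃+* F) (he : ∀ x : F, σ x = x ↔ x ∈ Set.range e)
    (φ : MulAut (Cfsg.POmega F (Cfsg.quadFormPlus m F)))
    (hφ : Cfsg.IsFieldAutPOmegaOf (Cfsg.quadFormPlus m F) σ φ) :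
    Nonempty (↥(Cfsg.Inn (Cfsg.POmega F (Cfsg.quadFormPlus m F)) ⊓ Subgroup.centralizer {φ}) ≃*
      ↥(Cfsg.Inn (Cfsg.POmega F₀ (Cfsg.quadFormPlus m F₀)))) :=
  pfcente_aux h2 hm e σ he _ (coe_QPlus m F) _ (coe_QPlus m F₀) φ hφ

end Cfsg.Agent.Lib.Helper52.PF
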