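import Mathlib
import Cfsg.Prelude.Def_GeometricClasses
import Cfsg.Agent.Lib.Helper71.OK1
import Cfsg.Agent.Lib.Helper52.Siegel
import Cfsg.Agent.Lib.Helper57.OKGEOM2

/-!
# S5701 piece H5 (poster helper71): all Eichler matrices at a singular vector `v` lie in `M`
-/

set_option autoImplicit false
set_option linter.unusedVariables false

namespace Cfsg.Agent.Lib.Helper77.OKH5

open Matrix Cfsg.Agent.Lib.Helper71.SpK Cfsg.Agent.Lib.Helper71.OK Cfsg.Agent.Lib.Helper57.OKGEOM2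

/-- `EM`-calculus: Eichler matrices at a singular `v` multiply. -/
theorem EM_add {ι : Type} [Fintype ι] [DecidableEq ι] {F : Type*} [Field F]
    {Q : QuadraticForm F (ι → F)} (M : Subgroup (GL ι F)) {v w₁ w₂ : ι → F}
    (hQv : Q v = 0) (h1 : QuadraticMap.polar ⇑Q v w₁ = 0) (h2 : QuadraticMap.polar ⇑Q v w₂ = 0)
    (e1 : EM Q M v w₁) (e2 : EM Q M v w₂) : EM Q M v (w₁ + w₂) := by
  obtain ⟨γ₁, hγ₁, e1⟩ := e1
  obtain ⟨γ₂, hγ₂, e2⟩ := e2
  refine ⟨γ₁ * γ₂, M.mul_mem hγ₁ hγ₂, ?_⟩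
  rw [Units.val_mul, e1, e2, Cfsg.Agent.Lib.Helper52.eichMat_mul Q v w₁ w₂ hQv h1 h2]

/-- There is a nonzero element in the kernel of `β`. -/
theorem exists_ker_ne_zero {F : Type*} [Field F] {L : Type*} [Field L] [Algebra F L]
    [FiniteDimensional F L] (hr : (Module.finrank F L).Prime) (β : L →ₗ[F] F) :
    ∃ c : L, c ≠ 0 ∧ β c = 0 := by
  by_contra hcon
  push Not at hcon
  have hinj : Function.Injective β := by
    rw [← LinearMap.ker_eq_bot, Submodule.eq_bot_iff]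
    intro c hc
    by_contra hc0
    exact hcon c hc0 (LinearMap.mem_ker.mp hc)
  have h1 := LinearMap.finrank_le_finrank_of_injective hinj
  rw [Module.finrank_self] at h1
  have := hr.two_le
  omega

theorem EM_full {ι : Type} [Fintype ι] [DecidableEq ι] {F : Type*} [Field F] [Finite F]
    {Q : QuadraticForm F (ι → F)} {L : Type*} [Field L] [Algebra F L] [FiniteDimensional F L]
    (S : KO (QuadraticMap.polar ⇑Q) L) (h2 : (2 : F) ≠ 0)
    (hQ : (QuadraticMap.polarBilin Q).Nondegenerate)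
    (hr : (Module.finrank F L).Prime) (hd : 4 * Module.finrank F L ≤ Fintype.card ι) (M : Subgroup (GL ι F)) (hNM : S.NO Q ≤ M) (hMΩ : M ≤ Cfsg.Geo.omegaGL ⇑Q) (hZ : ∀ v : ι → F, v ≠ 0 → S.B v v = 0 → S.ZW M v) (hHP : S.HP M)
    {v : ι → F} (hv : v ≠ 0) (hvv : S.B v v = 0) :
    ∀ w, QuadraticMap.polar ⇑Q v w = 0 → EM Q M v w := by
  intro w hw
  have hQv : Q v = 0 := S.Q_eq_zero h2 hvv
  have h2L : (2 : L) ≠ 0 := by
    intro h
    apply h2
    apply (algebraMap F L).injective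
    rw [map_ofNat, map_zero]
    exact h
  obtain ⟨v₂, hv₂, hvv₂⟩ := exists_hyp S h2 hQ hr hd hv hvv
  have hv₂v : S.B v₂ v = 1 := by rw [S.B_symm, hvv₂]
  -- polar in terms of `β ∘ B`
  have hpol : ∀ x u : ι → F, QuadraticMap.polar ⇑Q x u = S.β (S.B x u) := fun x u => S.f_eq x u
  -- ZW at `v`
  have hZv : ∀ a : L, EM Q M v (S.φ a *ᵥ v) := by
    intro a
    have h := hZ v hv hvv 1 a
    rwa [S.φ_one_mulVec] at h
  have hpolZ : ∀ a : L, QuadraticMap.polar ⇑Q v (S.φ a *ᵥ v) = 0 := by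
    intro a
    rw [hpol, S.B_act_right, hvv, mul_zero, map_zero]
  -- the CLAIM
  have claim : ∀ (γ' : L), γ' ≠ 0 → S.β γ' = 0 → ∀ t' : ι → F, S.B t' v = 0 → S.B t' v₂ = 0 →
      EM Q M v (S.φ γ' *ᵥ v₂ + t') := by
    intro γ' hγ' hβγ' t' ht'v ht'v₂
    set c : L := 2⁻¹ * γ'⁻¹ * γ'⁻¹ * S.B t' t' with hc_def
    set v₂' : ι → F := v₂ + S.φ γ'⁻¹ *ᵥ t' - S.φ c *ᵥ v with hv₂'_def
    have hvt' : S.B v t' = 0 := by rw [S.B_symm, ht'v]
    have hv₂t' : S.B v₂ t' = 0 := by rw [S.B_symm, ht'v₂]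
    have hB1 : S.B v v₂' = 1 := by
      rw [hv₂'_def, S.B_sub_right, S.B_add_right, S.B_act_right, S.B_act_right, hvv₂, hvt', hvv]
      ring
    have hB2 : S.B v₂' v₂' = 0 := by
      have e1 : S.B v₂' v₂ = - c := by
        rw [hv₂'_def, S.B_sub_left, S.B_add, S.B_act, S.B_act, hv₂, ht'v₂, hvv₂]
        ring
      have e2 : S.B v₂' t' = γ'⁻¹ * S.B t' t' := by
        rw [hv₂'_def, S.B_sub_left, S.B_add, S.B_act, S.B_act, hv₂t', hvt']
        ring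
      have e3 : S.B v₂' v = 1 := by rw [S.B_symm, hB1]
      have e4 : S.B v₂' v₂' = S.B v₂' v₂ + γ'⁻¹ * S.B v₂' t' - c * S.B v₂' v := by
        conv_lhs => rw [hv₂'_def]
        rw [S.B_symm, S.B_sub_left, S.B_add, S.B_act, S.B_act, S.B_symm v₂ v₂', S.B_symm t' v₂',
          S.B_symm v v₂']
      rw [e4, e1, e2, e3, hc_def]
      field_simp
      ring
    have hHP1 : EM Q M v (S.φ γ' *ᵥ v₂') := hHP v v₂' hvv hB2 hB1 γ' hβγ'
    have hZ1 : EM Q M v (S.φ (γ' * c) *ᵥ v) := hZv (γ' * c)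
    have hp1 : QuadraticMap.polar ⇑Q v (S.φ γ' *ᵥ v₂') = 0 := by
      rw [hpol, S.B_act_right, hB1, mul_one, hβγ']
    have hsum := EM_add M hQv hp1 (hpolZ (γ' * c)) hHP1 hZ1
    have hvec : S.φ γ' *ᵥ v₂' + S.φ (γ' * c) *ᵥ v = S.φ γ' *ᵥ v₂ + t' := by
      have e : S.φ (γ' * c) *ᵥ v = S.φ γ' *ᵥ (S.φ c *ᵥ v) := S.φ_mul_mulVec γ' c v
      rw [hv₂'_def, Matrix.mulVec_sub, Matrix.mulVec_add, S.φ_cancel_inv hγ', e]
      abel
    rwa [hvec] at hsum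
  -- decomposition of `w`
  set α : L := S.B w v₂ with hα_def
  set γ : L := S.B w v with hγ_def
  set t : ι → F := w - S.φ α *ᵥ v - S.φ γ *ᵥ v₂ with ht_def
  have htv : S.B t v = 0 := by
    rw [ht_def, S.B_sub_left, S.B_sub_left, S.B_act, S.B_act, hvv, hv₂v]
    ring
  have htv₂ : S.B t v₂ = 0 := by
    rw [ht_def, S.B_sub_left, S.B_sub_left, S.B_act, S.B_act, hvv₂, hv₂]
    ring
  have hβγ : S.β γ = 0 := by
    rw [hγ_def, ← hpol, QuadraticMap.polar_comm]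
    exact hw
  have hwdec : w = S.φ α *ᵥ v + (S.φ γ *ᵥ v₂ + t) := by
    rw [ht_def]
    abel
  -- step (3)
  have h3 : EM Q M v (S.φ γ *ᵥ v₂ + t) := by
    by_cases hγ0 : γ = 0
    · obtain ⟨c, hc0, hβc⟩ := exists_ker_ne_zero hr S.β
      have e1 := claim c hc0 hβc t htv htv₂
      have e2 : EM Q M v (S.φ (-c) *ᵥ v₂) := hHP v v₂ hvv hv₂ hvv₂ (-c) (by rw [map_neg, hβc, neg_zero])
      have hp1 : QuadraticMap.polar ⇑Q v (S.φ c *ᵥ v₂ + t) = 0 := by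
        rw [hpol, S.B_add_right, S.B_act_right, hvv₂, S.B_symm v t, htv, mul_one, add_zero, hβc]
      have hp2 : QuadraticMap.polar ⇑Q v (S.φ (-c) *ᵥ v₂) = 0 := by
        rw [hpol, S.B_act_right, hvv₂, mul_one, map_neg, hβc, neg_zero]
      have hsum := EM_add M hQv hp1 hp2 e1 e2
      have hvec : S.φ c *ᵥ v₂ + t + S.φ (-c) *ᵥ v₂ = S.φ γ *ᵥ v₂ + t := by
        rw [hγ0, S.φ_zero_mulVec, S.φ_neg_mulVec]
        abel
      rwa [hvec] at hsum
    · exact claim γ hγ0 hβγ t htv htv₂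
  -- step (4)
  have hp3 : QuadraticMap.polar ⇑Q v (S.φ γ *ᵥ v₂ + t) = 0 := by
    rw [hpol, S.B_add_right, S.B_act_right, hvv₂, S.B_symm v t, htv, mul_one, add_zero, hβγ]
  have hfin := EM_add M hQv (hpolZ α) hp3 (hZv α) h3
  rwa [← hwdec] at hfin

end Cfsg.Agent.Lib.Helper77.OKH5
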