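import Mathlib
import Cfsg.Agent.Lib.Helper22.BFDefs

/-!
# Piece RK1B of S4503 (helper22): `Loc` implies `Rk1`
-/

set_option autoImplicit false

namespace Cfsg.Agent.Lib.Helper77.BFT

open Cfsg Cfsg.Agent.Lib.Helper22.BFD
open scoped ComplexConjugate

universe u

section

variable {G : Type u} [Group G] [Fintype G]

open scoped Classical in
/-- PIECE RK1B -/
theorem rk1_of_loc (p : ℕ) [Fact p.Prime] (ζ : ℂ) (z : G) (hz : orderOf z = p)
    (hnsum : ∀ κ : G → ZMod p,
      (∀ n ∈ Subgroup.normalizer ((Subgroup.zpowers z : Subgroup G) : Set G),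
        n⁻¹ * z * n = z ^ (κ n).val) → ∀ F : ZMod p → ℂ,
      ∑ n : G, (if n ∈ Subgroup.normalizer ((Subgroup.zpowers z : Subgroup G) : Set G)
        then F (κ n) else 0) =
        (Nat.card (Subgroup.centralizer ({z} : Set G)) : ℂ) * ∑ k ∈ Ef p z, F k)
    (χ : G → ℂ) (hloc : Loc p ζ z χ) : Rk1 p z χ := by
  have hp : p.Prime := Fact.out
  obtain ⟨T, θ, D, κ, v, d, e, hCT, hTN, hκ, hD, hv, hd, hθ1, he, hφ, hθalt, hθN, hDalt⟩ := hloc
  set N := Subgroup.normalizer ((Subgroup.zpowers z : Subgroup G) : Set G) with hN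
  have hz1 : z ≠ 1 := by
    intro h
    rw [h, orderOf_one] at hz
    exact hp.one_lt.ne hz
  -- `κ n ≠ 0`
  have hκ0 : ∀ n ∈ N, κ n ≠ 0 := by
    intro n hn h0
    have h := hκ n hn
    rw [h0, ZMod.val_zero, pow_zero] at h
    apply hz1
    have : z = n * (n⁻¹ * z * n) * n⁻¹ := by group
    rw [this, h]; group
  -- `κ` is multiplicative
  have hκmul : ∀ n ∈ N, ∀ n' ∈ N, κ (n' * n) = κ n * κ n' := by
    intro n hn n' hn'
    have h1 := hκ (n' * n) (N.mul_mem hn' hn)
    have h2 : (n' * n)⁻¹ * z * (n' * n) = z ^ ((κ n).val * (κ n').val) := by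
      calc (n' * n)⁻¹ * z * (n' * n) = n⁻¹ * (n'⁻¹ * z * n') * n := by group
        _ = n⁻¹ * z ^ (κ n').val * n := by rw [hκ n' hn']
        _ = (n⁻¹ * z * n) ^ (κ n').val := by
            have := conj_pow (a := n⁻¹) (b := z) (i := (κ n').val)
            rw [inv_inv] at this
            exact this.symm
        _ = (z ^ (κ n).val) ^ (κ n').val := by rw [hκ n hn]
        _ = z ^ ((κ n).val * (κ n').val) := by rw [← pow_mul]
    rw [h1] at h2
    have h3 := pow_eq_pow_iff_modEq.mp h2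
    rw [hz] at h3
    have h4 := (ZMod.natCast_eq_natCast_iff _ _ p).mpr h3
    rw [Nat.cast_mul, ZMod.natCast_zmod_val, ZMod.natCast_zmod_val, ZMod.natCast_zmod_val] at h4
    exact h4
  have hcT : (Nat.card T : ℂ) ≠ 0 := by
    have : 0 < Nat.card T := Nat.card_pos
    exact_mod_cast this.ne'
  have hcC : (Nat.card (Subgroup.centralizer ({z} : Set G)) : ℂ) ≠ 0 := by
    have : 0 < Nat.card (Subgroup.centralizer ({z} : Set G)) := Nat.card_pos
    exact_mod_cast this.ne'
  -- reindexing the sum of `D`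
  have hD' : ∀ t : ZMod p, ∀ n ∈ N,
      ∑ n' : G, (if n' ∈ N then D (κ n * (κ n' * t)) else 0)
        = ∑ m : G, (if m ∈ N then D (κ m * t) else 0) := by
    intro t n hn
    rw [← Equiv.sum_comp (Equiv.mulRight n) (fun m => if m ∈ N then D (κ m * t) else 0)]
    refine Finset.sum_congr rfl (fun n' _ => ?_)
    show (if n' ∈ N then D (κ n * (κ n' * t)) else 0)
      = if n' * n ∈ N then D (κ (n' * n) * t) else 0
    by_cases hn' : n' ∈ N
    · rw [if_pos hn', if_pos (N.mul_mem hn' hn), hκmul n hn n' hn', mul_assoc]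
    · rw [if_neg hn', if_neg (fun h => hn' ((N.mul_mem_cancel_right hn).mp h))]
  refine ⟨fun t => (∑ m : G, (if m ∈ N then D (κ m * t) else 0)) /
      ((Nat.card T : ℂ) * (Nat.card (Subgroup.centralizer ({z} : Set G)) : ℂ)),
    fun y => ∑ n : G, (if n ∈ N then θ (n⁻¹ * y * n) else 0), ?_⟩
  intro t ht y hy
  have hA := hnsum κ hκ (fun k => χ (z ^ (k * t).val * y))
  have hB : ∀ n' ∈ N, (Nat.card T : ℂ) * χ (z ^ (κ n' * t).val * y)
      = ∑ n : G, (if n ∈ N then D (κ n * (κ n' * t)) * θ (n⁻¹ * y * n) else 0) :=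
    fun n' hn' => hφ (κ n' * t) (mul_ne_zero (hκ0 n' hn') ht) y hy
  have hC : (Nat.card T : ℂ) * ∑ n' : G, (if n' ∈ N then χ (z ^ (κ n' * t).val * y) else 0)
      = (∑ m : G, (if m ∈ N then D (κ m * t) else 0)) *
        ∑ n : G, (if n ∈ N then θ (n⁻¹ * y * n) else 0) := by
    rw [Finset.mul_sum]
    have e1 : ∀ n' : G, (Nat.card T : ℂ) * (if n' ∈ N then χ (z ^ (κ n' * t).val * y) else 0)
        = ∑ n : G, (if n' ∈ N then
            (if n ∈ N then D (κ n * (κ n' * t)) * θ (n⁻¹ * y * n) else 0) else 0) := by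
      intro n'
      by_cases hn' : n' ∈ N
      · simp only [if_pos hn']
        exact hB n' hn'
      · simp only [if_neg hn', mul_zero, Finset.sum_const_zero]
    rw [Finset.sum_congr rfl (fun n' _ => e1 n'), Finset.sum_comm, Finset.mul_sum]
    refine Finset.sum_congr rfl (fun n _ => ?_)
    by_cases hn : n ∈ N
    · simp only [if_pos hn]
      rw [← hD' t n hn, Finset.sum_mul]
      refine Finset.sum_congr rfl (fun n' _ => ?_)
      by_cases hn' : n' ∈ N
      · simp only [if_pos hn']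
      · simp only [if_neg hn', zero_mul]
    · simp only [if_neg hn, mul_zero, ite_self, Finset.sum_const_zero]
  rw [hA] at hC
  show ∑ k ∈ Ef p z, χ (z ^ (k * t).val * y) = _ / _ * _
  rw [div_mul_eq_mul_div, eq_div_iff (mul_ne_zero hcT hcC), ← hC]
  ring

end

end Cfsg.Agent.Lib.Helper77.BFT
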