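import Mathlib
import Cfsg.Agent.Lib.Helper70.D11Defs

set_option autoImplicit false

/-! Piece NORM2 of S0679 (for helper70): the normaliser of `⟨c0⟩` when `u ∉ G`. -/

namespace Cfsg.Agent.Lib.Helper77.D11

open Equiv Cfsg.Agent.Lib.Helper70.D11

open Fin.CommRing

theorem c0_apply (x : Fin 11) : c0 x = x + 1 := rfl

theorem m3_apply (x : Fin 11) : m3 x = 3 * x := rfl

theorem u_apply (x : Fin 11) : u x = -x := rfl

theorem c0_pow_apply (n : ℕ) (x : Fin 11) : (c0 ^ n) x = x + (n : Fin 11) := by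
  induction n generalizing x with
  | zero => simp
  | succ n ih =>
    rw [pow_succ, Perm.mul_apply, ih, c0_apply, Nat.cast_succ]
    ring

theorem mul_pow_apply (μ : P11) (a : Fin 11) (h : ∀ x, μ x = a * x) (n : ℕ) (x : Fin 11) :
    (μ ^ n) x = a ^ n * x := by
  induction n generalizing x with
  | zero => simp
  | succ n ih =>
    rw [pow_succ, Perm.mul_apply, ih, h, pow_succ]
    ring

/-- elements of `zpowers c0` are translations -/
theorem zpowers_c0_apply (h : P11) (hh : h ∈ Subgroup.zpowers c0) (y : Fin 11) :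
    h y = y + h 0 := by
  have hle : Subgroup.zpowers c0 ≤
      ({ carrier := {h : P11 | ∀ y, h y = y + h 0}
         mul_mem' := by
          intro a b ha hb y
          change ∀ y, a y = y + a 0 at ha
          change ∀ y, b y = y + b 0 at hb
          rw [Perm.mul_apply, Perm.mul_apply, ha (b y), hb y, ha (b 0)]
          ring
         one_mem' := by
          intro y
          simp
         inv_mem' := by
          intro a ha y
          change ∀ y, a y = y + a 0 at ha
          have h1 : a⁻¹ 0 = -(a 0) := by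
            rw [Perm.inv_eq_iff_eq, ha (-(a 0))]
            ring
          rw [Perm.inv_eq_iff_eq, ha (y + a⁻¹ 0), h1]
          ring } : Subgroup P11) := by
    rw [Subgroup.zpowers_le]
    intro y
    rw [c0_apply, c0_apply]
    ring
  exact hle hh y

theorem key_sq : ∀ a : Fin 11, a ≠ 0 → (∃ j : Fin 5, (3 : Fin 11) ^ (j : ℕ) = a) ∨ a ^ 5 = -1 := by
  decide

theorem normalizer_le (G : Subgroup P11) (hc : c0 ∈ G) (hu : u ∉ G) :
    ∀ g ∈ G, g * c0 * g⁻¹ ∈ Subgroup.zpowers c0 → g ∈ Subgroup.closure ({c0, m3} : Set P11) := by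
  intro g hg hgz
  -- g (x + 1) = g x + a
  have hstep : ∀ x : Fin 11, g (x + 1) = g x + (g * c0 * g⁻¹) 0 := by
    intro x
    have h1 := zpowers_c0_apply _ hgz (g x)
    have h0 : g⁻¹ (g x) = x := Perm.inv_eq_iff_eq.2 rfl
    rw [Perm.mul_apply, Perm.mul_apply, h0, c0_apply] at h1
    exact h1
  have hlin : ∀ n : ℕ, g (n : Fin 11) = g 0 + (g * c0 * g⁻¹) 0 * (n : Fin 11) := by
    intro n
    induction n with
    | zero => simp
    | succ n ih =>
      rw [Nat.cast_succ, hstep, ih]
      ring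
  have hlin' : ∀ x : Fin 11, g x = g 0 + (g * c0 * g⁻¹) 0 * x := by
    intro x
    have h1 := hlin (x : ℕ)
    rw [Fin.cast_val_eq_self] at h1
    exact h1
  have ha0 : (g * c0 * g⁻¹) 0 ≠ 0 := by
    intro h0
    have h1 := hlin' 1
    rw [h0, zero_mul, add_zero] at h1
    have h2 := g.injective h1
    exact absurd h2 (by decide)
  rcases key_sq _ ha0 with ⟨j, hj⟩ | h5
  · have hgeq : g = c0 ^ ((g 0 : Fin 11) : ℕ) * m3 ^ (j : ℕ) := by
      apply Equiv.ext
      intro x
      rw [Perm.mul_apply, c0_pow_apply, mul_pow_apply m3 3 m3_apply, Fin.cast_val_eq_self, hj,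
        hlin' x]
      ring
    rw [hgeq]
    exact mul_mem (pow_mem (Subgroup.subset_closure (by simp)) _)
      (pow_mem (Subgroup.subset_closure (by simp)) _)
  · exfalso
    apply hu
    have hmu : ∀ x : Fin 11, ((c0 ^ ((g 0 : Fin 11) : ℕ))⁻¹ * g) x = (g * c0 * g⁻¹) 0 * x := by
      intro x
      rw [Perm.mul_apply, Perm.inv_eq_iff_eq, c0_pow_apply, Fin.cast_val_eq_self, hlin' x]
      ring
    have hmem : ((c0 ^ ((g 0 : Fin 11) : ℕ))⁻¹ * g) ^ 5 ∈ G :=
      pow_mem (mul_mem (inv_mem (pow_mem hc _)) hg) 5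
    have hueq : u = ((c0 ^ ((g 0 : Fin 11) : ℕ))⁻¹ * g) ^ 5 := by
      apply Equiv.ext
      intro x
      rw [mul_pow_apply _ _ hmu, h5, u_apply]
      ring
    rw [hueq]
    exact hmem

end Cfsg.Agent.Lib.Helper77.D11
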