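import Mathlib
import Cfsg.Agent.Lib.Helper92.FT12Defs

/-!
# S1421 (B&G Theorem 12.12), piece LINODD (project of helper92; proved by helper77)

If `e` normalizes the line `X` of `A` but not every line, then every element `n` of odd order
of `N(A)` commuting with `e` modulo `C(A)` normalizes `X`.
-/

set_option autoImplicit false

namespace Cfsg.Agent.Lib.Helper77.FT12

open Cfsg Cfsg.Agent.Lib.Helper92.FT

universe u

/-- the conjugate `g Y g⁻¹` of a subgroup -/
def lo_cj {G : Type u} [Group G] (g : G) (Y : Subgroup G) : Subgroup G :=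
  Y.map (MulAut.conj g).toMonoidHom

theorem lo_mem_cj {G : Type u} [Group G] (g : G) (Y : Subgroup G) (x : G) :
    x ∈ lo_cj g Y ↔ g⁻¹ * x * g ∈ Y := by
  unfold lo_cj
  rw [Subgroup.mem_map]
  constructor
  · rintro ⟨y, hy, rfl⟩
    simp only [MulEquiv.coe_toMonoidHom, MulAut.conj_apply]
    have : g⁻¹ * (g * y * g⁻¹) * g = y := by group
    rw [this]; exact hy
  · intro h
    refine ⟨_, h, ?_⟩
    simp only [MulEquiv.coe_toMonoidHom, MulAut.conj_apply]
    group

theorem lo_conj_mem_cj {G : Type u} [Group G] (g : G) (Y : Subgroup G) (y : G) (hy : y ∈ Y) :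
    g * y * g⁻¹ ∈ lo_cj g Y := by
  rw [lo_mem_cj]
  have : g⁻¹ * (g * y * g⁻¹) * g = y := by group
  rw [this]; exact hy

theorem lo_card_cj {G : Type u} [Group G] (g : G) (Y : Subgroup G) :
    Nat.card (lo_cj g Y) = Nat.card Y := by
  unfold lo_cj
  exact Subgroup.card_map_of_injective (MulAut.conj g).injective

theorem lo_cj_inj {G : Type u} [Group G] (g : G) (Y Z : Subgroup G)
    (h : lo_cj g Y = lo_cj g Z) : Y = Z :=
  Subgroup.map_injective (MulAut.conj g).injective h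

theorem lo_mem_normalizer {G : Type u} [Group G] [Finite G] (g : G) (Y : Subgroup G)
    (h : ∀ x ∈ Y, g * x * g⁻¹ ∈ Y) : g ∈ Subgroup.normalizer (Y : Set G) := by
  have hk : ∀ k : ℕ, ∀ x ∈ Y, g ^ k * x * (g ^ k)⁻¹ ∈ Y := by
    intro k
    induction k with
    | zero => intro x hx; simpa using hx
    | succ k ih =>
      intro x hx
      have h1 := h _ (ih x hx)
      have e : g * (g ^ k * x * (g ^ k)⁻¹) * g⁻¹ = g ^ (k + 1) * x * (g ^ (k + 1))⁻¹ := by
        rw [pow_succ']; group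
      rwa [e] at h1
  have hinv : ∀ x ∈ Y, g⁻¹ * x * g ∈ Y := by
    intro x hx
    have hpos : 0 < orderOf g := orderOf_pos g
    have h1 := hk (orderOf g - 1) x hx
    have e : g ^ (orderOf g - 1) = g⁻¹ := by
      rw [eq_inv_iff_mul_eq_one, ← pow_succ, Nat.sub_add_cancel hpos, pow_orderOf_eq_one]
    rwa [e, inv_inv] at h1
  rw [Subgroup.mem_normalizer_iff]
  intro x
  refine ⟨h x, fun hx => ?_⟩
  have h1 := hinv _ hx
  have e : g⁻¹ * (g * x * g⁻¹) * g = x := by group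
  rwa [e] at h1

/-- LINODD -/
theorem linOdd_of (h3 : Lin3Stmt.{u}) : LinOddStmt.{u} := by
  intro G _ _ p _ A hA hA2 e he n hn hodd hc X L hXA hX hLA hL heX heL
  by_contra hnX
  have hnA : ∀ a ∈ A, n * a * n⁻¹ ∈ A := fun a ha => (Subgroup.mem_normalizer_iff.1 hn a).1 ha
  have heA : ∀ a ∈ A, e * a * e⁻¹ ∈ A := fun a ha => (Subgroup.mem_normalizer_iff.1 he a).1 ha
  have hcomm : ∀ a ∈ A, e * (n * a * n⁻¹) * e⁻¹ = n * (e * a * e⁻¹) * n⁻¹ := by
    intro a ha
    have h1 : e * (n * a * n⁻¹) * e⁻¹ ∈ A := heA _ (hnA a ha)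
    have h2 := Subgroup.mem_centralizer_iff.1 hc _ h1
    have h4 : n * (e * a * e⁻¹) * n⁻¹ = (n * e * n⁻¹ * e⁻¹) * (e * (n * a * n⁻¹) * e⁻¹) *
        (n * e * n⁻¹ * e⁻¹)⁻¹ := by group
    rw [h4, ← h2]; group
  have key : ∀ Y : Subgroup G, Y ≤ A → e ∈ Subgroup.normalizer (Y : Set G) →
      e ∈ Subgroup.normalizer ((lo_cj n Y : Subgroup G) : Set G) := by
    intro Y hYA heY
    apply lo_mem_normalizer
    intro x hx
    rw [lo_mem_cj] at hx ⊢
    have hy' := (Subgroup.mem_normalizer_iff.1 heY _).1 hx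
    have hxe : x = n * (n⁻¹ * x * n) * n⁻¹ := by group
    have h1 := hcomm _ (hYA hx)
    rw [← hxe] at h1
    rw [h1]
    have e2 : n⁻¹ * (n * (e * (n⁻¹ * x * n) * e⁻¹) * n⁻¹) * n = e * (n⁻¹ * x * n) * e⁻¹ := by
      group
    rw [e2]; exact hy'
  have cjA : ∀ Y : Subgroup G, Y ≤ A → lo_cj n Y ≤ A := by
    intro Y hYA x hx
    rw [lo_mem_cj] at hx
    have h1 := hnA _ (hYA hx)
    have e2 : n * (n⁻¹ * x * n) * n⁻¹ = x := by group
    rwa [e2] at h1
  have hX'A := cjA X hXA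
  have hX''A := cjA _ hX'A
  have c1 : Nat.card (lo_cj n X) = p := by rw [lo_card_cj]; exact hX
  have c2 : Nat.card (lo_cj n (lo_cj n X)) = p := by rw [lo_card_cj]; exact c1
  have e1 := key X hXA heX
  have e2 := key _ hX'A e1
  have hne : X ≠ lo_cj n X := by
    intro h
    apply hnX
    apply lo_mem_normalizer
    intro x hx
    have h1 := lo_conj_mem_cj n X x hx
    rw [← h] at h1
    exact h1
  have h3' := h3 G p A hA hA2 e he X (lo_cj n X) (lo_cj n (lo_cj n X)) hXA hX'A hX''A hX c1 c2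
  by_cases h12 : lo_cj n X = lo_cj n (lo_cj n X)
  · exact hne (lo_cj_inj n _ _ h12)
  by_cases h13 : X = lo_cj n (lo_cj n X)
  · have hn2 : n ^ 2 ∈ Subgroup.normalizer (X : Set G) := by
      apply lo_mem_normalizer
      intro x hx
      have h1 := lo_conj_mem_cj n _ _ (lo_conj_mem_cj n X x hx)
      rw [← h13] at h1
      have e3 : n ^ 2 * x * (n ^ 2)⁻¹ = n * (n * x * n⁻¹) * n⁻¹ := by rw [pow_two]; group
      rw [e3]; exact h1
    obtain ⟨k, hk⟩ := hodd
    have hn' : n = (n ^ 2) ^ (k + 1) := by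
      rw [← pow_mul]
      have h5 : 2 * (k + 1) = orderOf n + 1 := by omega
      rw [h5, pow_succ, pow_orderOf_eq_one, one_mul]
    apply hnX
    rw [hn']
    exact Subgroup.pow_mem _ hn2 _
  · exact heL (h3' hne h13 h12 heX e1 e2 L hLA hL)

end Cfsg.Agent.Lib.Helper77.FT12
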