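import Cfsg.Agent.Lib.Helper98.H74Defs
import Cfsg.Agent.Lib.Helper96.SpBlock
import Cfsg.Agent.Lib.Helper89.HyBLOCK

/-!
# Project H74 (S5974), bridge for the pieces BLKO / BLKE (helper77)

An invariant nondegenerate block of dimension `blk` (`= 2i` for `i` odd, `= i` for `i` even)
inside any nonzero invariant nondegenerate subspace of `range (g - 1)`, by bridging to the
bilinear-form libraries: `Helper96.Sp.exists_block` (alternating forms, used when `2 = 0`) and
`Helper89.Hy.exists_block` (symmetric forms, `2 ≠ 0`).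
-/

set_option autoImplicit false
set_option linter.unusedSectionVars false
set_option linter.unusedVariables false

namespace Cfsg.Agent.Lib.Helper98.H74

open Cfsg.Agent.Lib.Helper47 Cfsg.Agent.Lib.Helper98.T73 Module Polynomial

universe u

variable {F : Type u} [Field F] [Fintype F] {V : Type u} [AddCommGroup V] [Module F V]
  [FiniteDimensional F V] {Q : V → F} {B : V → V → F}

/-- the bridge: a block of dimension `blk (card F) r`, in any characteristic -/
theorem blk_bridge77 (hQ : IsQuad Q B) (hnd : Nondeg B) (p : ℕ) [Fact p.Prime] [CharP F p]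
    (r : ℕ) (hr : r.Prime) (hr2 : r ≠ 2) (hrp : r ≠ p) (g : Module.End F V) (hgQ : QI Q g)
    (hg : g ^ r = 1)
    (W : Submodule F V) (hWR : W ≤ LinearMap.range (g - 1)) (hWg : W.map g ≤ W)
    (hWnd : Nondeg (resForm B W)) (hW0 : W ≠ ⊥) :
    ∃ Z : Submodule F V, Z ≤ W ∧ Z.map g ≤ Z ∧ Nondeg (resForm B Z) ∧
      finrank F Z = Cfsg.Agent.Lib.Helper96.Sp.blk (Fintype.card F) r := by
  have hB := hQ.form
  have hp : p.Prime := Fact.out
  obtain ⟨B', hB'⟩ : ∃ B' : LinearMap.BilinForm F V, ∀ x y, B' x y = B x y :=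
    ⟨LinearMap.mk₂ F B hB.add_left (fun c x y => hB.smul_left c x y)
      (fun x y z => hB.add_right x y z) (fun c x y => hB.smul_right c x y), fun _ _ => rfl⟩
  have hND : Cfsg.Agent.Lib.Helper96.Sp.ND B' ⊤ :=
    fun u _ h => hnd u (fun y => by rw [← hB']; exact h y Submodule.mem_top)
  have hIsom : Cfsg.Agent.Lib.Helper96.Sp.Isom B' g := by
    intro x y
    rw [hB', hB']
    exact hQ.isometry hQ g hgQ x y
  have hfact : Fact r.Prime := ⟨hr⟩
  have hrq : ¬ r ∣ Fintype.card F := by
    obtain ⟨n, -, hn⟩ := FiniteField.card F p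
    rw [hn]
    intro hdvd
    exact hrp ((Nat.prime_dvd_prime_iff_eq hr hp).mp (hr.dvd_of_dvd_pow hdvd))
  have hr0 : (r : F) ≠ 0 := by
    intro h0
    have hdvd := (CharP.cast_eq_zero_iff F p r).mp h0
    exact hrp ((Nat.prime_dvd_prime_iff_eq hp hr).mp hdvd).symm
  have hWnd' : Cfsg.Agent.Lib.Helper96.Sp.ND B' W := by
    intro u hu h
    have h1 := hWnd ⟨u, hu⟩ (fun y => by
      show B u (y : V) = 0
      rw [← hB']
      exact h (y : V) y.2)
    exact congrArg Subtype.val h1
  have key : ∃ P : Submodule F V, P ≤ W ∧ P.map g ≤ P ∧ Cfsg.Agent.Lib.Helper96.Sp.ND B' P ∧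
      finrank F P = Cfsg.Agent.Lib.Helper96.Sp.blk (Fintype.card F) r := by
    by_cases h2 : (2 : F) = 0
    · have hA : B'.IsAlt := by
        intro x
        rw [hB', hQ.self, h2, zero_mul]
      exact Cfsg.Agent.Lib.Helper96.Sp.exists_block hA hND g hIsom r hr2 hrq hr0 hg W hWg hWnd'
        hWR hW0
    · have hS : B'.IsSymm := by
        rw [LinearMap.BilinForm.isSymm_def]
        intro x y
        rw [hB', hB']
        exact sym_comm hB y x
      exact Cfsg.Agent.Lib.Helper89.Hy.exists_block hS h2 hND g hIsom r hr2 hrq hr0 hg W hWg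
        hWnd' hWR hW0
  obtain ⟨P, hPW, hPg, hPnd, hPdim⟩ := key
  refine ⟨P, hPW, hPg, ?_, hPdim⟩
  intro x hx
  apply Subtype.ext
  apply hPnd (x : V) x.2
  intro v hv
  rw [hB']
  exact hx ⟨v, hv⟩

end Cfsg.Agent.Lib.Helper98.H74
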