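import Cfsg.Agent.Lib.Helper77.H74BLKBridge

/-!
# Project H74 (S5974), piece BLKE (extra, same bridge as BLKO) (helper77)

`i` even: an invariant nondegenerate block of dimension `i`, from `blk_bridge77`
(any characteristic: `Helper96.Sp.exists_block` when `2 = 0`, `Helper89.Hy.exists_block` otherwise).
-/

set_option autoImplicit false
set_option linter.unusedSectionVars false
set_option linter.unusedVariables false

namespace Cfsg.Agent.Lib.Helper98.H74

open Cfsg.Agent.Lib.Helper47 Cfsg.Agent.Lib.Helper98.T73 Module Polynomial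

universe u

variable {F : Type u} [Field F] [Fintype F] {V : Type u} [AddCommGroup V] [Module F V]
  [FiniteDimensional F V] {Q : V → F} {B : V → V → F}

/-- BLKE -/
theorem blk_even (hQ : IsQuad Q B) (hnd : Nondeg B) (p : ℕ) [Fact p.Prime] [CharP F p]
    (r : ℕ) (hr : r.Prime) (hr2 : r ≠ 2) (hrp : r ≠ p) (g : Module.End F V) (hgQ : QI Q g)
    (hg : g ^ r = 1) (heven : Even (orderOf ((Fintype.card F : ℕ) : ZMod r)))
    (W : Submodule F V) (hWR : W ≤ LinearMap.range (g - 1)) (hWg : W.map g ≤ W)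
    (hWnd : Nondeg (resForm B W)) (hW0 : W ≠ ⊥) :
    ∃ Z : Submodule F V, Z ≤ W ∧ Z.map g ≤ Z ∧ Nondeg (resForm B Z) ∧
      finrank F Z = orderOf ((Fintype.card F : ℕ) : ZMod r) := by
  obtain ⟨Z, h1, h2, h3, h4⟩ := blk_bridge77 hQ hnd p r hr hr2 hrp g hgQ hg W hWR hWg hWnd hW0
  refine ⟨Z, h1, h2, h3, ?_⟩
  rw [h4]
  unfold Cfsg.Agent.Lib.Helper96.Sp.blk
  rw [if_pos heven]

end Cfsg.Agent.Lib.Helper98.H74
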