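import Mathlib
import Cfsg.Agent.Lib.Helper22.HPDefs
import Cfsg.Agent.Lib.Helper4.Eigen
import Cfsg.Agent.Lib.Helper31.HPETA

/-!
# S4504 sub-piece HP-CENTRAL-JOINT (helper77 for helper19 / helper22's project HP)
-/

set_option autoImplicit false

namespace Cfsg.Agent.Lib.Helper19.HPC

open Cfsg Cfsg.Agent.Lib.Helper22.BFD Cfsg.Agent.Lib.Helper22.HPD
open scoped ComplexConjugate

universe u

/-- Fourier inversion + Parseval: if the exponents `k i` have the Gauss period as generating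
function, they are distinct and `∑_t |∑_i ζ^(k i t) ν i|² = p |Sq p|` for unimodular `ν i`. -/
theorem hpjoint_abs (p : ℕ) [Fact p.Prime] (ζ : ℂ) (hζ : IsPrimitiveRoot ζ p) {ι : Type*}
    [Fintype ι] (k : ι → ZMod p) (ν : ι → ℂ) (hν : ∀ i, ν i * conj (ν i) = 1)
    (hk : ∀ t : ZMod p, ∑ i, ζ ^ (k i * t).val = eta p ζ t) :
    ∑ t : ZMod p, (∑ i, ζ ^ (k i * t).val * ν i) * conj (∑ i, ζ ^ (k i * t).val * ν i) =
      ((p * (Sq p).card : ℕ) : ℂ) := by
  classical
  have hp : p.Prime := Fact.out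
  have hp0 : (p : ℂ) ≠ 0 := Nat.cast_ne_zero.2 hp.ne_zero
  have hadd := Cfsg.Agent.Lib.Helper31.HPT.eta_aux_add p ζ hζ
  have hconj := Cfsg.Agent.Lib.Helper31.HPT.eta_aux_conj_pow p ζ hζ
  have horth := Cfsg.Agent.Lib.Helper31.HPT.eta_aux_orth p ζ hζ
  have hxy : ∀ x y : ZMod p, ∑ t : ZMod p, ζ ^ (x * t).val * conj (ζ ^ (y * t).val) =
      if x = y then (p : ℂ) else 0 := by
    intro x y
    have h1 : ∀ t : ZMod p, ζ ^ (x * t).val * conj (ζ ^ (y * t).val) = ζ ^ ((x - y) * t).val := by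
      intro t
      rw [hconj, ← hadd]
      congr 2
      ring
    rw [Finset.sum_congr rfl (fun t _ => h1 t), horth]
    simp only [sub_eq_zero]
  -- multiplicities
  have hN : ∀ u : ZMod p, (Finset.univ.filter (fun i => k i = u)).card =
      if u ∈ Sq p then 1 else 0 := by
    intro u
    have h1 : ∑ t : ZMod p, (∑ i, ζ ^ (k i * t).val) * conj (ζ ^ (u * t).val) =
        (p : ℂ) * (Finset.univ.filter (fun i => k i = u)).card := by
      simp_rw [Finset.sum_mul]
      rw [Finset.sum_comm]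
      simp_rw [hxy]
      rw [Finset.sum_ite, Finset.sum_const_zero, add_zero, Finset.sum_const, nsmul_eq_mul,
        mul_comm]
    have h2 : ∑ t : ZMod p, (eta p ζ t) * conj (ζ ^ (u * t).val) =
        (p : ℂ) * (if u ∈ Sq p then 1 else 0) := by
      unfold eta
      simp_rw [Finset.sum_mul]
      rw [Finset.sum_comm]
      simp_rw [hxy]
      rw [Finset.sum_ite_eq']
      split_ifs <;> simp
    have h3 : (p : ℂ) * (Finset.univ.filter (fun i => k i = u)).card =
        (p : ℂ) * (if u ∈ Sq p then 1 else 0) := by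
      rw [← h1, ← h2]
      exact Finset.sum_congr rfl fun t _ => by rw [hk t]
    have h4 := mul_left_cancel₀ hp0 h3
    apply Nat.cast_injective (R := ℂ)
    rw [h4]
    split_ifs <;> simp
  have hinj : Function.Injective k := by
    intro i j hij
    have hle : (Finset.univ.filter (fun i' => k i' = k i)).card ≤ 1 := by
      rw [hN]
      split_ifs <;> simp
    exact Finset.card_le_one.1 hle i (by simp) j (by simp [hij])
  have hcard : (Fintype.card ι : ℂ) = ((Sq p).card : ℂ) := by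
    have h := hk 0
    unfold eta at h
    simpa using h
  calc ∑ t : ZMod p, (∑ i, ζ ^ (k i * t).val * ν i) * conj (∑ i, ζ ^ (k i * t).val * ν i)
      = ∑ t : ZMod p, ∑ i, ∑ j,
          (ν i * conj (ν j)) * (ζ ^ (k i * t).val * conj (ζ ^ (k j * t).val)) := by
        refine Finset.sum_congr rfl fun t _ => ?_
        rw [map_sum, Finset.sum_mul_sum]
        refine Finset.sum_congr rfl fun i _ => Finset.sum_congr rfl fun j _ => ?_
        rw [map_mul]
        ring
    _ = ∑ i, ∑ j, (ν i * conj (ν j)) *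
          ∑ t : ZMod p, (ζ ^ (k i * t).val * conj (ζ ^ (k j * t).val)) := by
        rw [Finset.sum_comm]
        refine Finset.sum_congr rfl fun i _ => ?_
        rw [Finset.sum_comm]
        refine Finset.sum_congr rfl fun j _ => ?_
        rw [Finset.mul_sum]
    _ = ∑ i : ι, (p : ℂ) := by
        refine Finset.sum_congr rfl fun i _ => ?_
        rw [Finset.sum_eq_single i]
        · rw [hxy, if_pos rfl, hν, one_mul]
        · intro j _ hji
          rw [hxy, if_neg (fun h => hji (hinj h).symm), mul_zero]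
        · intro h
          exact absurd (Finset.mem_univ i) h
    _ = ((p * (Sq p).card : ℕ) : ℂ) := by
        rw [Finset.sum_const, Finset.card_univ, nsmul_eq_mul, hcard]
        push_cast
        ring

/-- HP-CENTRAL-JOINT: Parseval on a joint eigenbasis of `z` and a `p`-regular `y` commuting with `z`
(the eigenvalues of `z` have multiplicity one because `χ (z ^ t) = eta p ζ t`). -/
theorem hp_joint {G : Type u} [Group G] [Fintype G] (p : ℕ) [Fact p.Prime]
    (χ : G → ℂ) (hχ : IsCharacter G χ) (z : G) (ζ : ℂ) (hz : orderOf z = p)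
    (hζ : IsPrimitiveRoot ζ p) (hval : ∀ t : ZMod p, χ (z ^ t.val) = eta p ζ t)
    (y : G) (hyz : y * z = z * y) (hy : ¬ p ∣ orderOf y) :
    ∑ t : ZMod p, χ (z ^ t.val * y) * conj (χ (z ^ t.val * y)) =
      ((p * (Sq p).card : ℕ) : ℂ) := by
  classical
  have hp : p.Prime := Fact.out
  have : NeZero p := ⟨hp.ne_zero⟩
  obtain ⟨n, ρ, rfl⟩ := hχ
  have hcomm : Commute z y := hyz.symm
  have hcop : Nat.Coprime p (orderOf y) := (Nat.Prime.coprime_iff_not_dvd hp).2 hy
  obtain ⟨a, ha1, ha2⟩ := Nat.chineseRemainder hcop 1 0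
  obtain ⟨b, hb1, hb2⟩ := Nat.chineseRemainder hcop 0 1
  have hwa : (z * y) ^ a = z := by
    rw [hcomm.mul_pow]
    have h1 : z ^ a = z ^ 1 := pow_eq_pow_iff_modEq.2 (by rw [hz]; exact ha1)
    have h2 : y ^ a = y ^ 0 := pow_eq_pow_iff_modEq.2 ha2
    rw [h1, h2, pow_one, pow_zero, mul_one]
  have hwb : (z * y) ^ b = y := by
    rw [hcomm.mul_pow]
    have h1 : z ^ b = z ^ 0 := pow_eq_pow_iff_modEq.2 (by rw [hz]; exact hb1)
    have h2 : y ^ b = y ^ 1 := pow_eq_pow_iff_modEq.2 hb2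
    rw [h1, h2, pow_one, pow_zero, one_mul]
  obtain ⟨ι, _, _, v, μ, h1, h2, h3, -⟩ :=
    Cfsg.Agent.Lib.Helper4.exists_eigenbasis_rep (ρ := ρ) (z * y)
  have hpow : ∀ (j : ℕ) (i : ι), ρ ((z * y) ^ j) (v i) = μ i ^ j • v i := by
    intro j i
    induction j with
    | zero => simp
    | succ j ih =>
      rw [pow_succ, map_mul, Module.End.mul_apply, h1, map_smul, ih, smul_smul, pow_succ, mul_comm]
  have e2 : ∀ c : ℕ, ρ.character ((z * y) ^ c) = ∑ i, μ i ^ c := fun c =>
    Cfsg.Agent.Lib.Helper4.trace_eq_sum_of_eigenbasis v (ρ ((z * y) ^ c)) (fun i => μ i ^ c)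
      (hpow c)
  have hzp : z ^ p = 1 := by rw [← hz]; exact pow_orderOf_eq_one z
  have hαp : ∀ i, (μ i ^ a) ^ p = 1 := by
    intro i
    have hwap : (z * y) ^ (a * p) = 1 := by rw [pow_mul, hwa, hzp]
    obtain ⟨d, hd⟩ := orderOf_dvd_of_pow_eq_one hwap
    rw [← pow_mul, hd, pow_mul, h2, one_pow]
  have hk : ∀ i, ∃ k : ℕ, k < p ∧ ζ ^ k = μ i ^ a := fun i => hζ.eq_pow_of_pow_eq_one (hαp i)
  choose k hkp hkμ using hk
  have h3' : ∀ (i : ι) (t : ZMod p), (μ i ^ a) ^ t.val = ζ ^ (((k i : ZMod p) * t).val) := by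
    intro i t
    rw [← hkμ i, ← pow_mul, ZMod.val_mul, ZMod.val_natCast_of_lt (hkp i)]
    exact pow_eq_pow_mod _ hζ.pow_eq_one
  have hν : ∀ i, μ i ^ b * conj (μ i ^ b) = 1 := by
    intro i
    rw [Complex.mul_conj, Complex.normSq_eq_norm_sq, norm_pow, h3 i]
    simp
  have hkk : ∀ t : ZMod p, ∑ i, ζ ^ (((k i : ZMod p) * t).val) = eta p ζ t := by
    intro t
    rw [← hval t]
    have : z ^ t.val = (z * y) ^ (a * t.val) := by rw [pow_mul, hwa]
    rw [this, e2]
    refine Finset.sum_congr rfl fun i _ => ?_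
    rw [← h3', pow_mul]
  have hval2 : ∀ t : ZMod p, ρ.character (z ^ t.val * y) =
      ∑ i, ζ ^ (((k i : ZMod p) * t).val) * μ i ^ b := by
    intro t
    have : z ^ t.val * y = (z * y) ^ (a * t.val + b) := by rw [pow_add, pow_mul, hwa, hwb]
    rw [this, e2]
    refine Finset.sum_congr rfl fun i _ => ?_
    rw [← h3', pow_add, pow_mul]
  rw [Finset.sum_congr rfl (fun t _ => by rw [hval2 t])]
  exact hpjoint_abs p ζ hζ (fun i => (k i : ZMod p)) (fun i => μ i ^ b) hν hkk

end Cfsg.Agent.Lib.Helper19.HPC
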