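import Mathlib
import Cfsg.Agent.Lib.Helper58.JEDefs

/-!
S2948 project JE (helper58), piece FF3 (helper77): pull the transvection `b` and the normal
subgroup `M` of order 3 of `Hs 2 Gb` back from `V ⋊ Aut V` to `Aut V`.
-/

set_option autoImplicit false

namespace Cfsg.Agent.Lib.Helper77.JE

open Cfsg.Agent.Lib.Helper58.JE Cfsg.Agent.Lib.Helper72.JL Cfsg.Agent.Lib.Helper72.SC
  Cfsg.Agent.Lib.Helper78.Jc

universe u

theorem ff3 (h1 : FfaStmt.{u}) (h2 : FfbStmt.{u}) (h3 : FFGStmt.{u}) : FF3Stmt.{u} := by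
  intro V _ _ Gb A hab hexp hsolv hcore hAGb hbest hAne
  have : Fact (Nat.Prime 2) := ⟨Nat.prime_two⟩
  obtain ⟨hV, hHup, hupN, hHV, hf, hS3⟩ := h1 V 2 Gb hab hexp
  have hS1 := h2 V 2 Gb hab hexp hsolv hcore
  have hfinA : Finite (MulAut V) :=
    Finite.of_injective (fun (e : MulAut V) => (e : V → V)) DFunLike.coe_injective
  have hfinG : Finite (Gam V) :=
    Finite.of_equiv (V × MulAut V) SemidirectProduct.equivProd.symm
  have hinj : Function.Injective (SemidirectProduct.inr : MulAut V →* Gam V) :=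
    SemidirectProduct.inr_injective
  have hinl : Function.Injective (SemidirectProduct.inl : V →* Gam V) :=
    SemidirectProduct.inl_injective
  have hupA : up A ≤ Hs 2 Gb := by
    have hmem : up A ≤ up Gb := Subgroup.map_mono hAGb
    exact le_iSup (fun B : {B : Subgroup (Gam V) //
        B ≤ up Gb ∧ Cfsg.IsBestOffenderOn 2 (Vs V) B} => (B : Subgroup (Gam V)))
      ⟨up A, hmem, hbest⟩
  have hupAne : up A ≠ ⊥ := by
    intro hbot
    apply hAne
    rw [eq_bot_iff]
    intro a ha
    have h4 : (SemidirectProduct.inr a : Gam V) ∈ up A := Subgroup.mem_map_of_mem _ ha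
    rw [hbot, Subgroup.mem_bot] at h4
    rw [Subgroup.mem_bot]
    apply hinj
    rw [h4, map_one]
  obtain ⟨b', M', hb'A, hM'H, hM'card, hM'norm, hM'inv, v₀', hv₀', htrans⟩ :=
    h3 (Gam V) (Vs V) (Hs 2 Gb) hV hHV hf hS1 hS3 (up A) hupA hbest hupAne
  obtain ⟨β, hβA, rfl⟩ := hb'A
  obtain ⟨v₀, rfl⟩ := hv₀'
  have hM'range : M' ≤ (SemidirectProduct.inr : MulAut V →* Gam V).range := by
    intro m hm
    obtain ⟨g, _, hg⟩ := hHup (hM'H hm)
    exact ⟨g, hg⟩
  refine ⟨β, M'.comap (SemidirectProduct.inr : MulAut V →* Gam V), hβA, ?_, ?_, ?_, ?_, ?_⟩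
  · intro n hn
    have h4 : (SemidirectProduct.inr n : Gam V) ∈ up Gb := hHup (hM'H (Subgroup.mem_comap.mp hn))
    obtain ⟨g, hg, hgn⟩ := h4
    rw [← hinj hgn]
    exact hg
  · have h5 : (M'.comap (SemidirectProduct.inr : MulAut V →* Gam V)).map
        (SemidirectProduct.inr : MulAut V →* Gam V) = M' :=
      Subgroup.map_comap_eq_self hM'range
    rw [← hM'card, ← Subgroup.card_map_of_injective hinj, h5]
  · intro h hh m hm
    rw [Subgroup.mem_comap] at hm ⊢
    rw [map_mul, map_mul, map_inv]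
    exact hM'norm _ hh _ hm
  · intro m hm
    rw [Subgroup.mem_comap] at hm
    apply hinj
    rw [map_mul, map_mul, map_inv, map_inv]
    exact hM'inv _ hm
  · refine ⟨v₀, ?_⟩
    intro v
    have h6 := htrans (SemidirectProduct.inl v) ⟨v, rfl⟩
    have h7 : (SemidirectProduct.inr β : Gam V) * SemidirectProduct.inl v *
        (SemidirectProduct.inr β)⁻¹ * (SemidirectProduct.inl v)⁻¹ =
        SemidirectProduct.inl (β v * v⁻¹) := by
      have h8 : (SemidirectProduct.inr β : Gam V) * SemidirectProduct.inl v *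
          (SemidirectProduct.inr β)⁻¹ = SemidirectProduct.inl (β v) := by
        rw [← map_inv]
        exact (SemidirectProduct.inl_aut (φ := MonoidHom.id (MulAut V)) β v).symm
      rw [h8, map_mul, map_inv]
    rw [h7] at h6
    rcases h6 with h6 | h6
    · left
      apply hinl
      rw [h6, map_one]
    · right
      exact hinl h6

end Cfsg.Agent.Lib.Helper77.JE
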