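import Mathlib
import Cfsg.Agent.Lib.Helper78.JNDefs
import Cfsg.Agent.Lib.Helper82.JcOCPC
import Cfsg.Agent.Lib.Helper94.JcTH
import Cfsg.Agent.Lib.Helper75.JcWF
import Cfsg.Agent.Lib.Helper41.Cores
import Cfsg.Agent.S2941

/-!
# Project JN (S2944, helper78), piece TRN (proved by helper77)

For `K ∈ 𝒦₀(T)`: a Sylow 2-subgroup `T₁` of `N_G(W_K)` containing `J(T)` has `J(T₁) = J(T)`,
`N_G(W_K) ∈ ℒ(T₁)`, and `K` is a `J(T₁)`-component.
-/

set_option autoImplicit false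

namespace Cfsg.Agent.Lib.Helper77.JN

open Cfsg.Agent.Lib.Helper78.JN Cfsg.Agent.Lib.Helper72.JL Cfsg.Agent.Lib.Helper72.SC
  Cfsg.Agent.Lib.Helper78.Jc

open scoped commutatorElement

universe u

theorem trn : TrnStmt.{u} := by
  intro G _ _ hZN T K hT hK
  obtain ⟨hJC, hzero⟩ := hK
  obtain ⟨hodd, hKJ, h3, hSyl, hW4, hW2⟩ := hJC
  have h2p : Fact (Nat.Prime 2) := ⟨Nat.prime_two⟩
  obtain ⟨J, hJ⟩ : ∃ J : Subgroup G, J = Cfsg.thompsonSubgroupOf 2 T := ⟨_, rfl⟩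
  obtain ⟨N, hN⟩ : ∃ N : Subgroup G, N = Subgroup.normalizer (Cfsg.wOf K : Set G) := ⟨_, rfl⟩
  rw [← hJ] at hKJ hSyl hzero ⊢
  rw [← hN] at hzero ⊢
  -- (1) `N_G(K) ≤ N`, `K ≤ N`, `J ≤ N`
  have hNK : Subgroup.normalizer (K : Set G) ≤ N := by
    intro g hg
    rw [hN]
    have h1 := Cfsg.Agent.Lib.Helper82.Jc.pc_normalizer K hg
    have h2 := Cfsg.Agent.Lib.Helper82.Jc.oc_normalizer (Cfsg.pCoreOf 2 K) h1
    exact Cfsg.Agent.Lib.Helper75.Jc.wf_normalizer _ K g h2 hg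
  have hKN : K ≤ N := Subgroup.le_normalizer.trans hNK
  have hJNK : J ≤ Subgroup.normalizer (K : Set G) := by
    have h1 := Cfsg.Agent.S2941.right_le_normalizer_commutator K J
    rw [hKJ] at h1
    exact h1
  have hJN : J ≤ N := hJNK.trans hNK
  -- (2) the Sylow 2-subgroup `T₁` of `N`
  have hJT : J ≤ T := by rw [hJ]; exact Cfsg.Agent.Lib.Helper94.Jc.th_le_self T
  have hJ2 : IsPGroup 2 ↥J := hT.to_le hJT
  have hJsub : IsPGroup 2 ↥(J.subgroupOf N) := hJ2.comap_subtype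
  obtain ⟨P, hP⟩ := hJsub.exists_le_sylow
  obtain ⟨T₁, hT₁⟩ : ∃ T₁ : Subgroup G, T₁ = (P : Subgroup ↥N).map N.subtype := ⟨_, rfl⟩
  have hT₁N : T₁ ≤ N := by rw [hT₁]; exact Subgroup.map_subtype_le _
  have hT₁2 : IsPGroup 2 ↥T₁ := by rw [hT₁]; exact P.isPGroup'.map N.subtype
  have hsub : T₁.subgroupOf N = (P : Subgroup ↥N) := by
    rw [hT₁]
    exact Subgroup.comap_map_eq_self_of_injective (Subgroup.subtype_injective N) _
  have hodd₁ : Odd (T₁.relIndex N) := by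
    have h1 : T₁.relIndex N = (P : Subgroup ↥N).index := by
      unfold Subgroup.relIndex
      rw [hsub]
    rw [h1, ← Nat.not_even_iff_odd, even_iff_two_dvd]
    exact P.not_dvd_index
  have hJT₁ : J ≤ T₁ := by
    intro j hj
    rw [hT₁]
    exact Subgroup.mem_map.2 ⟨⟨j, hJN hj⟩, hP (Subgroup.mem_subgroupOf.2 hj), rfl⟩
  have hSylT₁ : Cfsg.IsSylowTwoIn T₁ N := by
    unfold Cfsg.IsSylowTwoIn
    exact ⟨hT₁N, hT₁2, hodd₁⟩
  -- (3) `J(T₁) = J`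
  have hth : Cfsg.thompsonSubgroupOf 2 T₁ = J := hzero T₁ hJT₁ hSylT₁
  -- (5) `T₁ ≠ ⊥`
  have hKne : K ≠ ⊥ := by
    intro hK0
    rw [hK0, Subgroup.relIndex_bot_right] at h3
    omega
  have hT₁ne : T₁ ≠ ⊥ := by
    intro h0
    have hJ0 : J = ⊥ := by
      rw [eq_bot_iff, ← h0]
      exact hJT₁
    apply hKne
    rw [← hKJ, hJ0, Subgroup.commutator_bot_right]
  -- (4) `K` is a `J(T₁)`-component
  have hJC₁ : Cfsg.IsJComponent T₁ K := by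
    unfold Cfsg.IsJComponent
    rw [hth]
    exact ⟨hodd, hKJ, h3, hSyl, hW4, hW2⟩
  -- (6b) `J(T₁)` is not inside `O₂(N)`
  have hnot : ¬ Cfsg.thompsonSubgroupOf 2 T₁ ≤ Cfsg.pCoreOf 2 N := by
    rw [hth]
    intro hle
    have hNn := Cfsg.Agent.Lib.Helper82.Jc.pc_le_normalizer N
    have hKle : K ≤ Cfsg.pCoreOf 2 N := by
      have hc : ⁅K, J⁆ ≤ Cfsg.pCoreOf 2 N := by
        rw [Subgroup.commutator_le]
        intro k hk j hj
        have h1 : k * j * k⁻¹ ∈ Cfsg.pCoreOf 2 N :=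
          (Subgroup.mem_normalizer_iff.1 (hNn (hKN hk)) j).1 (hle hj)
        rw [commutatorElement_def]
        exact Subgroup.mul_mem _ h1 (Subgroup.inv_mem _ (hle hj))
      rw [hKJ] at hc
      exact hc
    have hK2 : IsPGroup 2 ↥K := (Cfsg.Agent.Lib.Helper82.Jc.pc_pgroup N).to_le hKle
    have hKK : K ≤ Cfsg.pCoreOf 2 K := Cfsg.Agent.Lib.Helper82.Jc.pc_two_le K h3 K le_rfl hK2
    have heq : Cfsg.pCoreOf 2 K = K := le_antisymm (Cfsg.Agent.Lib.Helper82.Jc.pc_le K) hKK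
    rw [heq, Subgroup.relIndex_self] at h3
    omega
  -- (6c) `C_G(O₂(N)) ≤ O₂(N)`
  have hW2g : IsPGroup 2 ↥(Cfsg.wOf K) := IsPGroup.of_card (n := 2) (by rw [hW4]; norm_num)
  have hWne : Cfsg.wOf K ≠ ⊥ := by
    intro h0
    rw [h0, Subgroup.card_bot] at hW4
    omega
  have hWN : Cfsg.wOf K ≤ N := by rw [hN]; exact Subgroup.le_normalizer
  have hWnorm : ((Cfsg.wOf K).subgroupOf N).Normal :=
    (Subgroup.normal_subgroupOf_iff_le_normalizer hWN).mpr hN.le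
  have hWcore : (Cfsg.wOf K).subgroupOf N ≤ Cfsg.pCore 2 ↥N :=
    Cfsg.Agent.Lib.Helper41.le_pCore _ hW2g.comap_subtype
  have hchar : Cfsg.IsOfCharacteristicTwo ↥N := by
    rw [hN]
    exact hZN.1.2 _ hW2g hWne
  have hcent : Subgroup.centralizer (Cfsg.pCoreOf 2 N : Set G) ≤ Cfsg.pCoreOf 2 N := by
    intro x hx
    have hxW : x ∈ Subgroup.centralizer (Cfsg.wOf K : Set G) := by
      rw [Subgroup.mem_centralizer_iff] at hx ⊢
      intro w hw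
      apply hx
      exact Subgroup.mem_map.2 ⟨⟨w, hWN hw⟩, hWcore (Subgroup.mem_subgroupOf.2 hw), rfl⟩
    have hxN : x ∈ N := by
      rw [hN]
      exact Subgroup.centralizer_le_normalizer _ hxW
    have hxc : (⟨x, hxN⟩ : ↥N) ∈ Subgroup.centralizer (Cfsg.pCore 2 ↥N : Set ↥N) := by
      rw [Subgroup.mem_centralizer_iff]
      intro y hy
      apply Subtype.ext
      have hyG : (y : G) ∈ Cfsg.pCoreOf 2 N := Subgroup.mem_map.2 ⟨y, hy, rfl⟩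
      exact (Subgroup.mem_centralizer_iff.1 hx) _ hyG
    exact Subgroup.mem_map.2 ⟨⟨x, hxN⟩, hchar hxc, rfl⟩
  have hmem : N ∈ Cfsg.jOvergroups T₁ := by
    show Cfsg.IsSylowTwoIn T₁ N ∧ ¬ Cfsg.thompsonSubgroupOf 2 T₁ ≤ Cfsg.pCoreOf 2 N ∧
      Subgroup.centralizer (Cfsg.pCoreOf 2 N : Set G) ≤ Cfsg.pCoreOf 2 N
    exact ⟨hSylT₁, hnot, hcent⟩
  exact ⟨T₁, hJT₁, hth, hSylT₁, hmem, hJC₁, hKN, hT₁2, hT₁ne⟩

end Cfsg.Agent.Lib.Helper77.JN
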