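import Mathlib

namespace Cfsg.Agent.Lib.Helper77.NseAlt

open Finset

/-- Generic counting lemma: lower bounds on disjoint fibres which sum to the total
force equality and exhaustion. -/
theorem fibre_count {A : Type*} [Fintype A] [DecidableEq A] (o : A → ℕ) (M : Finset ℕ)
    (c : ℕ → ℕ)
    (hlow : ∀ m ∈ M, c m ≤ #(univ.filter (fun a => o a = m)))
    (hsum : ∑ m ∈ M, c m = Fintype.card A) :
    (∀ m ∈ M, #(univ.filter (fun a => o a = m)) = c m) ∧ ∀ a, o a ∈ M := by
  classical
  -- the set of elements with value in M
  set S : Finset A := univ.filter (fun a => o a ∈ M) with hS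
  have hfib : #S = ∑ m ∈ M, #(S.filter (fun a => o a = m)) :=
    Finset.card_eq_sum_card_fiberwise (fun a ha => by
      have := (Finset.mem_filter.mp ha).2
      exact this)
  have hfilt : ∀ m ∈ M, S.filter (fun a => o a = m) = univ.filter (fun a => o a = m) := by
    intro m hm
    ext a
    simp only [hS, Finset.mem_filter, Finset.mem_univ, true_and]
    constructor
    · exact fun h => h.2
    · exact fun h => ⟨h ▸ hm, h⟩
  have hfib' : #S = ∑ m ∈ M, #(univ.filter (fun a => o a = m)) := by
    rw [hfib]
    exact Finset.sum_congr rfl (fun m hm => by rw [hfilt m hm])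
  have hle : ∑ m ∈ M, c m ≤ ∑ m ∈ M, #(univ.filter (fun a => o a = m)) :=
    Finset.sum_le_sum hlow
  have hSle : #S ≤ Fintype.card A := Finset.card_le_univ S
  have hSeq : #S = Fintype.card A := le_antisymm hSle (by rw [hfib', ← hsum]; exact hle)
  have hsumeq : ∑ m ∈ M, c m = ∑ m ∈ M, #(univ.filter (fun a => o a = m)) := by
    rw [← hfib', hSeq, hsum]
  have heq := (Finset.sum_eq_sum_iff_of_le hlow).mp hsumeq
  refine ⟨fun m hm => (heq m hm).symm, fun a => ?_⟩
  have hSuniv : S = univ := (Finset.card_eq_iff_eq_univ S).mp hSeq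
  have : a ∈ S := hSuniv ▸ Finset.mem_univ a
  exact (Finset.mem_filter.mp this).2

/-- The nse-set from a complete list of counts. -/
theorem nse_of_counts {A : Type*} [Fintype A] [DecidableEq A] (o : A → ℕ) (M : Finset ℕ)
    (c : ℕ → ℕ)
    (hlow : ∀ m ∈ M, c m ≤ #(univ.filter (fun a => o a = m)))
    (hpos : ∀ m ∈ M, 0 < c m)
    (hsum : ∑ m ∈ M, c m = Fintype.card A) :
    ((fun m : ℕ => Nat.card {a : A // o a = m}) '' Set.range o) = c '' (M : Set ℕ) := by
  classical
  obtain ⟨h1, h2⟩ := fibre_count o M c hlow hsum
  have hrange : Set.range o = (M : Set ℕ) := by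
    ext m
    constructor
    · rintro ⟨a, rfl⟩
      exact h2 a
    · intro hm
      have hm' : m ∈ M := hm
      have hc := hpos m hm'
      rw [← h1 m hm'] at hc
      obtain ⟨a, ha⟩ := Finset.card_pos.mp hc
      exact ⟨a, (Finset.mem_filter.mp ha).2⟩
  rw [hrange]
  apply Set.image_congr
  intro m hm
  have hm' : m ∈ M := hm
  rw [← h1 m hm', Nat.card_eq_fintype_card, Fintype.card_subtype]

/-- Lower bound for the number of elements of order `m` in `A_n` by cycle types. -/
theorem low_bound (n m : ℕ) (τs : Finset (Multiset ℕ)) (hlcm : ∀ τ ∈ τs, τ.lcm = m) :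
    ∑ τ ∈ τs, #(univ.filter (fun g : alternatingGroup (Fin n) =>
        (g : Equiv.Perm (Fin n)).cycleType = τ)) ≤
      #(univ.filter (fun g : alternatingGroup (Fin n) => orderOf g = m)) := by
  classical
  rw [← Finset.card_biUnion]
  · apply Finset.card_le_card
    intro g hg
    simp only [Finset.mem_biUnion, Finset.mem_filter, Finset.mem_univ, true_and] at hg ⊢
    obtain ⟨τ, hτ, hgτ⟩ := hg
    rw [← Subgroup.orderOf_coe, ← Equiv.Perm.lcm_cycleType, hgτ]
    exact hlcm τ hτ
  · intro τ _ τ' _ hne
    simp only [Function.onFun]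
    rw [Finset.disjoint_left]
    intro g hg hg'
    simp only [Finset.mem_filter, Finset.mem_univ, true_and] at hg hg'
    exact hne (hg.symm.trans hg')


theorem cnt4_22 : #(univ.filter (fun g : alternatingGroup (Fin 4) =>
    (g : Equiv.Perm (Fin 4)).cycleType = {2, 2})) = 3 := by
  rw [AlternatingGroup.card_of_cycleType, Fintype.card_fin]; decide

theorem cnt4_3 : #(univ.filter (fun g : alternatingGroup (Fin 4) =>
    (g : Equiv.Perm (Fin 4)).cycleType = {3})) = 8 := by
  rw [AlternatingGroup.card_of_cycleType, Fintype.card_fin]; decide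

theorem cnt_0 (n : ℕ) : #(univ.filter (fun g : alternatingGroup (Fin n) =>
    (g : Equiv.Perm (Fin n)).cycleType = 0)) = 1 := by
  rw [Finset.card_eq_one]
  refine ⟨1, ?_⟩
  ext g
  simp only [Finset.mem_filter, Finset.mem_univ, true_and, Finset.mem_singleton,
    Equiv.Perm.cycleType_eq_zero]
  constructor
  · intro h
    exact Subtype.ext h
  · intro h
    rw [h]; rfl

theorem nse_alt4 : ((fun m : ℕ => Nat.card {g : ↥(alternatingGroup (Fin 4)) // orderOf g = m}) ''
    Set.range (orderOf : ↥(alternatingGroup (Fin 4)) → ℕ)) = {1, 3, 8} := by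
  classical
  have key := nse_of_counts (orderOf : ↥(alternatingGroup (Fin 4)) → ℕ) {1, 2, 3}
    (fun m => if m = 1 then 1 else if m = 2 then 3 else 8) ?_ ?_ ?_
  · rw [key]
    ext x
    simp only [Finset.coe_insert, Finset.coe_singleton, Set.image_insert_eq, Set.image_singleton,
      Set.mem_insert_iff, Set.mem_singleton_iff]
    norm_num
  · intro m hm
    simp only [Finset.mem_insert, Finset.mem_singleton] at hm
    rcases hm with rfl | rfl | rfl
    · have h := low_bound 4 1 {0} (by simp)
      rw [Finset.sum_singleton, cnt_0] at h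
      exact h
    · have h := low_bound 4 2 {{2, 2}} (by simp)
      rw [Finset.sum_singleton, cnt4_22] at h
      exact h
    · have h := low_bound 4 3 {{3}} (by simp)
      rw [Finset.sum_singleton, cnt4_3] at h
      exact h
  · intro m hm
    simp only [Finset.mem_insert, Finset.mem_singleton] at hm
    rcases hm with rfl | rfl | rfl <;> norm_num
  · rw [card_alternatingGroup, Fintype.card_fin]
    decide


theorem cnt5_22 : #(univ.filter (fun g : alternatingGroup (Fin 5) =>
    (g : Equiv.Perm (Fin 5)).cycleType = {2, 2})) = 15 := by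
  rw [AlternatingGroup.card_of_cycleType, Fintype.card_fin]; decide

theorem cnt5_3 : #(univ.filter (fun g : alternatingGroup (Fin 5) =>
    (g : Equiv.Perm (Fin 5)).cycleType = {3})) = 20 := by
  rw [AlternatingGroup.card_of_cycleType, Fintype.card_fin]; decide

theorem cnt5_5 : #(univ.filter (fun g : alternatingGroup (Fin 5) =>
    (g : Equiv.Perm (Fin 5)).cycleType = {5})) = 24 := by
  rw [AlternatingGroup.card_of_cycleType, Fintype.card_fin]; decide

theorem nse_alt5 : ((fun m : ℕ => Nat.card {g : ↥(alternatingGroup (Fin 5)) // orderOf g = m}) ''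
    Set.range (orderOf : ↥(alternatingGroup (Fin 5)) → ℕ)) = {1, 15, 20, 24} := by
  classical
  have key := nse_of_counts (orderOf : ↥(alternatingGroup (Fin 5)) → ℕ) {1, 2, 3, 5}
    (fun m => if m = 1 then 1 else if m = 2 then 15 else if m = 3 then 20 else 24) ?_ ?_ ?_
  · rw [key]
    ext x
    simp only [Finset.coe_insert, Finset.coe_singleton, Set.image_insert_eq, Set.image_singleton,
      Set.mem_insert_iff, Set.mem_singleton_iff]
    norm_num
  · intro m hm
    simp only [Finset.mem_insert, Finset.mem_singleton] at hm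
    rcases hm with rfl | rfl | rfl | rfl
    · have h := low_bound 5 1 {0} (by simp)
      rw [Finset.sum_singleton, cnt_0] at h
      exact h
    · have h := low_bound 5 2 {{2, 2}} (by simp)
      rw [Finset.sum_singleton, cnt5_22] at h
      exact h
    · have h := low_bound 5 3 {{3}} (by simp)
      rw [Finset.sum_singleton, cnt5_3] at h
      exact h
    · have h := low_bound 5 5 {{5}} (by simp)
      rw [Finset.sum_singleton, cnt5_5] at h
      exact h
  · intro m hm
    simp only [Finset.mem_insert, Finset.mem_singleton] at hm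
    rcases hm with rfl | rfl | rfl | rfl <;> norm_num
  · rw [card_alternatingGroup, Fintype.card_fin]
    decide

theorem cnt6_22 : #(univ.filter (fun g : alternatingGroup (Fin 6) =>
    (g : Equiv.Perm (Fin 6)).cycleType = {2, 2})) = 45 := by
  rw [AlternatingGroup.card_of_cycleType, Fintype.card_fin]; decide

theorem cnt6_3 : #(univ.filter (fun g : alternatingGroup (Fin 6) =>
    (g : Equiv.Perm (Fin 6)).cycleType = {3})) = 40 := by
  rw [AlternatingGroup.card_of_cycleType, Fintype.card_fin]; decide

theorem cnt6_33 : #(univ.filter (fun g : alternatingGroup (Fin 6) =>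
    (g : Equiv.Perm (Fin 6)).cycleType = {3, 3})) = 40 := by
  rw [AlternatingGroup.card_of_cycleType, Fintype.card_fin]; decide

theorem cnt6_42 : #(univ.filter (fun g : alternatingGroup (Fin 6) =>
    (g : Equiv.Perm (Fin 6)).cycleType = {4, 2})) = 90 := by
  rw [AlternatingGroup.card_of_cycleType, Fintype.card_fin]; decide

theorem cnt6_5 : #(univ.filter (fun g : alternatingGroup (Fin 6) =>
    (g : Equiv.Perm (Fin 6)).cycleType = {5})) = 144 := by
  rw [AlternatingGroup.card_of_cycleType, Fintype.card_fin]; decide

theorem nse_alt6 : ((fun m : ℕ => Nat.card {g : ↥(alternatingGroup (Fin 6)) // orderOf g = m}) ''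
    Set.range (orderOf : ↥(alternatingGroup (Fin 6)) → ℕ)) = {1, 45, 80, 90, 144} := by
  classical
  have key := nse_of_counts (orderOf : ↥(alternatingGroup (Fin 6)) → ℕ) {1, 2, 3, 4, 5}
    (fun m => if m = 1 then 1 else if m = 2 then 45 else if m = 3 then 80 else
      if m = 4 then 90 else 144) ?_ ?_ ?_
  · rw [key]
    ext x
    simp only [Finset.coe_insert, Finset.coe_singleton, Set.image_insert_eq, Set.image_singleton,
      Set.mem_insert_iff, Set.mem_singleton_iff]
    norm_num
  · intro m hm
    simp only [Finset.mem_insert, Finset.mem_singleton] at hm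
    rcases hm with rfl | rfl | rfl | rfl | rfl
    · have h := low_bound 6 1 {0} (by simp)
      rw [Finset.sum_singleton, cnt_0] at h
      exact h
    · have h := low_bound 6 2 {{2, 2}} (by simp)
      rw [Finset.sum_singleton, cnt6_22] at h
      exact h
    · have h := low_bound 6 3 {{3}, {3, 3}} (by
        intro τ hτ
        simp only [Finset.mem_insert, Finset.mem_singleton] at hτ
        rcases hτ with rfl | rfl <;> simp)
      rw [Finset.sum_pair (by decide), cnt6_3, cnt6_33] at h
      exact h
    · have h := low_bound 6 4 {{4, 2}} (by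
        intro τ hτ
        simp only [Finset.mem_singleton] at hτ
        subst hτ
        decide)
      rw [Finset.sum_singleton, cnt6_42] at h
      exact h
    · have h := low_bound 6 5 {{5}} (by simp)
      rw [Finset.sum_singleton, cnt6_5] at h
      exact h
  · intro m hm
    simp only [Finset.mem_insert, Finset.mem_singleton] at hm
    rcases hm with rfl | rfl | rfl | rfl | rfl <;> norm_num
  · rw [card_alternatingGroup, Fintype.card_fin]
    decide

end Cfsg.Agent.Lib.Helper77.NseAlt
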