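import Mathlib
import Cfsg.Agent.Lib.Helper72.PQDefs

/-! S4306 piece WIND (helper77 for helper72): the stabiliser in `A` of a weight `Y` has no fixed
points on `C_V(Y)` (norm argument). -/

set_option autoImplicit false

namespace Cfsg.Agent.Lib.Helper77.PQ

open Cfsg.Agent.Lib.Helper72.PQ
open Subgroup

universe u

/-- the norm of an element is fixed -/
theorem wind_norm_fixed {W : Type*} [CommGroup W] {α : Type*} [Group α] [Fintype α]
    (ρ : α → W →* W) (hmul : ∀ a a' w, ρ (a * a') w = ρ a (ρ a' w)) (x : W) (a0 : α) :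
    ρ a0 (∏ a, ρ a x) = ∏ a, ρ a x := by
  rw [map_prod]
  have : ∀ a, ρ a0 (ρ a x) = ρ (a0 * a) x := fun a => (hmul a0 a x).symm
  simp_rw [this]
  exact Equiv.prod_comp (Equiv.mulLeft a0) (fun a => ρ a x)

/-- in a finite group, `g H g⁻¹ ⊆ H` implies `g ∈ N(H)` -/
theorem wind_nz_of_conj_mem {Γ : Type*} [Group Γ] [Finite Γ] {H : Subgroup Γ} {g : Γ}
    (h1 : ∀ x ∈ H, g * x * g⁻¹ ∈ H) : g ∈ normalizer (H : Set Γ) := by
  rw [mem_normalizer_iff]
  intro x
  refine ⟨h1 x, fun hx => ?_⟩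
  let f : ↥H → ↥H := fun y => ⟨g * y.1 * g⁻¹, h1 y.1 y.2⟩
  have hinj : Function.Injective f := by
    intro y y' h
    have h' : g * y.1 * g⁻¹ = g * y'.1 * g⁻¹ := congrArg Subtype.val h
    apply Subtype.ext
    have := mul_right_cancel h'
    exact mul_left_cancel this
  obtain ⟨y, hy⟩ := Finite.surjective_of_injective hinj ⟨g * x * g⁻¹, hx⟩
  have h' : g * y.1 * g⁻¹ = g * x * g⁻¹ := congrArg Subtype.val hy
  have h2 : y.1 = x := mul_left_cancel (mul_right_cancel h')
  rw [← h2]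
  exact y.2

theorem wind_pow_eq_one {W : Type*} [Group W] [Finite W] {c : ℕ} (hc : c.Coprime (Nat.card W))
    {x : W} (h : x ^ c = 1) : x = 1 := by
  have h1 : orderOf x ∣ c := orderOf_dvd_of_pow_eq_one h
  have h2 : orderOf x ∣ Nat.card W := orderOf_dvd_natCard x
  have h3 : orderOf x ∣ 1 := by
    have := Nat.dvd_gcd h1 h2
    rwa [Nat.Coprime.gcd_eq_one hc] at this
  exact orderOf_eq_one_iff.mp (Nat.dvd_one.mp h3)

theorem wind : WIndStmt.{u} := by
  intro Γ _ _ q A B V Y hq hV hAV hBV hAB hB hYB hcard hcopA hcopB hCB hCA v hv hvY hvA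
  classical
  let _ : CommGroup ↥V := { (inferInstance : Group ↥V) with
    mul_comm := fun v w => Subtype.ext (hV v v.2 w w.2) }
  let _ : Fintype ↥A := Fintype.ofFinite _
  let _ : Fintype ↥Y := Fintype.ofFinite _
  let ρ : (g : Γ) → g ∈ normalizer (V : Set Γ) → (↥V →* ↥V) := fun g hg =>
    { toFun := fun w => ⟨g * w.1 * g⁻¹, (mem_normalizer_iff.mp hg w.1).mp w.2⟩
      map_one' := Subtype.ext (show g * (1 : Γ) * g⁻¹ = 1 by group)
      map_mul' := fun x y => Subtype.ext
        (show g * (x.1 * y.1) * g⁻¹ = (g * x.1 * g⁻¹) * (g * y.1 * g⁻¹) by group) }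
  have hρ : ∀ g hg (w : ↥V), ((ρ g hg w : ↥V) : Γ) = g * w.1 * g⁻¹ := fun _ _ _ => rfl
  let ρA : ↥A → (↥V →* ↥V) := fun a => ρ a.1 (hAV a.2)
  let ρY : ↥Y → (↥V →* ↥V) := fun y => ρ y.1 (hBV (hYB y.2))
  have hρA : ∀ a a' w, ρA (a * a') w = ρA a (ρA a' w) := fun a a' w => Subtype.ext
    (show (a.1 * a'.1) * w.1 * (a.1 * a'.1)⁻¹ = a.1 * (a'.1 * w.1 * a'.1⁻¹) * a.1⁻¹ by group)
  have hρY : ∀ y y' w, ρY (y * y') w = ρY y (ρY y' w) := fun a a' w => Subtype.ext
    (show (a.1 * a'.1) * w.1 * (a.1 * a'.1)⁻¹ = a.1 * (a'.1 * w.1 * a'.1⁻¹) * a.1⁻¹ by group)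
  let v' : ↥V := ⟨v, hv⟩
  let NY : ↥V → ↥V := fun x => ∏ y : ↥Y, ρY y x
  -- Step 1: the `A`-norm of `v` is trivial
  have hw1 : (∏ a : ↥A, ρA a v') = 1 := by
    have hfix := wind_norm_fixed ρA hρA v'
    set w : ↥V := ∏ a : ↥A, ρA a v' with hw
    have : w.1 = 1 := by
      apply hCA w.1 w.2
      intro a ha
      have h1 := congrArg Subtype.val (hfix ⟨a, ha⟩)
      have h2 : a * w.1 * a⁻¹ = w.1 := h1
      calc a * w.1 = (a * w.1 * a⁻¹) * a := by group
        _ = w.1 * a := by rw [h2]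
    exact Subtype.ext this
  -- Step 2: apply the `Y`-norm
  have hN : (∏ a : ↥A, NY (ρA a v')) = 1 := by
    have h1 : NY (∏ a : ↥A, ρA a v') = ∏ a : ↥A, NY (ρA a v') := by
      show (∏ y : ↥Y, ρY y (∏ a : ↥A, ρA a v')) = ∏ a : ↥A, ∏ y : ↥Y, ρY y (ρA a v')
      simp_rw [map_prod]
      exact Finset.prod_comm
    rw [← h1, hw1]
    show (∏ y : ↥Y, ρY y 1) = 1
    simp
  -- Step 3: the terms
  have hterm : ∀ a : ↥A, NY (ρA a v') =
      if a.1 ∈ normalizer (Y : Set Γ) then v' ^ Fintype.card ↥Y else 1 := by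
    intro a
    split_ifs with ha
    · have e1 : ρA a v' = v' := Subtype.ext (by
        show a.1 * v * a.1⁻¹ = v
        rw [hvA a.1 a.2 ha]; group)
      rw [e1]
      show (∏ y : ↥Y, ρY y v') = _
      have e2 : ∀ y : ↥Y, ρY y v' = v' := fun y => Subtype.ext (by
        show y.1 * v * y.1⁻¹ = v
        rw [hvY y.1 y.2]; group)
      simp_rw [e2]
      rw [Finset.prod_const, Finset.card_univ]
    · set x : ↥V := ρA a v' with hx
      have hx1 : x.1 = a.1 * v * a.1⁻¹ := rfl
      set z : ↥V := NY x with hz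
      have hzfix : ∀ y : ↥Y, ρY y z = z := fun y => wind_norm_fixed ρY hρY x y
      let S : Subgroup Γ := B ⊓ centralizer ({z.1} : Set Γ)
      have hSmem : ∀ b, b ∈ S ↔ b ∈ B ∧ z.1 * b = b * z.1 := by
        intro b
        show b ∈ B ⊓ centralizer ({z.1} : Set Γ) ↔ _
        rw [mem_inf, mem_centralizer_iff]
        simp
      have hYS : Y ≤ S := by
        intro y hy
        rw [hSmem]
        refine ⟨hYB hy, ?_⟩
        have h1 := congrArg Subtype.val (hzfix ⟨y, hy⟩)
        have h2 : y * z.1 * y⁻¹ = z.1 := h1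
        calc z.1 * y = (y * z.1 * y⁻¹) * y := by rw [h2]
          _ = y * z.1 := by group
      have hSB : S ≤ B := inf_le_left
      have hconjS : ∀ y1 ∈ Y, a.1 * y1 * a.1⁻¹ ∈ S := by
        intro y1 hy1
        have hbB : a.1 * y1 * a.1⁻¹ ∈ B := (mem_normalizer_iff.mp (hAB a.2) y1).mp (hYB hy1)
        rw [hSmem]
        refine ⟨hbB, ?_⟩
        set b : Γ := a.1 * y1 * a.1⁻¹ with hb
        have hbx : ρ b (hBV hbB) x = x := Subtype.ext (by
          show b * x.1 * b⁻¹ = x.1
          rw [hx1, hb]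
          have : a.1 * y1 * a.1⁻¹ * (a.1 * v * a.1⁻¹) * (a.1 * y1 * a.1⁻¹)⁻¹
              = a.1 * (y1 * v * y1⁻¹) * a.1⁻¹ := by group
          rw [this, hvY y1 hy1]; group)
        have hbz : ρ b (hBV hbB) z = z := by
          show ρ b (hBV hbB) (∏ y : ↥Y, ρY y x) = ∏ y : ↥Y, ρY y x
          rw [map_prod]
          refine Finset.prod_congr rfl fun y _ => ?_
          have : ρ b (hBV hbB) (ρY y x) = ρY y (ρ b (hBV hbB) x) := Subtype.ext (by
            show b * (y.1 * x.1 * y.1⁻¹) * b⁻¹ = y.1 * (b * x.1 * b⁻¹) * y.1⁻¹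
            have hc : b * y.1 = y.1 * b := hB b hbB y.1 (hYB y.2)
            calc b * (y.1 * x.1 * y.1⁻¹) * b⁻¹ = (b * y.1) * x.1 * (b * y.1)⁻¹ := by group
              _ = (y.1 * b) * x.1 * (y.1 * b)⁻¹ := by rw [hc]
              _ = y.1 * (b * x.1 * b⁻¹) * y.1⁻¹ := by group)
          rw [this, hbx]
        have h1 := congrArg Subtype.val hbz
        have h2 : b * z.1 * b⁻¹ = z.1 := h1
        calc z.1 * b = (b * z.1 * b⁻¹) * b := by rw [h2]
          _ = b * z.1 := by group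
      have hSeq : S = B := by
        by_contra hne
        obtain ⟨k, hk⟩ := Subgroup.card_dvd_of_le hYS
        have h1 : Nat.card S ∣ q * Nat.card Y := hcard ▸ Subgroup.card_dvd_of_le hSB
        have hYpos : 0 < Nat.card Y := Nat.card_pos
        have hkq : k ∣ q := by
          rw [hk, mul_comm q] at h1
          exact Nat.dvd_of_mul_dvd_mul_left hYpos h1
        rcases (Nat.dvd_prime hq).1 hkq with rfl | rfl
        · -- S = Y
          have hSY : Y = S := Subgroup.eq_of_le_of_card_ge hYS (by rw [hk, mul_one])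
          apply ha
          apply wind_nz_of_conj_mem
          intro y1 hy1
          rw [hSY]
          exact hconjS y1 hy1
        · apply hne
          exact Subgroup.eq_of_le_of_card_ge hSB (by rw [hcard, hk, mul_comm])
      have : z.1 = 1 := by
        apply hCB z.1 z.2
        intro b hb
        have : b ∈ S := hSeq ▸ hb
        exact ((hSmem b).1 this).2.symm
      exact Subtype.ext this
  -- Step 4: conclude
  simp_rw [hterm] at hN
  rw [Finset.prod_ite, Finset.prod_const_one, mul_one, Finset.prod_const, ← pow_mul] at hN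
  have hcY : Fintype.card ↥Y = Nat.card Y := (Nat.card_eq_fintype_card).symm
  have hk : (Finset.univ.filter fun a : ↥A => a.1 ∈ normalizer (Y : Set Γ)).card ∣ Nat.card A := by
    have h1 := Subgroup.card_subgroup_dvd_card ((normalizer (Y : Set Γ)).subgroupOf A)
    have h2 : Nat.card ((normalizer (Y : Set Γ)).subgroupOf A) =
        (Finset.univ.filter fun a : ↥A => a.1 ∈ normalizer (Y : Set Γ)).card := by
      rw [Nat.card_eq_fintype_card, ← Fintype.card_subtype]
      exact Fintype.card_congr (Equiv.refl _)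
    rw [← h2]
    exact h1
  have hcop : (Fintype.card ↥Y *
      (Finset.univ.filter fun a : ↥A => a.1 ∈ normalizer (Y : Set Γ)).card).Coprime
      (Nat.card ↥V) := by
    apply Nat.Coprime.mul_left
    · rw [hcY]
      exact Nat.Coprime.coprime_dvd_left (Subgroup.card_dvd_of_le hYB) hcopB
    · exact Nat.Coprime.coprime_dvd_left hk hcopA
  have hv1 : v' = 1 := wind_pow_eq_one hcop hN
  exact congrArg Subtype.val hv1

end Cfsg.Agent.Lib.Helper77.PQ
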