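import Cfsg.Agent.Lib.Helper96.HyDefs
import Cfsg.Agent.Lib.Helper98.O72Fix
import Cfsg.Agent.Lib.Helper95.O72EVEN

/-!
Project PI (S5989, helper96), piece CNTK (helper77): for an isometry `T` with `T ^ r = 1` and an
isometry-stable family `P` of nondegenerate `m`-subspaces, `m` smaller than the block size, the
number of members of `P` is congruent mod `r` to the number of members lying in the fixed space
of `T`.
-/

set_option autoImplicit false
set_option linter.unusedSectionVars false
set_option linter.unusedVariables false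

namespace Cfsg.Agent.Lib.Helper77.Pi

open Module Cfsg.Agent.Lib.Helper96.Sp Cfsg.Agent.Lib.Helper96.BG Cfsg.Agent.Lib.Helper96.Hy
  Cfsg.Agent.Lib.Helper47

universe u

section Abstract

variable {F : Type u} [Field F] [Fintype F] {V : Type u} [AddCommGroup V] [Module F V]
  [FiniteDimensional F V] {B : LinearMap.BilinForm F V}

/-- The dimension of an invariant nondegenerate subspace of the commutator space. -/
theorem picntk_blk_dvd (hS : B.IsSymm) (h2 : (2 : F) ≠ 0) (hN : ND B ⊤) (T : Module.End F V)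
    (hT : Isom B T) (r : ℕ) [Fact r.Prime] (hr2 : r ≠ 2) (hrq : ¬ r ∣ Fintype.card F)
    (hr0 : (r : F) ≠ 0) (hTr : T ^ r = 1) (Z : Submodule F V)
    (hZR : Z ≤ LinearMap.range (T - 1)) (hZ : Z.map T ≤ Z) (hZnd : ND B Z) :
    blk (Fintype.card F) r ∣ finrank F Z := by
  obtain ⟨-, -, -, -, -, -, hdiv, -, -⟩ := pow_one_setup T r hrq hr0 hTr
  have h1 := hdiv Z hZR hZ
  unfold blk
  split_ifs with hev
  · exact h1
  · have hodd : Odd (orderOf ((Fintype.card F : ℕ) : ZMod r)) := Nat.not_even_iff_odd.mp hev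
    have h3 : Even (finrank F Z) :=
      Cfsg.Agent.Lib.Helper98.O72.even_finrank_of_nd_range hS h2 hN T hT r hr2 hrq hr0 hTr Z hZ
        hZnd hZR
    have hcop : Nat.Coprime 2 (orderOf ((Fintype.card F : ℕ) : ZMod r)) :=
      (Nat.coprime_two_left).mpr hodd
    exact hcop.mul_dvd_of_dvd_of_dvd (even_iff_two_dvd.mp h3) h1

-- PIECE CNTK
theorem card_modEq_ker (hS : B.IsSymm) (h2 : (2 : F) ≠ 0) (hN : ND B ⊤) (r : ℕ) [Fact r.Prime]
    (hr2 : r ≠ 2) (hrq : ¬ r ∣ Fintype.card F) (hr0 : (r : F) ≠ 0) (T : Module.End F V)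
    (hT : Isom B T) (hTr : T ^ r = 1) (m : ℕ) (hmc : m < blk (Fintype.card F) r)
    (P : Submodule F V → Prop) (hP : ∀ W : Submodule F V, P W → finrank F W = m ∧ ND B W)
    (hmap : ∀ (W : Submodule F V) (g : V ≃ₗ[F] V), Isom B (g : V →ₗ[F] V) → P W →
      P (W.map (g : V →ₗ[F] V))) :
    Nat.card {W : Submodule F V // P W} ≡
      Nat.card {W : Submodule F V // P W ∧ W ≤ LinearMap.ker (T - 1)} [MOD r] := by
  classical
  have hfinV : Finite V := Module.finite_of_finite F
  have hfinS : Finite (Submodule F V) :=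
    Finite.of_injective (fun W : Submodule F V => (W : Set V)) SetLike.coe_injective
  have hTinj : Function.Injective T := isom_injective hN hT
  have hTsurj : Function.Surjective T := LinearMap.injective_iff_surjective.mp hTinj
  obtain ⟨g, hg⟩ : ∃ g : V ≃ₗ[F] V, (g : V →ₗ[F] V) = T :=
    ⟨LinearEquiv.ofBijective T ⟨hTinj, hTsurj⟩, by ext x; rfl⟩
  have hgI : Isom B (g : V →ₗ[F] V) := by rw [hg]; exact hT
  have hTK : ∀ x ∈ LinearMap.ker (T - 1), T x = x := by
    intro x hx
    rw [LinearMap.mem_ker, LinearMap.sub_apply, sub_eq_zero] at hx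
    exact hx
  have hfinΩ : Fintype {W : Submodule F V // P W} := Fintype.ofFinite _
  let f : Function.End {W : Submodule F V // P W} := fun W =>
    ⟨W.1.map T, by
      have h := hmap W.1 g hgI W.2
      rw [hg] at h
      exact h⟩
  have hk : ∀ (k : ℕ) (W : {W : Submodule F V // P W}),
      ((f ^ k) W).1 = W.1.map (T ^ k) := by
    intro k
    induction k with
    | zero =>
      intro W
      rw [pow_zero, pow_zero]
      exact (Submodule.map_id W.1).symm
    | succ k ih =>
      intro W
      rw [pow_succ', pow_succ']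
      change ((f ^ k) W).1.map T = W.1.map (T * T ^ k)
      rw [ih, Module.End.mul_eq_comp, Submodule.map_comp]
  have hfr : f ^ r ^ 1 = 1 := by
    rw [pow_one]
    funext W
    apply Subtype.ext
    rw [hk, hTr]
    exact Submodule.map_id W.1
  have key := Equiv.Perm.card_fixedPoints_modEq (p := r) (n := 1) hfr
  -- fixed points are the members contained in the kernel
  have hfixle : ∀ W : {W : Submodule F V // P W},
      f W = W → W.1 ≤ LinearMap.ker (T - 1) := by
    intro W hW
    have h1 : W.1.map T = W.1 := congrArg Subtype.val hW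
    obtain ⟨hfin, hnd⟩ := hP W.1 W.2
    obtain ⟨-, hRnd, hRinv, hsum⟩ :=
      Cfsg.Agent.Lib.Helper98.O72.fix_setup hS h2 hN T hT r hrq hr0 hTr W.1 (le_of_eq h1) hnd
    have h3 := picntk_blk_dvd hS h2 hN T hT r hr2 hrq hr0 hTr _ inf_le_right hRinv hRnd
    have h4 : finrank F ↥(W.1 ⊓ LinearMap.range (T - 1)) ≤ m :=
      (Submodule.finrank_mono inf_le_left).trans (le_of_eq hfin)
    have h5 : finrank F ↥(W.1 ⊓ LinearMap.range (T - 1)) = 0 :=
      Nat.eq_zero_of_dvd_of_lt h3 (lt_of_le_of_lt h4 hmc)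
    have h6 : W.1 ⊓ LinearMap.ker (T - 1) = W.1 := by
      apply Submodule.eq_of_le_of_finrank_le inf_le_left
      omega
    rw [← h6]
    exact inf_le_right
  have hlefix : ∀ W : {W : Submodule F V // P W},
      W.1 ≤ LinearMap.ker (T - 1) → f W = W := by
    intro W hW
    apply Subtype.ext
    change W.1.map T = W.1
    ext x
    constructor
    · rintro ⟨y, hy, rfl⟩
      rw [hTK y (hW hy)]
      exact hy
    · intro hx
      exact ⟨x, hx, hTK x (hW hx)⟩
  let e : Function.fixedPoints f ≃
      {W : Submodule F V // P W ∧ W ≤ LinearMap.ker (T - 1)} :=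
    { toFun := fun W => ⟨W.1.1, W.1.2, hfixle W.1 W.2⟩
      invFun := fun W' => ⟨⟨W'.1, W'.2.1⟩, hlefix _ W'.2.2⟩
      left_inv := fun W => rfl
      right_inv := fun W' => rfl }
  rw [← Nat.card_congr e, ← Fintype.card_eq_nat_card, ← Fintype.card_eq_nat_card]
  exact key

end Abstract

end Cfsg.Agent.Lib.Helper77.Pi
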