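import Cfsg.Agent.Lib.Helper96.PiDefs
import Cfsg.Agent.Lib.Helper51.HypPairs
import Cfsg.Prelude.Def_GeometricClasses
import Cfsg.Prelude.Def_Classical

/-!
Project PM (S5991, helper96): PIECE MGLUEF (helper77): the polar form of `quadFormMinus`:
symmetric, diagonal, and the Prelude notions "nondegenerate on" / "isometric for" are `ND` / `Iso`.
(Copy of `Helper91.Pi.glue_form_plus`.)
-/

set_option autoImplicit false
set_option linter.unusedSectionVars false
set_option linter.unusedVariables false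

namespace Cfsg.Agent.Lib.Helper77.Pm

open Module Cfsg.Agent.Lib.Helper96.Sp Cfsg.Agent.Lib.Helper96.BG Cfsg.Agent.Lib.Helper96.Hy
  Cfsg.Agent.Lib.Helper96.Pi Cfsg.Agent.Lib.Helper47

universe u

section Concrete

open Matrix
open scoped MatrixGroups

variable {F : Type u} [Field F] [Fintype F]

theorem mgluef_polar (e : ℕ) (a b : F) (u v : (Fin e ⊕ Fin e) ⊕ Fin 2 → F) :
    QuadraticMap.polarBilin (Cfsg.Agent.Lib.Helper51.QMinus e F a b) u v
      = QuadraticMap.polar (Cfsg.quadFormMinus e F a b) u v := by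
  rw [QuadraticMap.polarBilin_apply_apply, Cfsg.Agent.Lib.Helper51.coe_QMinus]

theorem mgluef_self (e : ℕ) (a b : F) (v : (Fin e ⊕ Fin e) ⊕ Fin 2 → F) :
    QuadraticMap.polar (Cfsg.quadFormMinus e F a b) v v = 2 * Cfsg.quadFormMinus e F a b v := by
  rw [← Cfsg.Agent.Lib.Helper51.coe_QMinus, QuadraticMap.polar_self, two_nsmul, two_mul]

-- PIECE MGLUEF
theorem glue_form_minus (h2 : (2 : F) ≠ 0) (e : ℕ) (a b : F) :
    LinearMap.BilinForm.IsSymm (QuadraticMap.polarBilin (Cfsg.Agent.Lib.Helper51.QMinus e F a b)) ∧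
    (∀ v, QuadraticMap.polarBilin (Cfsg.Agent.Lib.Helper51.QMinus e F a b) v v
      = 2 * Cfsg.quadFormMinus e F a b v) ∧
    (∀ W : Submodule F ((Fin e ⊕ Fin e) ⊕ Fin 2 → F),
      Cfsg.Geo.IsNondegenerateOn (QuadraticMap.polar (Cfsg.quadFormMinus e F a b)) W ↔
        ND (QuadraticMap.polarBilin (Cfsg.Agent.Lib.Helper51.QMinus e F a b)) W) ∧
    (∀ W W' : Submodule F ((Fin e ⊕ Fin e) ⊕ Fin 2 → F),
      Cfsg.Geo.AreIsometricFor (Cfsg.quadFormMinus e F a b) W W' ↔
        Iso (QuadraticMap.polarBilin (Cfsg.Agent.Lib.Helper51.QMinus e F a b)) W W') := by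
  refine ⟨⟨fun x y => ?_⟩, ?_, ?_, ?_⟩
  · show QuadraticMap.polarBilin (Cfsg.Agent.Lib.Helper51.QMinus e F a b) x y
      = QuadraticMap.polarBilin (Cfsg.Agent.Lib.Helper51.QMinus e F a b) y x
    rw [mgluef_polar, mgluef_polar, QuadraticMap.polar_comm]
  · intro v
    rw [mgluef_polar, mgluef_self]
  · intro W
    constructor
    · intro hnd u hu h
      by_contra hne
      obtain ⟨x, hx, hxne⟩ := (hnd u hu hne).2
      apply hxne
      rw [← mgluef_polar]
      exact h x hx
    · intro hnd w hw hne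
      have key : ∃ x ∈ W, QuadraticMap.polar (Cfsg.quadFormMinus e F a b) w x ≠ 0 := by
        by_contra hcon
        push Not at hcon
        apply hne
        apply hnd w hw
        intro v hv
        rw [mgluef_polar]
        exact hcon v hv
      obtain ⟨x, hx, hxne⟩ := key
      exact ⟨⟨x, hx, by rw [QuadraticMap.polar_comm]; exact hxne⟩, ⟨x, hx, hxne⟩⟩
  · intro W W'
    constructor
    · rintro ⟨f, hf⟩
      refine ⟨f, fun w => ?_⟩
      rw [mgluef_polar, mgluef_self, mgluef_polar, mgluef_self, hf w]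
    · rintro ⟨f, hf⟩
      refine ⟨f, fun w => ?_⟩
      have h1 := hf w
      rw [mgluef_polar, mgluef_self, mgluef_polar, mgluef_self] at h1
      exact mul_left_cancel₀ h2 h1

end Concrete

end Cfsg.Agent.Lib.Helper77.Pm
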