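import Mathlib
import Cfsg.Agent.Lib.Helper72.S3Defs

/-! Piece BLOCK of S4305 (for helper72): a block decomposition `V = B₀ · f B₀ · f² B₀` forces
`Q3 = ⊥`. -/

set_option autoImplicit false

namespace Cfsg.Agent.Lib.Helper77.S3F

open Cfsg.Agent.Lib.Helper72.S3F

universe u

section

variable {V : Type u} [CommGroup V]

theorem blk_f3 {f : MulAut V} (h : f ^ 3 = 1) (v : V) : f (f (f v)) = v := by
  have e : f ^ 3 = f * f * f := by rw [pow_succ, pow_two]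
  rw [e] at h
  exact congrArg (fun g : MulAut V => g v) h

theorem blk_t2 {t : MulAut V} (h : t ^ 2 = 1) (v : V) : t (t v) = v := by
  rw [pow_two] at h
  exact congrArg (fun g : MulAut V => g v) h

theorem blk_tf {f t : MulAut V} (h : S3 f t) (v : V) : t (f v) = f (f (t v)) := by
  have hf3 : f * f * f = 1 := by rw [← h.f3, pow_succ, pow_two]
  have h1 : t * f = f⁻¹ * t := by rw [← h.tf]; group
  have h2 : f⁻¹ = f * f := (eq_inv_of_mul_eq_one_left hf3).symm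
  have e1 : t * f = f * f * t := by rw [h1, h2]
  exact congrArg (fun g : MulAut V => g v) e1

/-- `t` inverts `B₀` -/
theorem blk_inv {f t : MulAut V} (hs : S3 f t) (hfpf : ∀ v : V, f v = v → t v = v → v = 1)
    (B₀ : Subgroup V) (hB₀t : ∀ w ∈ B₀, t w ∈ B₀)
    (hdis : ∀ w ∈ B₀, ∀ w₁ ∈ B₀, ∀ w₂ ∈ B₀, w = f w₁ * f (f w₂) → w = 1) :
    ∀ w ∈ B₀, t w = w⁻¹ := by
  intro w hw
  have hx : w * t w ∈ B₀ := mul_mem hw (hB₀t w hw)
  have htx : t (w * t w) = w * t w := by rw [map_mul, blk_t2 hs.t2, mul_comm]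
  have hn : (w * t w) * f (w * t w) * f (f (w * t w)) = 1 := by
    apply hfpf
    · rw [map_mul, map_mul, blk_f3 hs.f3, mul_assoc (w * t w), mul_comm (w * t w)]
    · rw [map_mul, map_mul, blk_tf hs (f (w * t w)), blk_tf hs (w * t w), htx, blk_f3 hs.f3]
      exact mul_right_comm _ _ _
  have hx1 : w * t w = 1 := by
    apply hdis (w * t w) hx (w * t w)⁻¹ (inv_mem hx) (w * t w)⁻¹ (inv_mem hx)
    simp only [map_inv]
    rw [← mul_inv, eq_inv_iff_mul_eq_one, ← mul_assoc]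
    exact hn
  exact eq_inv_of_mul_eq_one_right hx1

/-- the generators of `cm H t` fix `B₀` pointwise -/
theorem blk_gen {t : MulAut V} {H : Subgroup (MulAut V)} (B₀ : Subgroup V)
    (hH : ∀ x ∈ H, ∀ w ∈ B₀, x w ∈ B₀) (hinv : ∀ w ∈ B₀, t w = w⁻¹)
    (u : MulAut V) (hu : u ∈ H) (w : V) (hw : w ∈ B₀) : (u⁻¹ * (t * u * t⁻¹)) w = w := by
  have h0 : t w⁻¹ = w := by rw [hinv _ (inv_mem hw), inv_inv]
  have h1 : t⁻¹ w = w⁻¹ := by
    calc t⁻¹ w = t⁻¹ (t w⁻¹) := by rw [h0]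
      _ = w⁻¹ := MulAut.inv_apply_self _ _ _
  show u⁻¹ (t (u (t⁻¹ w))) = w
  rw [h1, hinv _ (hH u hu _ (inv_mem hw)), map_inv, MulAut.inv_apply_self, inv_inv]

/-- `cm H (a t a⁻¹)` fixes `a B₀` pointwise -/
theorem blk_conj {t : MulAut V} {H : Subgroup (MulAut V)} (B₀ : Subgroup V)
    (hH : ∀ x ∈ H, ∀ w ∈ B₀, x w ∈ B₀) (hinv : ∀ w ∈ B₀, t w = w⁻¹)
    (a : MulAut V) (ha : ∀ u ∈ H, a⁻¹ * u * a ∈ H) :
    ∀ g ∈ cm H (a * t * a⁻¹), ∀ w ∈ B₀, g (a w) = a w := by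
  intro g hg w hw
  unfold cm at hg
  induction hg using Subgroup.closure_induction with
  | mem x hx =>
    obtain ⟨u, hu, rfl⟩ := hx
    have e : u⁻¹ * (a * t * a⁻¹ * u * (a * t * a⁻¹)⁻¹) =
        a * ((a⁻¹ * u * a)⁻¹ * (t * (a⁻¹ * u * a) * t⁻¹)) * a⁻¹ := by group
    rw [e]
    show a (((a⁻¹ * u * a)⁻¹ * (t * (a⁻¹ * u * a) * t⁻¹)) (a⁻¹ (a w))) = a w
    rw [MulAut.inv_apply_self, blk_gen B₀ hH hinv (a⁻¹ * u * a) (ha u hu) w hw]
  | one => rfl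
  | mul x y _ _ hx hy =>
    show x (y (a w)) = a w
    rw [hy, hx]
  | inv x _ hx =>
    calc x⁻¹ (a w) = x⁻¹ (x (a w)) := by rw [hx]
      _ = a w := MulAut.inv_apply_self _ _ _

end

theorem block : BlockStmt.{u} := by
  intro V _ _ H f t B₀ hact hfpf hH hB₀t hdis hspan
  have hs := hact.s3
  have hinv := blk_inv hs hfpf B₀ hB₀t hdis
  have hf3 : f * f * f = 1 := by rw [← hs.f3, pow_succ, pow_two]
  have ha1 : ∀ u ∈ H, f⁻¹ * u * f ∈ H := by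
    intro u hu
    have e : f⁻¹ * u * f = f * (f * u * f⁻¹) * f⁻¹ := by
      calc f⁻¹ * u * f = (f⁻¹ * (f * f * f)) * u * (f * (f * f * f)⁻¹) := by rw [hf3]; group
        _ = f * (f * u * f⁻¹) * f⁻¹ := by group
    rw [e]
    exact hact.fH _ (hact.fH u hu)
  have ha2 : ∀ u ∈ H, (f ^ 2)⁻¹ * u * f ^ 2 ∈ H := by
    intro u hu
    have e : (f ^ 2)⁻¹ * u * f ^ 2 = f * u * f⁻¹ := by
      calc (f ^ 2)⁻¹ * u * f ^ 2
          = ((f * f * f) * (f ^ 2)⁻¹) * u * (f ^ 2 * (f * f * f)⁻¹) := by rw [hf3]; group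
        _ = f * u * f⁻¹ := by rw [pow_two]; group
    rw [e]
    exact hact.fH u hu
  have ha0 : ∀ u ∈ H, (1 : MulAut V)⁻¹ * u * 1 ∈ H := by
    intro u hu
    rw [inv_one, one_mul, mul_one]
    exact hu
  have h0 : ∀ g ∈ cm H t, ∀ w ∈ B₀, g w = w := by
    intro g hg w hw
    have e : cm H (1 * t * 1⁻¹) = cm H t := by rw [one_mul, inv_one, mul_one]
    rw [← e] at hg
    exact blk_conj B₀ hH hinv 1 ha0 g hg w hw
  have h1 := blk_conj B₀ hH hinv f ha1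
  have h2 := blk_conj B₀ hH hinv (f ^ 2) ha2
  have hff : ∀ w : V, (f ^ 2) w = f (f w) := fun w => by rw [pow_two]; rfl
  rw [eq_bot_iff]
  intro g hg
  rw [Subgroup.mem_bot]
  unfold Q3 at hg
  rw [Subgroup.mem_inf, Subgroup.mem_inf] at hg
  obtain ⟨⟨hg0, hg1⟩, hg2⟩ := hg
  apply MulEquiv.ext
  intro v
  obtain ⟨w₀, hw₀, w₁, hw₁, w₂, hw₂, rfl⟩ := hspan v
  have h3 := h2 g hg2 w₂ hw₂
  rw [hff] at h3
  rw [map_mul, map_mul, h0 g hg0 w₀ hw₀, h1 g hg1 w₁ hw₁, h3]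
  rfl

end Cfsg.Agent.Lib.Helper77.S3F
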