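import Mathlib

/-! S4274 piece R2B (helper77 for helper11): the induction skeleton over groups of order dividing
`175560 = 2^3·3·5·7·11·19`. -/

set_option autoImplicit false

namespace Cfsg.Agent.S4274T

universe u

theorem r2b_card_sylow {H : Type u} [Group H] [Finite H] (hdvd : Nat.card H ∣ 175560)
    (P : Sylow 19 H) : (19 ∣ Nat.card H → Nat.card (P : Subgroup H) = 19) ∧
      (¬ 19 ∣ Nat.card H → Nat.card (P : Subgroup H) = 1) := by
  have : Fact (Nat.Prime 19) := ⟨by norm_num⟩
  obtain ⟨k, hk⟩ := IsPGroup.iff_card.mp P.isPGroup'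
  have hPdvd : Nat.card (P : Subgroup H) ∣ Nat.card H := Subgroup.card_subgroup_dvd_card _
  have hk1 : k ≤ 1 := by
    by_contra hk2
    have hk2' : 2 ≤ k := by omega
    have h1 : 19 ^ 2 ∣ Nat.card (P : Subgroup H) := by
      rw [hk]
      exact pow_dvd_pow 19 hk2'
    have : 19 ^ 2 ∣ 175560 := dvd_trans (dvd_trans h1 hPdvd) hdvd
    norm_num at this
  constructor
  · intro h19
    have h := P.dvd_card_of_dvd_card h19
    rw [hk] at h ⊢
    interval_cases k
    · norm_num at h
    · norm_num
  · intro h19
    rw [hk] at hPdvd ⊢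
    interval_cases k
    · norm_num
    · exact absurd (by simpa using hPdvd) h19

theorem r2b_aux {H : Type u} [Group H] [Finite H] (hdvd : Nat.card H ∣ 175560)
    (K : Subgroup H) [K.Normal] (h19 : 19 ∣ Nat.card K)
    (hK : ∀ Q : Sylow 19 ↥K, (Q : Subgroup ↥K).Normal) (P : Sylow 19 H) :
    (P : Subgroup H).Normal := by
  have : Fact (Nat.Prime 19) := ⟨by norm_num⟩
  have hKdvd : Nat.card K ∣ 175560 := dvd_trans (Subgroup.card_subgroup_dvd_card K) hdvd
  have h19H : 19 ∣ Nat.card H := dvd_trans h19 (Subgroup.card_subgroup_dvd_card K)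
  obtain ⟨Q⟩ : Nonempty (Sylow 19 ↥K) := inferInstance
  have hQc : Nat.card (Q : Subgroup ↥K) = 19 := (r2b_card_sylow hKdvd Q).1 h19
  have hPc : Nat.card (P : Subgroup H) = 19 := (r2b_card_sylow hdvd P).1 h19H
  have hQn := hK Q
  have hQch : (Q : Subgroup ↥K).Characteristic := Sylow.characteristic_of_normal Q hQn
  have hQ'n : ((Q : Subgroup ↥K).map K.subtype).Normal :=
    ConjAct.normal_of_characteristic_of_normal
  have hQ'c : Nat.card ((Q : Subgroup ↥K).map K.subtype) = 19 := by
    rw [Subgroup.card_map_of_injective K.subtype_injective]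
    exact hQc
  have hQ'p : IsPGroup 19 ((Q : Subgroup ↥K).map K.subtype) :=
    IsPGroup.of_card (n := 1) (by rw [hQ'c, pow_one])
  have hsup := P.is_maximal' (hQ'p.to_sup_of_normal_left P.isPGroup') le_sup_right
  have hle : (Q : Subgroup ↥K).map K.subtype ≤ (P : Subgroup H) := le_sup_left.trans hsup.le
  have heq : (Q : Subgroup ↥K).map K.subtype = (P : Subgroup H) :=
    Subgroup.eq_of_le_of_card_ge hle (by rw [hPc, hQ'c])
  rw [← heq]
  exact hQ'n

theorem r2b_aux2
    (hns : ∀ (K : Type u) [Group K] [Finite K] [IsSimpleGroup K], ¬ IsMulCommutative K →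
      Nat.card K ∣ 175560 → 19 ∣ Nat.card K → Nat.card K ≠ 175560 → False)
    (n : ℕ) (hn : n ∣ 175560)
    (ih : ∀ m < n, ∀ (H : Type u) [Group H] [Finite H], Nat.card H = m → m ∣ 175560 →
      ¬ IsSimpleGroup H → ∀ P : Sylow 19 H, (P : Subgroup H).Normal)
    (K : Type u) [Group K] [Finite K] (hlt : Nat.card K < n) (hdvd : Nat.card K ∣ 175560)
    (h19 : 19 ∣ Nat.card K) : ∀ P : Sylow 19 K, (P : Subgroup K).Normal := by
  intro P
  by_cases hs : IsSimpleGroup K
  · by_cases hc : IsMulCommutative K
    · exact ⟨fun x hx g => by rw [hc.is_comm.comm g x, mul_inv_cancel_right]; exact hx⟩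
    · exfalso
      have hn' : n ≤ 175560 := Nat.le_of_dvd (by norm_num) hn
      exact hns K hc hdvd h19 (by omega)
  · exact ih _ hlt K rfl hdvd hs P

theorem normal_sylow_induction
    (hns : ∀ (K : Type u) [Group K] [Finite K] [IsSimpleGroup K], ¬ IsMulCommutative K →
      Nat.card K ∣ 175560 → 19 ∣ Nat.card K → Nat.card K ≠ 175560 → False)
    (hsplit : ∀ (K : Type u) [Group K] [Finite K] (N : Subgroup K) [N.Normal],
      Nat.card N ∣ 9240 → Nat.card K = 19 * Nat.card N → ∀ P : Sylow 19 K, (P : Subgroup K).Normal)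
    (n : ℕ) : ∀ (H : Type u) [Group H] [Finite H], Nat.card H = n → n ∣ 175560 →
      ¬ IsSimpleGroup H → ∀ P : Sylow 19 H, (P : Subgroup H).Normal := by
  have hprime : Fact (Nat.Prime 19) := ⟨by norm_num⟩
  induction n using Nat.strong_induction_on with
  | _ n ih =>
    intro H _ _ hcard hdvd hnotsimple P
    have hdvdH : Nat.card H ∣ 175560 := hcard ▸ hdvd
    have hnpos : 0 < n := Nat.pos_of_dvd_of_pos hdvd (by norm_num)
    by_cases h19 : 19 ∣ n
    · -- nontrivial case
      have h19H : 19 ∣ Nat.card H := hcard ▸ h19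
      have hnt : Nontrivial H := by
        rw [← Finite.one_lt_card_iff_nontrivial, hcard]
        have := Nat.le_of_dvd hnpos h19
        omega
      obtain ⟨N, hN, hNbot, hNtop⟩ : ∃ N : Subgroup H, N.Normal ∧ N ≠ ⊥ ∧ N ≠ ⊤ := by
        by_contra hno
        apply hnotsimple
        refine ⟨fun N hN => ?_⟩
        by_contra h
        rw [not_or] at h
        exact hno ⟨N, hN, h.1, h.2⟩
      have hNdvd : Nat.card N ∣ n := hcard ▸ Subgroup.card_subgroup_dvd_card N
      have hNlt : Nat.card N < n := by
        have h1 : Nat.card N ≠ Nat.card H := fun h => hNtop (Subgroup.eq_top_of_card_eq _ h)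
        have h2 : Nat.card N ≤ Nat.card H := Subgroup.card_le_card_group N
        omega
      have hN1 : Nat.card N ≠ 1 := fun h => hNbot (Subgroup.eq_bot_of_card_eq N h)
      have hNpos : 0 < Nat.card N := Nat.card_pos
      by_cases h19N : 19 ∣ Nat.card N
      · -- Case 1
        have hall := r2b_aux2 hns n hdvd ih ↥N hNlt (dvd_trans hNdvd hdvd) h19N
        exact r2b_aux hdvdH N h19N hall P
      · -- Case 2
        have hq : Nat.card H = Nat.card (H ⧸ N) * Nat.card N :=
          Subgroup.card_eq_card_quotient_mul_card_subgroup N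
        have hqn : Nat.card (H ⧸ N) * Nat.card N = n := by rw [← hq, hcard]
        have hqdvd : Nat.card (H ⧸ N) ∣ n := Dvd.intro _ hqn
        have hq19 : 19 ∣ Nat.card (H ⧸ N) := by
          have h1 : 19 ∣ Nat.card (H ⧸ N) * Nat.card N := hqn ▸ h19
          rcases (Nat.Prime.dvd_mul hprime.out).1 h1 with h2 | h2
          · exact h2
          · exact absurd h2 h19N
        have hqpos : 0 < Nat.card (H ⧸ N) := Nat.card_pos
        have hqlt : Nat.card (H ⧸ N) < n := by
          have h2 : 2 ≤ Nat.card N := by omega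
          nlinarith
        have hallq := r2b_aux2 hns n hdvd ih (H ⧸ N) hqlt (dvd_trans hqdvd hdvd) hq19
        obtain ⟨Qb⟩ : Nonempty (Sylow 19 (H ⧸ N)) := inferInstance
        have hQbn := hallq Qb
        have hQbc : Nat.card (Qb : Subgroup (H ⧸ N)) = 19 :=
          (r2b_card_sylow (dvd_trans hqdvd hdvd) Qb).1 hq19
        set K : Subgroup H := (Qb : Subgroup (H ⧸ N)).comap (QuotientGroup.mk' N) with hKdef
        have hKn : K.Normal := Subgroup.Normal.comap hQbn _
        have hNK : N ≤ K := by
          intro x hx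
          rw [hKdef, Subgroup.mem_comap]
          have : (QuotientGroup.mk' N) x = 1 := (QuotientGroup.eq_one_iff x).mpr hx
          rw [this]
          exact Subgroup.one_mem _
        have hKidx : K.index = (Qb : Subgroup (H ⧸ N)).index :=
          Subgroup.index_comap_of_surjective _ (QuotientGroup.mk'_surjective N)
        have hKc : Nat.card K = 19 * Nat.card N := by
          have e1 : Nat.card K * K.index = Nat.card H := K.card_mul_index
          have e2 : Nat.card (Qb : Subgroup (H ⧸ N)) * (Qb : Subgroup (H ⧸ N)).index =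
              Nat.card (H ⧸ N) := (Qb : Subgroup (H ⧸ N)).card_mul_index
          have hidx : 0 < (Qb : Subgroup (H ⧸ N)).index := Nat.pos_of_ne_zero Subgroup.index_ne_zero_of_finite
          rw [hKidx, hq, ← e2, hQbc] at e1
          have e3 : Nat.card K * (Qb : Subgroup (H ⧸ N)).index =
              (19 * Nat.card N) * (Qb : Subgroup (H ⧸ N)).index := by
            rw [e1]; ring
          exact Nat.eq_of_mul_eq_mul_right hidx e3
        have hK19 : 19 ∣ Nat.card K := by rw [hKc]; exact Dvd.intro _ rfl
        by_cases hKtop : K = ⊤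
        · have hHc : Nat.card H = 19 * Nat.card N := by
            rw [← hKc, hKtop, Subgroup.card_top]
          have hN9240 : Nat.card N ∣ 9240 := by
            have h1 : 19 * Nat.card N ∣ 19 * 9240 := by
              rw [← hHc]
              exact hdvdH
            exact Nat.dvd_of_mul_dvd_mul_left (by norm_num) h1
          exact hsplit H N hN9240 hHc P
        · have hKdvd : Nat.card K ∣ n := hcard ▸ Subgroup.card_subgroup_dvd_card K
          have hKlt : Nat.card K < n := by
            have h1 : Nat.card K ≠ Nat.card H := fun h => hKtop (Subgroup.eq_top_of_card_eq _ h)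
            have h2 : Nat.card K ≤ Nat.card H := Subgroup.card_le_card_group K
            omega
          have hMc : Nat.card (N.subgroupOf K) = Nat.card N :=
            Nat.card_congr (Subgroup.subgroupOfEquivOfLe hNK).toEquiv
          have hKns : ¬ IsSimpleGroup ↥K := by
            intro hs
            have hMn : (N.subgroupOf K).Normal := Subgroup.normal_subgroupOf
            rcases hs.eq_bot_or_eq_top_of_normal (N.subgroupOf K) hMn with h | h
            · have : Nat.card (N.subgroupOf K) = 1 := by rw [h, Subgroup.card_bot]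
              rw [hMc] at this
              exact hN1 this
            · have : Nat.card (N.subgroupOf K) = Nat.card K := by rw [h, Subgroup.card_top]
              rw [hMc, hKc] at this
              omega
          have hall := ih _ hKlt ↥K rfl (dvd_trans hKdvd hdvd) hKns
          exact r2b_aux hdvdH K hK19 hall P
    · -- 19 ∤ n
      have hP1 : Nat.card (P : Subgroup H) = 1 := (r2b_card_sylow hdvdH P).2 (hcard ▸ h19)
      have hPbot : (P : Subgroup H) = ⊥ := Subgroup.eq_bot_of_card_eq _ hP1
      rw [hPbot]
      infer_instance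

end Cfsg.Agent.S4274T
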