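import Mathlib
import Cfsg.Prelude.Def_GeometricClasses
import Cfsg.Agent.Lib.Helper14.SMCONJ
import Cfsg.Agent.Lib.Helper4.SMC5

/-!
# Piece SM-B5 of S6002 (helper98): `back_five`
-/

set_option autoImplicit false

namespace Cfsg.Agent.Lib.Helper98.SM

open Matrix Polynomial

/-- `-x` lies in `spGL` when `x` does. -/
theorem b5_neg_mem_spGL {F : Type*} [Field F] (x : GL (Fin 2 ⊕ Fin 2) F)
    (hx : x ∈ Cfsg.spGL 2 F) : -x ∈ Cfsg.spGL 2 F := by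
  rw [mem_spGL_iff_symplectic] at hx ⊢
  rw [Units.val_neg]
  exact SymplecticGroup.neg_mem hx

/-- `-m` normalises a set when `m` does. -/
theorem b5_neg_mem_normalizer {F : Type*} [Field F] (S : Set (GL (Fin 2 ⊕ Fin 2) F))
    (m : GL (Fin 2 ⊕ Fin 2) F) (hm : m ∈ Subgroup.normalizer S) :
    -m ∈ Subgroup.normalizer S := by
  rw [Subgroup.mem_set_normalizer_iff] at hm ⊢
  intro n
  rw [hm n]
  have : -m * n * (-m)⁻¹ = m * n * m⁻¹ := by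
    rw [mul_inv_eq_iff_eq_mul]
    simp [mul_assoc]
  rw [this]

/-- the core case: `x ^ 5 = 1`, `x ≠ 1`. -/
theorem b5_core {F : Type*} [Field F] [Fintype F] (p : ℕ) [Fact p.Prime] [CharP F p]
    (h5p : p ≠ 5) (hirr : Irreducible (cyclotomic 5 F))
    (m : GL (Fin 2 ⊕ Fin 2) F) (hm : m ∈ Cfsg.spGL 2 F) (hm5 : m ^ 5 = 1) (hm1 : m ≠ 1)
    (x : GL (Fin 2 ⊕ Fin 2) F) (hx : x ∈ Cfsg.spGL 2 F) (hx5 : x ^ 5 = 1) (hx1 : x ≠ 1) :
    ∃ g ∈ Cfsg.spGL 2 F, g⁻¹ * x * g = m := by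
  have hp : p.Prime := Fact.out
  have h5 : (5 : F) ≠ 0 := by
    intro h
    have h' : ((5 : ℕ) : F) = 0 := by exact_mod_cast h
    rw [CharP.cast_eq_zero_iff F p] at h'
    exact h5p ((Nat.prime_dvd_prime_iff_eq hp (by norm_num)).mp h')
  have hcop : Nat.Coprime 5 p := by
    rw [Nat.coprime_primes (by norm_num) hp]
    exact fun h => h5p h.symm
  have hxM : (x : Matrix (Fin 2 ⊕ Fin 2) (Fin 2 ⊕ Fin 2) F) ^ 5 = 1 := by
    rw [← Units.val_pow_eq_pow_val, hx5, Units.val_one]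
  have hmM : (m : Matrix (Fin 2 ⊕ Fin 2) (Fin 2 ⊕ Fin 2) F) ^ 5 = 1 := by
    rw [← Units.val_pow_eq_pow_val, hm5, Units.val_one]
  have hx1' : (x : Matrix (Fin 2 ⊕ Fin 2) (Fin 2 ⊕ Fin 2) F) ≠ 1 := fun h =>
    hx1 (Units.ext (by rw [h, Units.val_one]))
  have hm1' : (m : Matrix (Fin 2 ⊕ Fin 2) (Fin 2 ⊕ Fin 2) F) ≠ 1 := fun h =>
    hm1 (Units.ext (by rw [h, Units.val_one]))
  have hc : (x : Matrix (Fin 2 ⊕ Fin 2) (Fin 2 ⊕ Fin 2) F).charpoly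
      = (m : Matrix (Fin 2 ⊕ Fin 2) (Fin 2 ⊕ Fin 2) F).charpoly := by
    rw [charpoly_five_sum _ h5 hirr hxM hx1', charpoly_five_sum _ h5 hirr hmM hm1']
  exact sp_conj_of_charpoly p x m hx hm 5 hcop hx5 hm5 hc

theorem back_five {F : Type*} [Field F] [Fintype F] (R : Subgroup (GL (Fin 2 ⊕ Fin 2) F))
    (p : ℕ) [Fact p.Prime] [CharP F p] (h5p : p ≠ 5) (hirr : Irreducible (cyclotomic 5 F))
    (m : GL (Fin 2 ⊕ Fin 2) F) (hm : m ∈ Cfsg.spGL 2 F)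
    (hmN : m ∈ Subgroup.normalizer (R : Set (GL (Fin 2 ⊕ Fin 2) F))) (hm5 : m ^ 5 = 1)
    (hm1 : m ≠ 1)
    (x : GL (Fin 2 ⊕ Fin 2) F) (hx : x ∈ Cfsg.spGL 2 F) (z : F)
    (hxz : ((x ^ 5 : GL (Fin 2 ⊕ Fin 2) F) : Matrix (Fin 2 ⊕ Fin 2) (Fin 2 ⊕ Fin 2) F)
      = z • (1 : Matrix (Fin 2 ⊕ Fin 2) (Fin 2 ⊕ Fin 2) F))
    (hns : ∀ z : F, (x : Matrix (Fin 2 ⊕ Fin 2) (Fin 2 ⊕ Fin 2) F)
      ≠ z • (1 : Matrix (Fin 2 ⊕ Fin 2) (Fin 2 ⊕ Fin 2) F)) :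
    ∃ g ∈ Cfsg.spGL 2 F, g⁻¹ * x * g ∈ Cfsg.Geo.subgroupNormalizer R := by
  have hzz : z * z = 1 := sp_scalar_sq (x ^ 5) (Subgroup.pow_mem _ hx 5) z hxz
  have hz : z = 1 ∨ z = -1 := mul_self_eq_one_iff.mp hzz
  rcases hz with rfl | rfl
  · -- `x ^ 5 = 1`
    have hx5 : x ^ 5 = 1 := Units.ext (by rw [hxz, one_smul, Units.val_one])
    have hx1 : x ≠ 1 := fun h => hns 1 (by rw [h, one_smul, Units.val_one])
    obtain ⟨g, hg, hgx⟩ := b5_core p h5p hirr m hm hm5 hm1 x hx hx5 hx1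
    refine ⟨g, hg, ?_⟩
    rw [hgx]
    exact hmN
  · -- `x ^ 5 = -1`
    have hx5 : (-x) ^ 5 = 1 := by
      rw [Odd.neg_pow (by decide)]
      apply Units.ext
      rw [Units.val_neg, hxz, Units.val_one]
      simp
    have hx1 : -x ≠ 1 := by
      intro h
      apply hns (-1)
      have h' : x = -1 := by rw [← h, neg_neg]
      rw [h', Units.val_neg, Units.val_one]
      simp
    obtain ⟨g, hg, hgx⟩ := b5_core p h5p hirr m hm hm5 hm1 (-x) (b5_neg_mem_spGL x hx) hx5 hx1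
    refine ⟨g, hg, ?_⟩
    have : g⁻¹ * x * g = -m := by
      rw [← hgx]
      simp [mul_assoc]
    rw [this]
    exact b5_neg_mem_normalizer _ m hmN

end Cfsg.Agent.Lib.Helper98.SM
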