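import Mathlib
import Cfsg.Agent.Lib.Helper91.SuU
import Cfsg.Agent.Lib.Helper58.SpFU

set_option autoImplicit false

/-! Piece EFU of S5172 (for helper91): the subgroup `U` of the even unitary group. -/

namespace Cfsg.Agent.Lib.Helper77.SuEFU

open Matrix Cfsg.Agent.Lib.Helper91.SpU Cfsg.Agent.Lib.Helper91.SuU

theorem blk21 {l : ℕ} {K : Type*} [Field K] (M N : Matrix (Fin l ⊕ Fin l) (Fin l ⊕ Fin l) K) :
    (M * N).toBlocks₂₁ = M.toBlocks₂₁ * N.toBlocks₁₁ + M.toBlocks₂₂ * N.toBlocks₂₁ := by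
  conv_lhs => rw [← Matrix.fromBlocks_toBlocks M, ← Matrix.fromBlocks_toBlocks N,
    Matrix.fromBlocks_multiply, Matrix.toBlocks_fromBlocks₂₁]

theorem blk11 {l : ℕ} {K : Type*} [Field K] (M N : Matrix (Fin l ⊕ Fin l) (Fin l ⊕ Fin l) K) :
    (M * N).toBlocks₁₁ = M.toBlocks₁₁ * N.toBlocks₁₁ + M.toBlocks₁₂ * N.toBlocks₂₁ := by
  conv_lhs => rw [← Matrix.fromBlocks_toBlocks M, ← Matrix.fromBlocks_toBlocks N,
    Matrix.fromBlocks_multiply, Matrix.toBlocks_fromBlocks₁₁]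

theorem one21 {l : ℕ} {K : Type*} [Field K] :
    (1 : Matrix (Fin l ⊕ Fin l) (Fin l ⊕ Fin l) K).toBlocks₂₁ = 0 := by
  rw [← Matrix.fromBlocks_one, Matrix.toBlocks_fromBlocks₂₁]

theorem one11 {l : ℕ} {K : Type*} [Field K] :
    (1 : Matrix (Fin l ⊕ Fin l) (Fin l ⊕ Fin l) K).toBlocks₁₁ = 1 := by
  rw [← Matrix.fromBlocks_one, Matrix.toBlocks_fromBlocks₁₁]

theorem inU_one (l : ℕ) (K : Type*) [Field K] (σ : K →+* K) :
    InU l K σ (1 : GU l K σ) := by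
  unfold Cfsg.Agent.Lib.Helper91.SuU.InU
  rw [mat_one]
  refine ⟨one21, ?_⟩
  rw [one11]
  exact Cfsg.Agent.Lib.Helper58.SpFU.isUT_one l K

theorem inU_mul (l : ℕ) (K : Type*) [Field K] (σ : K →+* K) {g h : GU l K σ}
    (hg : InU l K σ g) (hh : InU l K σ h) : InU l K σ (g * h) := by
  unfold Cfsg.Agent.Lib.Helper91.SuU.InU at hg hh ⊢
  rw [mat_mul]
  refine ⟨?_, ?_⟩
  · rw [blk21, hg.1, hh.1, Matrix.zero_mul, Matrix.mul_zero, add_zero]
  · rw [blk11, hh.1, Matrix.mul_zero, add_zero]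
    exact Cfsg.Agent.Lib.Helper58.SpFU.isUT_mul l K hg.2 hh.2

theorem inU_inv (l : ℕ) (K : Type*) [Field K] (σ : K →+* K) {g : GU l K σ}
    (hg : InU l K σ g) : InU l K σ g⁻¹ := by
  unfold Cfsg.Agent.Lib.Helper91.SuU.InU at hg ⊢
  have hXM : mat l K σ g⁻¹ * mat l K σ g = 1 := by
    rw [← mat_mul, inv_mul_cancel, mat_one]
  have h11 := congrArg Matrix.toBlocks₁₁ hXM
  rw [blk11, hg.1, Matrix.mul_zero, add_zero, one11] at h11
  have h21 := congrArg Matrix.toBlocks₂₁ hXM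
  rw [blk21, hg.1, Matrix.mul_zero, add_zero, one21] at h21
  have h11' : (mat l K σ g).toBlocks₁₁ * (mat l K σ g⁻¹).toBlocks₁₁ = 1 :=
    mul_eq_one_comm.mp h11
  refine ⟨?_, Cfsg.Agent.Lib.Helper58.SpFU.isUT_of_mul_eq_one l K hg.2 h11⟩
  calc (mat l K σ g⁻¹).toBlocks₂₁
      = (mat l K σ g⁻¹).toBlocks₂₁ *
          ((mat l K σ g).toBlocks₁₁ * (mat l K σ g⁻¹).toBlocks₁₁) := by
        rw [h11', Matrix.mul_one]
    _ = 0 := by rw [← Matrix.mul_assoc, h21, Matrix.zero_mul]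

theorem exists_UU (l : ℕ) (K : Type*) [Field K] (σ : K →+* K) (hσ : ∀ x, σ (σ x) = x) :
    ∃ U : Subgroup (GU l K σ), ∀ g, g ∈ U ↔ InU l K σ g :=
  ⟨{ carrier := {g | InU l K σ g}
     mul_mem' := fun hg hh => inU_mul l K σ hg hh
     one_mem' := inU_one l K σ
     inv_mem' := fun hg => inU_inv l K σ hg }, fun _ => Iff.rfl⟩

end Cfsg.Agent.Lib.Helper77.SuEFU
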