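import Mathlib
import Cfsg.Agent.Lib.Helper12.TDR

/-! S5980 piece TD2-SWAP (helper77 for helper98). -/

set_option autoImplicit false

namespace Cfsg.Agent.Lib.Helper98.TD2

open Matrix Polynomial
open scoped Kronecker

universe u

theorem td2swap_reindex {F : Type*} [Field F] {a b : ℕ}
    (A : Matrix (Fin a) (Fin a) F) (B : Matrix (Fin b) (Fin b) F) (c : F) :
    Matrix.reindex (Equiv.prodComm (Fin a) (Fin b)) (Equiv.prodComm (Fin a) (Fin b))
      (A ⊗ₖ B - c • (1 : Matrix (Fin a × Fin b) (Fin a × Fin b) F)) =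
      B ⊗ₖ A - c • (1 : Matrix (Fin b × Fin a) (Fin b × Fin a) F) := by
  ext ⟨j, i⟩ ⟨j', i'⟩
  simp [Matrix.one_apply, mul_comm, and_comm]

/-! ### TD2-SWAP -/
theorem kron_scalar_of_rank_lt_min {F : Type*} [Field F] {a b : ℕ}
    (A : Matrix (Fin a) (Fin a) F) (B : Matrix (Fin b) (Fin b) F) (c : F) (hc : c ≠ 0)
    (hr : (A ⊗ₖ B - c • (1 : Matrix (Fin a × Fin b) (Fin a × Fin b) F)).rank < min a b) :
    ∃ s : F, A ⊗ₖ B = s • (1 : Matrix (Fin a × Fin b) (Fin a × Fin b) F) := by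
  rcases le_total a b with hab | hab
  · exact Cfsg.Agent.Lib.Helper98.TD.kron_scalar_of_rank_lt hab A B c hc
      (lt_of_lt_of_le hr (min_le_left _ _))
  · have hr' : (B ⊗ₖ A - c • (1 : Matrix (Fin b × Fin a) (Fin b × Fin a) F)).rank < b := by
      rw [← td2swap_reindex, Matrix.rank_reindex]
      exact lt_of_lt_of_le hr (min_le_right _ _)
    obtain ⟨s, hs⟩ := Cfsg.Agent.Lib.Helper98.TD.kron_scalar_of_rank_lt hab B A c hc hr'
    refine ⟨s, ?_⟩
    ext ⟨i, j⟩ ⟨i', j'⟩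
    have h1 := congrFun (congrFun hs (j, i)) (j', i')
    simp only [Matrix.kroneckerMap_apply, Matrix.smul_apply, Matrix.one_apply, Prod.mk.injEq,
      smul_eq_mul] at h1 ⊢
    rw [mul_comm, h1]
    simp [and_comm]

end Cfsg.Agent.Lib.Helper98.TD2
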