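import Mathlib
import Cfsg.Prelude.Def_GeometricClasses
import Cfsg.Prelude.Def_ClassicalGeometry
import Cfsg.Prelude.Def_LieClassical
import Cfsg.Agent.Lib.Helper98.U84Defs
import Cfsg.Agent.Lib.Helper47.GUPrime

/-!
S5984 piece U84-HCP (helper77 for helper98): the characteristic polynomial of a unitary element
fixing both members of a pair of complementary totally singular subspaces.
-/

set_option autoImplicit false

namespace Cfsg.Agent.Lib.Helper98.U84

open Matrix Polynomial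

/-- the two index types have the same cardinality -/
theorem u84hcp_card {F : Type*} [Field F] {n m : ℕ}
    (Pm : Matrix (Fin n) (Fin m ⊕ Fin m) F) (Pi : Matrix (Fin m ⊕ Fin m) (Fin n) F)
    (h1 : Pm * Pi = 1) (h2 : Pi * Pm = 1) :
    Fintype.card (Fin n) = Fintype.card (Fin m ⊕ Fin m) := by
  apply le_antisymm
  · have e1 : (1 : Matrix (Fin n) (Fin n) F).rank = Fintype.card (Fin n) := Matrix.rank_one
    rw [← e1, ← h1]
    exact le_trans (Matrix.rank_mul_le_right _ _) (Matrix.rank_le_card_height _)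
  · have e1 : (1 : Matrix (Fin m ⊕ Fin m) (Fin m ⊕ Fin m) F).rank =
        Fintype.card (Fin m ⊕ Fin m) := Matrix.rank_one
    rw [← e1, ← h2]
    exact le_trans (Matrix.rank_mul_le_right _ _) (Matrix.rank_le_card_height _)

/-! ### U84-HCP -/
theorem charpoly_of_fix {F : Type*} [Field F] [Fintype F] {q n m : ℕ}
    (hF : Fintype.card F = q ^ 2) (D : Fin 2 → Submodule F (Fin n → F))
    (Pm : Matrix (Fin n) (Fin m ⊕ Fin m) F) (Pi : Matrix (Fin m ⊕ Fin m) (Fin n) F)
    (hP : Adapted q D Pm Pi) (σ : F →+* F) (hσq : ∀ x, σ x = x ^ q)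
    (y : GL (Fin n) F) (hyU : y ∈ Cfsg.GU n F q)
    (h0 : (D 0).map (Matrix.toLin' (y : Matrix (Fin n) (Fin n) F)) = D 0)
    (h1 : (D 1).map (Matrix.toLin' (y : Matrix (Fin n) (Fin n) F)) = D 1) :
    ∃ P : F[X], P.Monic ∧ P.coeff 0 ≠ 0 ∧
      (y : Matrix (Fin n) (Fin n) F).charpoly = P * Cfsg.Agent.Lib.Helper47.dualP σ P := by
  classical
  have hq0 : q ≠ 0 := by
    rintro rfl
    have : 0 < Fintype.card F := Fintype.card_pos
    rw [hF] at this
    norm_num at this
  set Y : Matrix (Fin n) (Fin n) F := (y : Matrix (Fin n) (Fin n) F) with hY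
  have hpres : ∀ u v, Cfsg.hermForm n F q (Y *ᵥ u) (Y *ᵥ v) = Cfsg.hermForm n F q u v := hyU
  set M' : Matrix (Fin m ⊕ Fin m) (Fin m ⊕ Fin m) F := Pi * Y * Pm with hM'
  have hPmM : Pm * M' = Y * Pm := by
    rw [hM', ← Matrix.mul_assoc, ← Matrix.mul_assoc, hP.mul_inv, Matrix.one_mul]
  have hyM : ∀ a : Fin m ⊕ Fin m → F, Y *ᵥ (Pm *ᵥ a) = Pm *ᵥ (M' *ᵥ a) := by
    intro a
    rw [Matrix.mulVec_mulVec, Matrix.mulVec_mulVec, hPmM]
  have hcol : ∀ (c : Fin m ⊕ Fin m) (x : Fin m ⊕ Fin m),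
      (M' *ᵥ (_root_.Pi.single c (1 : F))) x = M' x c := by
    intro c x
    simp [Matrix.mulVec, dotProduct, _root_.Pi.single_apply]
  -- block form
  have h21 : ∀ i j, M' (Sum.inr i) (Sum.inl j) = 0 := by
    intro i j
    have hmem : Pm *ᵥ (_root_.Pi.single (Sum.inl j) (1 : F)) ∈ D 0 :=
      (hP.mem0 _).2 (fun i => by simp)
    have hmem2 : Y *ᵥ (Pm *ᵥ (_root_.Pi.single (Sum.inl j) (1 : F))) ∈ D 0 := by
      rw [← h0]
      exact Submodule.mem_map_of_mem hmem
    rw [hyM] at hmem2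
    have := (hP.mem0 _).1 hmem2 i
    rwa [hcol] at this
  have h12 : ∀ i j, M' (Sum.inl i) (Sum.inr j) = 0 := by
    intro i j
    have hmem : Pm *ᵥ (_root_.Pi.single (Sum.inr j) (1 : F)) ∈ D 1 :=
      (hP.mem1 _).2 (fun i => by simp)
    have hmem2 : Y *ᵥ (Pm *ᵥ (_root_.Pi.single (Sum.inr j) (1 : F))) ∈ D 1 := by
      rw [← h1]
      exact Submodule.mem_map_of_mem hmem
    rw [hyM] at hmem2
    have := (hP.mem1 _).1 hmem2 i
    rwa [hcol] at this
  set A : Matrix (Fin m) (Fin m) F := M'.toBlocks₁₁ with hA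
  set B : Matrix (Fin m) (Fin m) F := M'.toBlocks₂₂ with hB
  have hblock : M' = Matrix.fromBlocks A 0 0 B := by
    have e := Matrix.fromBlocks_toBlocks M'
    have e12 : M'.toBlocks₁₂ = 0 := by
      ext i j
      exact h12 i j
    have e21 : M'.toBlocks₂₁ = 0 := by
      ext i j
      exact h21 i j
    rw [e12, e21] at e
    exact e.symm
  -- the unitary condition
  have hhyp : ∀ a b : Fin m ⊕ Fin m → F, hypForm m q F (M' *ᵥ a) (M' *ᵥ b) = hypForm m q F a b := by
    intro a b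
    rw [← hP.form, ← hP.form, ← hyM, ← hyM, hpres]
  have hsT : Cfsg.Agent.Lib.Helper47.sT σ A * B = 1 := by
    ext j k
    have h := hhyp (_root_.Pi.single (Sum.inr k) (1 : F)) (_root_.Pi.single (Sum.inl j) (1 : F))
    unfold hypForm at h
    simp only [hcol] at h
    rw [Matrix.mul_apply, Matrix.one_apply]
    have e1 : ∀ i : Fin m, Cfsg.Agent.Lib.Helper47.sT σ A j i * B i k =
        M' (Sum.inl i) (Sum.inr k) * M' (Sum.inr i) (Sum.inl j) ^ q +
          M' (Sum.inr i) (Sum.inr k) * M' (Sum.inl i) (Sum.inl j) ^ q := by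
      intro i
      rw [h12, zero_mul, zero_add, mul_comm]
      simp [Cfsg.Agent.Lib.Helper47.sT, hA, hB, Matrix.toBlocks₁₁, Matrix.toBlocks₂₂, hσq]
    rw [Finset.sum_congr rfl (fun i _ => e1 i), h]
    simp [_root_.Pi.single_apply, hq0]
  have hdetA : IsUnit A.det := by
    have h := congrArg Matrix.det hsT
    rw [Matrix.det_mul, Cfsg.Agent.Lib.Helper47.det_sT, Matrix.det_one] at h
    rw [isUnit_iff_ne_zero]
    intro h0
    rw [h0, map_zero, zero_mul] at h
    exact zero_ne_one h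
  have hBeq : B = (Cfsg.Agent.Lib.Helper47.sT σ A)⁻¹ := (Matrix.inv_eq_right_inv hsT).symm
  have hcard := u84hcp_card Pm Pi hP.mul_inv hP.inv_mul
  have hYc : Y.charpoly = M'.charpoly := by
    have e1 : Y = (Pm * M') * Pi := by
      rw [hPmM, Matrix.mul_assoc, hP.mul_inv, Matrix.mul_one]
    have e2 : M' = Pi * (Pm * M') := by
      rw [← Matrix.mul_assoc, hP.inv_mul, Matrix.one_mul]
    have h := Matrix.charpoly_mul_comm_of_le (Pm * M') Pi hcard.ge
    rw [← e1, ← e2, hcard, Nat.sub_self, pow_zero, one_mul] at h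
    exact h
  refine ⟨A.charpoly, Matrix.charpoly_monic A, ?_, ?_⟩
  · rw [Cfsg.Agent.Lib.Helper47.charpoly_coeff_zero]
    exact mul_ne_zero (pow_ne_zero _ (neg_ne_zero.mpr one_ne_zero)) hdetA.ne_zero
  · rw [hYc, hblock, Matrix.charpoly_fromBlocks_zero₁₂, hBeq,
      Cfsg.Agent.Lib.Helper47.charpoly_sT_inv A hdetA]

end Cfsg.Agent.Lib.Helper98.U84
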