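import Mathlib
import Cfsg.Agent.Lib.Helper44.UDDefs

/-!
# Piece REFLMONO of S5655 (helper44)
-/

set_option autoImplicit false

namespace Cfsg.Agent.Lib.Helper44.UD

open Matrix Cfsg.Agent.Lib.Helper93 Cfsg.Agent.Lib.Helper18 Cfsg.Agent.Lib.Helper7

theorem ud_reflmono {F : Type*} [Field F] [Fintype F] (q : ℕ) : ReflMonoStmt F q := by
  intro n w s ⟨a, b, c, hab, hac, hbc, ha, hb, hc⟩ hmono
  by_contra hs
  obtain ⟨i, hi⟩ := hmono a
  have hentry : ∀ r : Fin n, r ≠ a → qrefl q n w s r a = (s - 1) * (w r * w a ^ q) := by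
    intro r hr
    simp [qrefl, hrk, Matrix.vecMulVec_apply, Matrix.one_apply_ne hr]
  have hs1 : s - 1 ≠ 0 := sub_ne_zero.mpr hs
  have hb' : qrefl q n w s b a ≠ 0 := by
    rw [hentry b (Ne.symm hab)]
    exact mul_ne_zero hs1 (mul_ne_zero hb (pow_ne_zero q ha))
  have hc' : qrefl q n w s c a ≠ 0 := by
    rw [hentry c (Ne.symm hac)]
    exact mul_ne_zero hs1 (mul_ne_zero hc (pow_ne_zero q ha))
  exact hbc ((hi b hb').trans (hi c hc').symm)

end Cfsg.Agent.Lib.Helper44.UD
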