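import Mathlib
import Cfsg.Agent.Lib.Helper44.UDDefs

/-!
# Piece UNITF of S5655 (helper44): unit vectors with prescribed norm of a linear form
-/

set_option autoImplicit false

namespace Cfsg.Agent.Lib.Helper44.UD

open Matrix Cfsg.Agent.Lib.Helper93 Cfsg.Agent.Lib.Helper18 Cfsg.Agent.Lib.Helper7

theorem udunitf_norm_fixed {F : Type*} [Field F] [Fintype F] {q : ℕ}
    (hF : Fintype.card F = q ^ 2) (z : F) : (z ^ (q + 1)) ^ q = z ^ (q + 1) := by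
  rw [← pow_mul, mul_comm, pow_mul, pow_succ, herm_pow_pow hF, pow_succ']

theorem ud_unitf {F : Type*} [Field F] [Fintype F] (q : ℕ) : UnitFStmt F q := by
  intro hF p₁ p₂ c hp hc0 hc
  have hpp := herm_pow_pow hF
  by_cases hr : p₁ ^ (q + 1) + p₂ ^ (q + 1) = 0
  · -- the degenerate case
    have hp1 : p₁ ≠ 0 := by
      intro h
      rw [h, zero_pow (Nat.succ_ne_zero q), zero_add] at hr
      have h2 : p₂ = 0 := (pow_eq_zero_iff (Nat.succ_ne_zero q)).mp hr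
      rcases hp with h' | h'
      · exact h' h
      · exact h' h2
    have hp2 : p₂ ≠ 0 := by
      intro h
      rw [h, zero_pow (Nat.succ_ne_zero q), add_zero] at hr
      have h2 : p₁ = 0 := (pow_eq_zero_iff (Nat.succ_ne_zero q)).mp hr
      rcases hp with h' | h'
      · exact h' h2
      · exact h' h
    obtain ⟨η, hη0, hη⟩ := herm_norm_surj hF c hc0 hc
    obtain ⟨l, hl⟩ := exists_trace_one hF
    have hP1 : p₁ ^ q ≠ 0 := pow_ne_zero q hp1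
    have hP2 : p₂ ^ q ≠ 0 := pow_ne_zero q hp2
    have he : (c - p₁ ^ (q + 1)) ^ q = c - p₁ ^ (q + 1) := by
      rw [herm_sub_pow hF, hc, udunitf_norm_fixed hF]
    obtain ⟨τ, hτ⟩ : ∃ τ : F, τ + τ ^ q = c - p₁ * p₁ ^ q := by
      refine ⟨(c - p₁ ^ (q + 1)) * l, ?_⟩
      rw [mul_pow, he, ← mul_add, hl, mul_one, pow_succ']
    obtain ⟨y, h2⟩ : ∃ y : F, η * p₂ ^ q * y = τ := by
      refine ⟨τ / (η * p₂ ^ q), ?_⟩
      field_simp
    have h3 : η ^ q * p₂ * y ^ q = τ ^ q := by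
      rw [← h2, mul_pow, mul_pow, hpp]
    have h1 : η * η ^ q = c := by rw [← pow_succ']; exact hη
    have h5 : p₂ * p₂ ^ q + p₁ * p₁ ^ q = 0 := by
      rw [← pow_succ', ← pow_succ', add_comm]; exact hr
    obtain ⟨u, hu⟩ : ∃ u : F, p₁ * u = η - p₂ * y ^ q := by
      refine ⟨(η - p₂ * y ^ q) / p₁, ?_⟩
      field_simp
    have huq : p₁ ^ q * u ^ q = η ^ q - p₂ ^ q * y := by
      rw [← mul_pow, hu, herm_sub_pow hF, mul_pow, hpp]
    refine ⟨u ^ q, y, ?_, ?_⟩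
    · rw [pow_succ', pow_succ', hpp]
      have hne : p₁ ^ q * p₁ ≠ 0 := mul_ne_zero hP1 hp1
      have key : (p₁ ^ q * p₁) * (u ^ q * u + y * y ^ q) = (p₁ ^ q * p₁) * 1 := by
        linear_combination (p₁ * u) * huq + (η ^ q - p₂ ^ q * y) * hu + h1 - h3 - h2 - hτ
          + y * y ^ q * h5
      exact mul_left_cancel₀ hne key
    · rw [hpp, hu, sub_add_cancel]
      exact hη
  · -- the generic case
    set r : F := p₁ ^ (q + 1) + p₂ ^ (q + 1) with hrdef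
    have hrq : r ^ q = r := by
      rw [hrdef, herm_add_pow hF, udunitf_norm_fixed hF, udunitf_norm_fixed hF]
    have hr' : r = p₁ * p₁ ^ q + p₂ * p₂ ^ q := by rw [hrdef, pow_succ', pow_succ']
    have hd1 : (c / r ^ 2) ^ q = c / r ^ 2 := by
      rw [div_pow, hc, ← pow_mul, mul_comm, pow_mul, hrq]
    have hd10 : c / r ^ 2 ≠ 0 := div_ne_zero hc0 (pow_ne_zero 2 hr)
    obtain ⟨β, -, hβ⟩ := herm_norm_surj hF (c / r ^ 2) hd10 hd1
    have hd2 : (r⁻¹ - c / r ^ 2) ^ q = r⁻¹ - c / r ^ 2 := by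
      rw [herm_sub_pow hF, hd1, inv_pow, hrq]
    obtain ⟨γ, hγ⟩ : ∃ γ : F, γ ^ (q + 1) = r⁻¹ - c / r ^ 2 := by
      by_cases h0 : r⁻¹ - c / r ^ 2 = 0
      · exact ⟨0, by rw [h0, zero_pow (Nat.succ_ne_zero q)]⟩
      · obtain ⟨γ, -, hγ⟩ := herm_norm_surj hF _ h0 hd2
        exact ⟨γ, hγ⟩
    have hβ' : β * β ^ q = c / r ^ 2 := by rw [← pow_succ']; exact hβ
    have hγ' : γ * γ ^ q = r⁻¹ - c / r ^ 2 := by rw [← pow_succ']; exact hγ
    have hxq : (β * p₁ - γ * p₂ ^ q) ^ q = β ^ q * p₁ ^ q - γ ^ q * p₂ := by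
      rw [herm_sub_pow hF, mul_pow, mul_pow, hpp]
    have hyq : (β * p₂ + γ * p₁ ^ q) ^ q = β ^ q * p₂ ^ q + γ ^ q * p₁ := by
      rw [herm_add_pow hF, mul_pow, mul_pow, hpp]
    refine ⟨β * p₁ - γ * p₂ ^ q, β * p₂ + γ * p₁ ^ q, ?_, ?_⟩
    · rw [pow_succ', pow_succ', hxq, hyq]
      have hsum : (c / r ^ 2 + (r⁻¹ - c / r ^ 2)) * r = 1 := by
        rw [add_sub_cancel, inv_mul_cancel₀ hr]
      linear_combination (p₁ * p₁ ^ q + p₂ * p₂ ^ q) * hβ' + (p₁ * p₁ ^ q + p₂ * p₂ ^ q) * hγ'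
        + hsum - (c / r ^ 2 + (r⁻¹ - c / r ^ 2)) * hr'
    · have h1 : p₁ * (β * p₁ - γ * p₂ ^ q) ^ q + p₂ * (β * p₂ + γ * p₁ ^ q) ^ q = β ^ q * r := by
        rw [hxq, hyq, hr']; ring
      rw [h1, mul_pow, ← pow_mul, mul_comm q (q + 1), pow_mul, hβ, hd1, pow_succ' r q, hrq]
      field_simp

end Cfsg.Agent.Lib.Helper44.UD
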