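import Cfsg.Agent.Lib.Helper22.W2Defs
import Cfsg.Agent.Lib.Helper33.TIFour

/-!
S4707 project W2 (helper22), piece FCONE (helper77): the Fourier coefficients of the constant
function `1`.
-/

set_option autoImplicit false
set_option linter.unusedSectionVars false

namespace Cfsg.Agent.Lib.Helper77.W2

open Cfsg Cfsg.Agent.Lib.Helper22.W2
open scoped ComplexConjugate

universe u

variable {G : Type u} [Group G] [Fintype G]

/-- PIECE FCONE -/
theorem fc_one (p : ℕ) [Fact p.Prime] (w : ℂ) (hw : IsPrimitiveRoot w p) (z : G) (u : ZMod p) :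
    fc p w z (fun _ => (1 : ℂ)) u = if u = 0 then 1 else 0 := by
  have hp := (Fact.out : p.Prime)
  have hp0 : (p : ℂ) ≠ 0 := by exact_mod_cast hp.ne_zero
  unfold fc
  have h1 : ∑ t : ZMod p, conj (w ^ (u * t).val) * (1 : ℂ) =
      conj (∑ t : ZMod p, w ^ (u * t).val) := by
    rw [map_sum]
    refine Finset.sum_congr rfl fun t _ => ?_
    rw [mul_one]
  rw [h1, Cfsg.Agent.Lib.Helper33.TI.sum_pow_val p w hw u]
  split_ifs with h
  · rw [Complex.conj_natCast, inv_mul_cancel₀ hp0]
  · rw [map_zero, mul_zero]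

end Cfsg.Agent.Lib.Helper77.W2
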